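import Cfsg.Agent.Lib.FGS.Elem
import Cfsg.Agent.Lib.Solv.Fit
import Cfsg.Agent.Lib.H3.Comp2
import Mathlib

/-!
Chief factors and the Fitting subgroup.
-/

set_option autoImplicit false
set_option linter.unusedSectionVars false

open scoped commutatorElement Pointwise

namespace CfsgLib.FGS

open Subgroup

variable {G : Type*} [Group G]

theorem commutator_sup_normal_le (T V F : Subgroup G) [hVn : V.Normal] (hV : ⁅V, F⁆ ≤ V) :
    ⁅T ⊔ V, F⁆ ≤ ⁅T, F⁆ ⊔ V := by
  rw [Subgroup.commutator_le]
  intro x hx f hf
  rw [← SetLike.mem_coe, Subgroup.mul_normal] at hx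
  obtain ⟨t, ht, v, hv, rfl⟩ := Set.mem_mul.1 hx
  have e : ⁅t * v, f⁆ = (t * ⁅v, f⁆ * t⁻¹) * ⁅t, f⁆ := by
    simp only [commutatorElement_def]
    group
  rw [e]
  refine Subgroup.mul_mem _ (Subgroup.mem_sup_right ?_)
    (Subgroup.mem_sup_left (Subgroup.commutator_mem_commutator ht hf))
  exact hVn.conj_mem _ (hV (Subgroup.commutator_mem_commutator hv hf)) t

/-- Nilpotent normal subgroups centralize chief factors. -/
theorem chief_centralized (F U V : Subgroup G) [hFn : F.Normal] [hUn : U.Normal] [hVn : V.Normal]
    (hF : Group.IsNilpotent F) (hVU : V < U)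
    (hmin : ∀ W : Subgroup G, W.Normal → V ≤ W → W ≤ U → W = V ∨ W = U) : ⁅U, F⁆ ≤ V := by
  have hVc : ⁅V, F⁆ ≤ V := Subgroup.commutator_le_left V F
  have hW : (⁅U, F⁆ ⊔ V : Subgroup G) ≤ U :=
    sup_le (Subgroup.commutator_le_left U F) hVU.le
  rcases hmin (⁅U, F⁆ ⊔ V) inferInstance le_sup_right hW with h | h
  · rw [← h]
    exact le_sup_left
  · exfalso
    have hall : ∀ j : ℕ, U ≤ F.lowerCentralSeries j ⊔ V := by
      intro j
      induction j with
      | zero =>
        rw [Subgroup.lowerCentralSeries_zero]
        conv_lhs => rw [← h]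
        exact sup_le_sup_right (Subgroup.commutator_le_right U F) V
      | succ j ih =>
        rw [Subgroup.lowerCentralSeries_succ]
        conv_lhs => rw [← h]
        refine sup_le ?_ le_sup_right
        exact (Subgroup.commutator_mono ih le_rfl).trans (commutator_sup_normal_le _ V F hVc)
    obtain ⟨n, hn⟩ := (Subgroup.isNilpotent_iff_lowerCentralSeries F).1 hF
    have := hall n
    rw [hn, bot_sup_eq] at this
    exact absurd this (not_le_of_gt hVU)

theorem upper_commutator_top (n : ℕ) :
    ⁅Subgroup.upperCentralSeries G n, (⊤ : Subgroup G)⁆ ≤ Subgroup.upperCentralSeries G (n - 1) := by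
  rcases n with _ | n
  · simp
  · rw [Subgroup.commutator_le]
    intro x hx y _
    exact Subgroup.mem_upperCentralSeries_succ_iff.1 hx y

theorem upper_lower_commutator (i m : ℕ) :
    ⁅Subgroup.upperCentralSeries G m, Subgroup.lowerCentralSeries (⊤ : Subgroup G) i⁆ ≤ Subgroup.upperCentralSeries G (m - (i + 1)) := by
  induction i generalizing m with
  | zero => exact upper_commutator_top m
  | succ i ih =>
    rw [Subgroup.lowerCentralSeries_succ, Subgroup.commutator_comm]
    apply three_subgroups_mod
    · have h1 : ⁅(⊤ : Subgroup G), Subgroup.upperCentralSeries G m⁆ ≤ Subgroup.upperCentralSeries G (m - 1) := by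
        rw [Subgroup.commutator_comm]
        exact upper_commutator_top m
      refine (Subgroup.commutator_mono h1 le_rfl).trans ?_
      have h2 := ih (m - 1)
      have e : m - (i + 1 + 1) = m - 1 - (i + 1) := by omega
      rw [e]
      exact h2
    · refine (Subgroup.commutator_mono (ih m) le_rfl).trans ?_
      have h2 := upper_commutator_top (G := G) (m - (i + 1))
      have e : m - (i + 1 + 1) = m - (i + 1) - 1 := by omega
      rw [e]
      exact h2

/-- A hypercentral self-centralizing subgroup forces nilpotency. -/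
theorem nilpotent_of_hypercentral (A : Subgroup G) (n : ℕ) (hA : A ≤ Subgroup.upperCentralSeries G n)
    (hC : centralizer (A : Set G) ≤ A) : Group.IsNilpotent G := by
  have h1 : Subgroup.lowerCentralSeries (⊤ : Subgroup G) n ≤ Subgroup.upperCentralSeries G n := by
    refine le_trans ?_ (hC.trans hA)
    intro x hx
    rw [Subgroup.mem_centralizer_iff]
    intro a ha
    have h2 := upper_lower_commutator (G := G) n n
    have e : n - (n + 1) = 0 := by omega
    rw [e, Subgroup.upperCentralSeries_zero] at h2
    have h3 := h2 (Subgroup.commutator_mem_commutator (hA ha) hx)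
    rw [Subgroup.mem_bot, commutatorElement_eq_one_iff_mul_comm] at h3
    exact h3
  have h2 : ∀ j : ℕ, Subgroup.lowerCentralSeries (⊤ : Subgroup G) (n + j) ≤ Subgroup.upperCentralSeries G (n - j) := by
    intro j
    induction j with
    | zero => exact h1
    | succ j ih =>
      rw [← add_assoc, Subgroup.lowerCentralSeries_succ]
      refine (Subgroup.commutator_mono ih le_rfl).trans ?_
      have e : n - (j + 1) = n - j - 1 := by omega
      rw [e]
      exact upper_commutator_top (n - j)
  rw [Subgroup.nilpotent_iff_lowerCentralSeries]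
  refine ⟨n + n, ?_⟩
  have := h2 n
  simp only [Nat.sub_self, Subgroup.upperCentralSeries_zero, le_bot_iff] at this
  exact this

end CfsgLib.FGS
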