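import Cfsg.Agent.Lib.FGS.AutP
import Mathlib

/-!
Order of the automorphism group of a `p`-group, and consequences.
-/

set_option autoImplicit false
set_option linter.unusedSectionVars false

namespace CfsgLib.FGS

open Subgroup

universe u

variable {P : Type u} [Group P] [Finite P] {p r : ℕ} [Fact p.Prime]

theorem rank_ge_abstract {V : Type*} [AddCommGroup V] [Finite V] [Module (ZMod p) V]
    (hcardV : Nat.card V = p ^ r) (f : P → V)
    (hfmul : ∀ a b, f (a * b) = f a + f b) (hfinv : ∀ a, f a⁻¹ = - f a)
    (hfone : f 1 = 0) (hsurj : ∀ v, ∃ g, f g = v) (S : Finset P)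
    (hy : closure (S : Set P) = ⊤) : r ≤ S.card := by
  classical
  have hfin := CfsgLib.Solv.finrank_eq_of_card (V := V) (p := p) r hcardV
  have hspan : Submodule.span (ZMod p) (f '' (S : Set P)) = ⊤ := by
    rw [eq_top_iff]
    rintro v -
    obtain ⟨g, rfl⟩ := hsurj v
    have hg : g ∈ closure (S : Set P) := by rw [hy]; trivial
    induction hg using Subgroup.closure_induction with
    | mem x hx => exact Submodule.subset_span ⟨x, hx, rfl⟩
    | one => rw [hfone]; exact Submodule.zero_mem _
    | mul a b _ _ ha hb =>
      rw [hfmul]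
      exact Submodule.add_mem _ ha hb
    | inv a _ ha =>
      rw [hfinv]
      exact Submodule.neg_mem _ ha
  have h1 : Module.finrank (ZMod p) (Submodule.span (ZMod p) ((S.image f : Finset V) : Set V)) ≤ (S.image f).card :=
    finrank_span_finset_le_card _
  rw [Finset.coe_image, hspan, finrank_top, hfin] at h1
  exact h1.trans Finset.card_image_le

/-- The Frattini index exponent is at most the rank. -/
theorem frattini_exp_le_rank (hG : IsPGroup p P) (hr : (frattini P).index = p ^ r) :
    r ≤ Group.rank P := by
  classical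
  obtain ⟨h1, h2⟩ := CfsgLib.Solv.pgroup_commutator_pow_le_frattini hG
  letI cg : CommGroup (P ⧸ frattini P) := { (inferInstance : Group (P ⧸ frattini P)) with
    mul_comm := by
      intro a b
      obtain ⟨a, rfl⟩ := QuotientGroup.mk'_surjective (frattini P) a
      obtain ⟨b, rfl⟩ := QuotientGroup.mk'_surjective (frattini P) b
      rw [← commutatorElement_eq_one_iff_mul_comm, ← map_commutatorElement]
      exact (QuotientGroup.eq_one_iff _).2 (h1 (Subgroup.commutator_mem_commutator trivial trivial)) }
  have hpow : ∀ y : P ⧸ frattini P, y ^ p = 1 := by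
    intro y
    obtain ⟨y, rfl⟩ := QuotientGroup.mk'_surjective (frattini P) y
    rw [← map_pow]
    exact (QuotientGroup.eq_one_iff _).2 (h2 y)
  letI md : Module (ZMod p) (Additive (P ⧸ frattini P)) := AddCommGroup.zmodModule (n := p) (fun x => by
    have : p • x = Additive.ofMul ((Additive.toMul x) ^ p) := rfl
    rw [this, hpow]; rfl)
  obtain ⟨S, hS1, hS2⟩ := Group.rank_spec P
  rw [← hS1]
  exact rank_ge_abstract (V := Additive (P ⧸ frattini P)) (by rw [← hr]; rfl)
    (fun g => Additive.ofMul (QuotientGroup.mk g))
    (fun _ _ => rfl) (fun _ => rfl) rfl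
    (fun v => ⟨Quotient.out (Additive.toMul v), by
      show Additive.ofMul (QuotientGroup.mk (Quotient.out (Additive.toMul v))) = v
      rw [QuotientGroup.out_eq']
      rfl⟩) S hS2

/-- The automorphism group order divides the generating tuple count. -/
theorem card_mulAut_dvd (hG : IsPGroup p P) (hr : (frattini P).index = p ^ r) :
    Nat.card (MulAut P) ∣ (∏ i ∈ Finset.range r, (p ^ r - p ^ i)) * Nat.card (frattini P) ^ r := by
  classical
  rw [← card_generating_tuples hG hr]
  letI act : MulAction (MulAut P) {y : Fin r → P // closure (Set.range y) = ⊤} :=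
    { smul := fun a y => ⟨fun i => a (y.1 i), by
        have : Set.range (fun i => a (y.1 i)) = (a.toMonoidHom) '' Set.range y.1 := by
          ext z
          constructor
          · rintro ⟨i, rfl⟩
            exact ⟨y.1 i, ⟨i, rfl⟩, rfl⟩
          · rintro ⟨_, ⟨i, rfl⟩, rfl⟩
            exact ⟨i, rfl⟩
        rw [this, ← MonoidHom.map_closure, y.2]
        exact Subgroup.map_top_of_surjective _ a.surjective⟩
      one_smul := by
        intro y
        apply Subtype.ext
        funext i
        rfl
      mul_smul := by
        intro a b y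
        apply Subtype.ext
        funext i
        rfl }
  apply card_dvd_of_free
  intro y a h
  apply aut_eq_one_of_fix_generating y.2
  intro i
  exact congrFun (congrArg Subtype.val h) i

/-- An automorphism of `p`-group whose order is prime to `p` and all `p^i-1`, `i ≤ r`, is trivial. -/
theorem aut_eq_one_of_coprime (hG : IsPGroup p P) (hr : (frattini P).index = p ^ r)
    (a : MulAut P) (h1 : (orderOf a).Coprime p)
    (h2 : ∀ i, 1 ≤ i → i ≤ r → (orderOf a).Coprime (p ^ i - 1)) : a = 1 := by
  classical
  have hp : p.Prime := Fact.out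
  have hd : orderOf a ∣ (∏ i ∈ Finset.range r, (p ^ r - p ^ i)) * Nat.card (frattini P) ^ r :=
    (orderOf_dvd_natCard a).trans (card_mulAut_dvd hG hr)
  have hphi : (orderOf a).Coprime (Nat.card (frattini P) ^ r) := by
    apply Nat.Coprime.pow_right
    have hPh : IsPGroup p (frattini P) := hG.to_subgroup _
    obtain ⟨k, hk⟩ := IsPGroup.iff_card.1 hPh
    rw [hk]
    exact Nat.Coprime.pow_right _ h1
  have hprod : (orderOf a).Coprime (∏ i ∈ Finset.range r, (p ^ r - p ^ i)) := by
    apply Nat.Coprime.prod_right
    intro i hi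
    have hir : i < r := Finset.mem_range.1 hi
    have e : p ^ r - p ^ i = p ^ i * (p ^ (r - i) - 1) := by
      rw [Nat.mul_sub, ← pow_add, mul_one]
      congr 2
      omega
    rw [e]
    exact Nat.Coprime.mul_right (Nat.Coprime.pow_right _ h1) (h2 _ (by omega) (by omega))
  have h3 : orderOf a = 1 := Nat.Coprime.eq_one_of_dvd (Nat.Coprime.mul_right hprod hphi) hd
  exact orderOf_eq_one_iff.1 h3

/-- An element of order prime to `p` and all `p^i-1`, `i ≤ r` normalizing a `p`-subgroup
centralizes it. -/
theorem centralizes_of_normalizes_coprime {G : Type*} [Group G] [Finite G] (U : Subgroup G)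
    (hU : IsPGroup p U) (hr : (frattini U).index = p ^ r) (g : G)
    (hg : g ∈ normalizer (U : Set G)) (h1 : (orderOf g).Coprime p)
    (h2 : ∀ i, 1 ≤ i → i ≤ r → (orderOf g).Coprime (p ^ i - 1)) :
    g ∈ centralizer (U : Set G) := by
  have hdv : orderOf (U.normalizerMonoidHom ⟨g, hg⟩) ∣ orderOf g := by
    have := orderOf_map_dvd U.normalizerMonoidHom (⟨g, hg⟩ : normalizer (U : Set G))
    rwa [Subgroup.orderOf_mk] at this
  have h3 : U.normalizerMonoidHom ⟨g, hg⟩ = 1 := by
    apply aut_eq_one_of_coprime hU hr
    · exact Nat.Coprime.coprime_dvd_left hdv h1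
    · intro i hi1 hi2
      exact Nat.Coprime.coprime_dvd_left hdv (h2 i hi1 hi2)
  rw [Subgroup.mem_centralizer_iff]
  intro u hu
  have h4 := DFunLike.congr_fun h3 ⟨u, hu⟩
  have h5 : g * u * g⁻¹ = u := congrArg Subtype.val h4
  rw [mul_inv_eq_iff_eq_mul] at h5
  exact h5.symm

/-- A group with a cyclic subgroup of index at most two has rank at most two. -/
theorem rank_le_two_of_cyclic_index (Q : Type*) [Group Q] [Finite Q] (C : Subgroup Q)
    (hC : IsCyclic C) (hi : C.index ≤ 2) : Group.rank Q ≤ 2 := by
  classical
  obtain ⟨c, hc⟩ := hC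
  have hCle : ∀ S : Subgroup Q, (c : Q) ∈ S → C ≤ S := by
    intro S hS y hy
    obtain ⟨k, hk⟩ := hc ⟨y, hy⟩
    have h1 : (c : Q) ^ k = y := congrArg Subtype.val hk
    rw [← h1]
    exact Subgroup.zpow_mem _ hS k
  by_cases hCt : C = ⊤
  · have : Group.rank Q ≤ ({(c : Q)} : Finset Q).card := by
      apply Group.rank_le
      rw [eq_top_iff, ← hCt]
      apply hCle
      exact subset_closure (by simp)
    simp at this
    omega
  · obtain ⟨b, hb⟩ : ∃ b, b ∉ C := by
      by_contra h
      push Not at h
      exact hCt (eq_top_iff.2 (fun y _ => h y))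
    have : Group.rank Q ≤ ({(c : Q), b} : Finset Q).card := by
      apply Group.rank_le
      set H := closure (({(c : Q), b} : Finset Q) : Set Q) with hH
      have hcH : (c : Q) ∈ H := subset_closure (by simp)
      have hbH : b ∈ H := subset_closure (by simp)
      have hle : C ≤ H := hCle H hcH
      have h1 := Subgroup.relIndex_mul_index hle
      have h2 : C.relIndex H ≠ 1 := by
        intro h
        rw [Subgroup.relIndex_eq_one] at h
        exact hb (h hbH)
      have h3 : C.relIndex H ≠ 0 := Subgroup.index_ne_zero_of_finite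
      have h4 : H.index ≠ 0 := Subgroup.index_ne_zero_of_finite
      have h5 : H.index = 1 := by
        by_contra h6
        have h7 : 2 ≤ C.relIndex H := by omega
        have h8 : 2 ≤ H.index := by omega
        have h9 : 2 * 2 ≤ C.relIndex H * H.index := Nat.mul_le_mul h7 h8
        omega
      exact Subgroup.index_eq_one.1 h5
    exact this.trans Finset.card_le_two

end CfsgLib.FGS
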