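import Mathlib

/-!
# Counting conjugacy classes through commuting pairs.
-/

set_option autoImplicit false
set_option linter.unusedSectionVars false
set_option linter.style.haveILetI false

namespace CfsgLib.FGS

/-- Counting pairs by the first coordinate. -/
theorem card_pairs_eq_sum {A B : Type*} [Fintype A] [Finite B] (P : A → B → Prop) :
    Nat.card {p : A × B // P p.1 p.2} = ∑ a : A, Nat.card {b : B // P a b} := by
  classical
  rw [Nat.card_congr (Equiv.subtypeProdEquivSigmaSubtype P), Nat.card_sigma]

/-- Counting pairs by the second coordinate. -/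
theorem card_pairs_eq_sum' {A B : Type*} [Finite A] [Fintype B] (P : A → B → Prop) :
    Nat.card {p : A × B // P p.1 p.2} = ∑ b : B, Nat.card {a : A // P a b} := by
  classical
  have e : {p : A × B // P p.1 p.2} ≃ {p : B × A // P p.2 p.1} :=
    Equiv.subtypeEquiv (Equiv.prodComm A B) (fun p => Iff.rfl)
  rw [Nat.card_congr e]
  exact card_pairs_eq_sum (fun b a => P a b)

variable {G : Type*} [Group G]

/-- `k(G) |G| = Σ_x |C_G(x)|`. -/
theorem card_classes_mul_card [Finite G] [Fintype G] :
    Nat.card (ConjClasses G) * Nat.card G = ∑ x : G, Nat.card {y : G // x * y = y * x} := by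
  rw [← card_comm_eq_card_conjClasses_mul_card]
  exact card_pairs_eq_sum (fun x y : G => Commute x y)

/-- `|C_X(x)| ≤ [X : Y] |C_Y(x)|`. -/
theorem card_centralizer_le [Finite G] (Y : Subgroup G) (x : G) :
    Nat.card {y : G // x * y = y * x} ≤ Y.index * Nat.card {y : Y // x * (y : G) = (y : G) * x} := by
  classical
  set K := Subgroup.centralizer ({x} : Set G) with hK
  have hmemK : ∀ y, y ∈ K ↔ x * y = y * x := by
    intro y
    rw [hK, Subgroup.mem_centralizer_singleton_iff]
    exact eq_comm
  have e1 : Nat.card {y : G // x * y = y * x} = Nat.card K :=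
    Nat.card_congr (Equiv.subtypeEquivRight (fun y => (hmemK y).symm))
  have e2 : Nat.card {y : Y // x * (y : G) = (y : G) * x} = Nat.card (Y.subgroupOf K) := by
    apply Nat.card_congr
    exact
      { toFun := fun y => ⟨⟨y.1, (hmemK _).mpr y.2⟩, y.1.2⟩
        invFun := fun z => ⟨⟨z.1.1, z.2⟩, (hmemK _).mp z.1.2⟩
        left_inv := fun y => rfl
        right_inv := fun z => rfl }
  rw [e1, e2, ← (Y.subgroupOf K).card_mul_index, mul_comm]
  apply Nat.mul_le_mul_right
  have h1 : Y.relIndex K ≤ Y.relIndex ⊤ :=
    Subgroup.relIndex_le_of_le_right le_top (by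
      rw [Subgroup.relIndex_top_right]
      exact Subgroup.index_ne_zero_of_finite)
  rwa [Subgroup.relIndex_top_right] at h1

end CfsgLib.FGS
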