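import Cfsg.Agent.Lib.FGS.Eigen
import Cfsg.Agent.S0444
import Cfsg.Prelude.Def_LocalEven

/-! Transvection-type counting for elementary abelian `2`-groups acting on elementary abelian
`2`-groups; no `S₃` sections. -/

namespace CfsgLib.FGS.Eigen

section Count

variable {V : Type*} [Group V]

/-- The fixed points of an automorphism. -/
def Fx (a : MulAut V) : Subgroup V where
  carrier := {v | a v = v}
  one_mem' := map_one a
  mul_mem' := by
    intro x y hx hy
    show a (x * y) = x * y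
    rw [map_mul, show a x = x from hx, show a y = y from hy]
  inv_mem' := by
    intro x hx
    show a x⁻¹ = x⁻¹
    rw [map_inv, show a x = x from hx]

theorem mem_Fx {a : MulAut V} {v : V} : v ∈ Fx a ↔ a v = v := Iff.rfl

theorem pow_fix (σ : MulAut V) (v : V) (h : σ v = v) : ∀ k : ℕ, (σ ^ k) v = v := by
  intro k
  induction k with
  | zero => rfl
  | succ k ih => rw [pow_succ, MulAut.mul_apply, h, ih]

theorem fix_of_coprime (σ : MulAut V) (r : ℕ) (hr : 1 < r) (hσ : σ ^ r = 1) (m : ℕ)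
    (hm : Nat.Coprime m r) (v : V) (h : (σ ^ m) v = v) : σ v = v := by
  obtain ⟨k, _, hk⟩ := Nat.exists_mul_mod_eq_one_of_coprime hm hr
  have h1 : σ ^ (m * k) = σ := by
    rw [pow_eq_pow_mod (m * k) hσ, hk, pow_one]
  rw [← h1, pow_mul]
  exact pow_fix _ _ h k

theorem fix_lift (hcomm : ∀ x y : V, x * y = y * x) (hsq : ∀ x : V, x * x = 1)
    (a z : MulAut V) (W : Subgroup V) (haW : ∀ v ∈ W, a v ∈ W) (hzW : ∀ v ∈ W, z v ∈ W)
    (ha : a * a = 1) (haz : a * z = z * a) (s : ℕ) (hs : Odd s) (hs1 : 1 < s) (hzs : z ^ s = 1)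
    (h : ∀ v ∈ W, a v = v → z v = v) : ∀ v ∈ W, z v = v := by
  have ha' : ∀ x, a (a x) = x := fun x => by
    rw [← MulAut.mul_apply, ha]
    rfl
  have haz' : ∀ x, a (z x) = z (a x) := fun x => by
    rw [← MulAut.mul_apply, haz]
    rfl
  intro v hv
  have hw : a (v * a v) = v * a v := by rw [map_mul, ha', hcomm]
  have h1 := h _ (W.mul_mem hv (haW v hv)) hw
  rw [map_mul] at h1
  obtain ⟨u, hu⟩ : ∃ u, u = z v * v := ⟨_, rfl⟩
  have hau : a u = u := by
    rw [hu, map_mul, haz']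
    have h2 : z (a v) = z v * v * a v := by
      calc z (a v) = z v * (z v * z (a v)) := by rw [← mul_assoc, hsq, one_mul]
        _ = z v * (v * a v) := by rw [h1]
        _ = z v * v * a v := by rw [mul_assoc]
    rw [h2, mul_assoc, hsq, mul_one]
  have huW : u ∈ W := by
    rw [hu]
    exact W.mul_mem (hzW v hv) hv
  have hzu : z u = u := h u huW hau
  have h3 : z v = u * v := by rw [hu, mul_assoc, hsq, mul_one]
  have h4 : (z ^ 2) v = v := by
    rw [sq, MulAut.mul_apply]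
    calc z (z v) = z (u * v) := by rw [← h3]
      _ = u * z v := by rw [map_mul, hzu]
      _ = u * (u * v) := by rw [h3]
      _ = v := by rw [← mul_assoc, hsq, one_mul]
  exact fix_of_coprime z s hs1 hzs 2 (Nat.coprime_two_left.2 hs) v h4

theorem index_four [Finite V] (hcomm : ∀ x y : V, x * y = y * x) (hsq : ∀ x : V, x * x = 1)
    (a y : MulAut V) (W : Subgroup V) (haW : ∀ v ∈ W, a v ∈ W) (hyW : ∀ v ∈ W, y v ∈ W)
    (ha : a * a = 1) (hay : a * y * a = y⁻¹) (r : ℕ) (hr : r.Prime) (hr2 : r ≠ 2) (hr3 : r ≠ 3)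
    (hyr : y ^ r = 1) (hnt : ∃ v ∈ W, y v ≠ v) : 4 ≤ (W ⊓ Fx a).relIndex W := by
  classical
  by_contra hlt
  push Not at hlt
  have ha' : ∀ x, a (a x) = x := fun x => by
    rw [← MulAut.mul_apply, ha]
    rfl
  have hyinvW : ∀ v ∈ W, y⁻¹ v ∈ W := by
    intro v hv
    have h1 : y⁻¹ = y ^ (r - 1) := by
      rw [inv_eq_iff_mul_eq_one, ← pow_succ']
      rw [Nat.sub_add_cancel hr.one_lt.le, hyr]
    have h2 : ∀ k : ℕ, (y ^ k) v ∈ W := by
      intro k
      induction k with
      | zero => exact hv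
      | succ k ih =>
        rw [pow_succ', MulAut.mul_apply]
        exact hyW _ ih
    rw [h1]
    exact h2 _
  have hyy : ∀ v, y (y⁻¹ v) = v := fun v => by
    rw [← MulAut.mul_apply, mul_inv_cancel]
    rfl
  have hyy' : ∀ v, y⁻¹ (y v) = v := fun v => by
    rw [← MulAut.mul_apply, inv_mul_cancel]
    rfl
  have hay' : ∀ v, a (y v) = y⁻¹ (a v) := by
    intro v
    rw [← hay, MulAut.mul_apply, MulAut.mul_apply, ha']
  have hrodd : Nat.Coprime 2 r := (Nat.coprime_primes Nat.prime_two hr).2 (Ne.symm hr2)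
  obtain ⟨v1, hv1, hv1n⟩ := hnt
  -- `W` is a 2-group
  have hW2 : IsPGroup 2 W := by
    intro x
    refine ⟨1, ?_⟩
    apply Subtype.ext
    show (x : V) ^ 2 ^ 1 = 1
    rw [pow_one, sq]
    exact hsq _
  obtain ⟨k, hk⟩ := IsPGroup.iff_card.1 hW2
  set H := (W ⊓ Fx a).subgroupOf W with hH
  have hidx : H.index = (W ⊓ Fx a).relIndex W := rfl
  have hdvd : H.index ∣ 2 ^ k := by
    rw [← hk]
    exact Subgroup.index_dvd_card H
  obtain ⟨j, _, hj⟩ := (Nat.dvd_prime_pow Nat.prime_two).1 hdvd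
  have hmemH : ∀ v (hv : v ∈ W), (⟨v, hv⟩ : W) ∈ H ↔ a v = v := by
    intro v hv
    rw [hH, Subgroup.mem_subgroupOf]
    exact ⟨fun h => h.2, fun h => ⟨hv, h⟩⟩
  have hj2 : j = 0 ∨ j = 1 := by
    by_contra hcon
    push Not at hcon
    have h1 : 2 ≤ j := by omega
    have h2 : 2 ^ 2 ≤ 2 ^ j := Nat.pow_le_pow_right (by norm_num) h1
    rw [← hidx, hj] at hlt
    omega
  -- the trivial case: a is trivial on W
  have htriv : ¬ ∀ v ∈ W, a v = v := by
    intro hall
    apply hv1n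
    apply fix_of_coprime y r hr.one_lt hyr 2 hrodd v1
    rw [sq, MulAut.mul_apply]
    have h1 := hay' v1
    rw [hall _ (hyW _ hv1), hall _ hv1] at h1
    rw [h1, hyy]
  rcases hj2 with rfl | rfl
  · rw [pow_zero] at hj
    apply htriv
    intro v hv
    have h1 : (⟨v, hv⟩ : W) ∈ H := by
      rw [Subgroup.index_eq_one] at hj
      rw [hj]
      exact Subgroup.mem_top _
    exact (hmemH v hv).1 h1
  rw [pow_one] at hj
  push Not at htriv
  obtain ⟨v0, hv0, hv0n⟩ := htriv
  obtain ⟨w, hw⟩ : ∃ w, w = v0 * a v0 := ⟨_, rfl⟩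
  have hwW : w ∈ W := by
    rw [hw]
    exact W.mul_mem hv0 (haW _ hv0)
  have hadich : ∀ v ∈ W, a v = v ∨ a v = v * w := by
    intro v hv
    by_cases hf : a v = v
    · exact Or.inl hf
    · right
      have h1 : (⟨v, hv⟩ * ⟨v0, hv0⟩ : W) ∈ H := by
        rw [Subgroup.mul_mem_iff_of_index_two hj, hmemH, hmemH]
        exact ⟨fun h => absurd h hf, fun h => absurd h hv0n⟩
      have h2 : a (v * v0) = v * v0 := (hmemH (v * v0) (W.mul_mem hv hv0)).1 h1
      rw [map_mul] at h2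
      calc a v = a v * a v0 * a v0 := by rw [mul_assoc, hsq, mul_one]
        _ = v * v0 * a v0 := by rw [h2]
        _ = v * w := by rw [hw, mul_assoc]
  obtain ⟨w1, hw1⟩ : ∃ w1, w1 = y w := ⟨_, rfl⟩
  have hw1W : w1 ∈ W := by
    rw [hw1]
    exact hyW _ hwW
  obtain ⟨b, hb⟩ : ∃ b : MulAut V, b = y * a * y⁻¹ := ⟨_, rfl⟩
  have hbW : ∀ v ∈ W, b v ∈ W := by
    intro v hv
    rw [hb, MulAut.mul_apply, MulAut.mul_apply]
    exact hyW _ (haW _ (hyinvW _ hv))
  have hbdich : ∀ v ∈ W, b v = v ∨ b v = v * w1 := by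
    intro v hv
    rw [hb, MulAut.mul_apply, MulAut.mul_apply]
    rcases hadich _ (hyinvW v hv) with h | h
    · left
      rw [h, hyy]
    · right
      rw [h, map_mul, hyy, hw1]
  obtain ⟨T, hT⟩ : ∃ T : Subgroup V, T = Subgroup.zpowers w ⊔ Subgroup.zpowers w1 := ⟨_, rfl⟩
  have hwT : w ∈ T := by
    rw [hT]
    exact Subgroup.mem_sup_left (Subgroup.mem_zpowers w)
  have hw1T : w1 ∈ T := by
    rw [hT]
    exact Subgroup.mem_sup_right (Subgroup.mem_zpowers w1)
  have hTW : T ≤ W := by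
    rw [hT]
    exact sup_le ((Subgroup.zpowers_le).2 hwW) ((Subgroup.zpowers_le).2 hw1W)
  have hcardT : Nat.card T ≤ 4 := by
    have h1 : ∀ x : V, orderOf x ≤ 2 := fun x => by
      refine Nat.le_of_dvd (by norm_num) (orderOf_dvd_of_pow_eq_one ?_)
      rw [sq]
      exact hsq x
    have h2 := card_sup_le_of_commute (Subgroup.zpowers w) (Subgroup.zpowers w1) (fun x _ z _ => hcomm x z)
    rw [Nat.card_zpowers, Nat.card_zpowers, ← hT] at h2
    calc Nat.card T ≤ orderOf w * orderOf w1 := h2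
      _ ≤ 2 * 2 := Nat.mul_le_mul (h1 _) (h1 _)
  obtain ⟨n, hn⟩ : ∃ n : MulAut V, n = a * b := ⟨_, rfl⟩
  have hny : n = y⁻¹ ^ 2 := by
    rw [hn, hb, sq, ← hay]
    group
  have hnW : ∀ v ∈ W, n v ∈ W := by
    intro v hv
    rw [hn, MulAut.mul_apply]
    exact haW _ (hbW _ hv)
  have hnT : ∀ v ∈ W, n v * v⁻¹ ∈ T := by
    intro v hv
    have h1 : ∀ v ∈ W, a v * v⁻¹ ∈ T := by
      intro v hv
      rcases hadich v hv with h | h
      · rw [h, mul_inv_cancel]
        exact T.one_mem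
      · rw [h, hcomm v w, mul_inv_cancel_right]
        exact hwT
    have h2 : b v * v⁻¹ ∈ T := by
      rcases hbdich v hv with h | h
      · rw [h, mul_inv_cancel]
        exact T.one_mem
      · rw [h, hcomm v w1, mul_inv_cancel_right]
        exact hw1T
    have h3 : n v * v⁻¹ = (a (b v) * (b v)⁻¹) * (b v * v⁻¹) := by
      rw [hn, MulAut.mul_apply]
      group
    rw [h3]
    exact T.mul_mem (h1 _ (hbW v hv)) h2
  have hTinv : ∀ x ∈ T, n x ∈ T := by
    intro x hx
    have h1 := T.mul_mem (hnT x (hTW hx)) hx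
    rwa [inv_mul_cancel_right] at h1
  have hnr : n ^ r = 1 := by
    rw [hny, ← pow_mul, mul_comm, pow_mul, inv_pow, hyr, inv_one, one_pow]
  let f : Function.End T := fun x => ⟨n x.1, hTinv x.1 x.2⟩
  have hfk : ∀ k (x : T), ((f ^ k) x : V) = (n ^ k) x.1 := by
    intro k
    induction k with
    | zero =>
      intro x
      rfl
    | succ k ih =>
      intro x
      rw [pow_succ', pow_succ']
      show n (((f ^ k) x : T) : V) = (n * n ^ k) x.1
      rw [ih, MulAut.mul_apply]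
  have hf : f ^ r ^ 1 = 1 := by
    rw [pow_one]
    funext x
    apply Subtype.ext
    rw [hfk, hnr]
    rfl
  haveI : Fact r.Prime := ⟨hr⟩
  haveI : Fintype T := Fintype.ofFinite T
  have hmod := Equiv.Perm.card_fixedPoints_modEq (f := f) (p := r) (n := 1) hf
  have hr5 : 5 ≤ r := by
    have h4 : r ≠ 4 := by
      rintro rfl
      norm_num at hr
    have := hr.two_le
    omega
  have hTcard : Fintype.card T < r := by
    rw [← Nat.card_eq_fintype_card]
    omega
  have hfixcard : Fintype.card f.fixedPoints ≤ Fintype.card T := Fintype.card_subtype_le _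
  have heq := hmod.eq_of_lt_of_lt hTcard (by omega)
  have huniv := (set_fintype_card_eq_univ_iff (Function.fixedPoints f)).1 heq.symm
  have hfixT : ∀ x ∈ T, n x = x := by
    intro x hx
    have h1 : (⟨x, hx⟩ : T) ∈ Function.fixedPoints f := by
      rw [huniv]
      exact Set.mem_univ _
    exact congrArg Subtype.val h1
  have hnn : ∀ v ∈ W, (n ^ 2) v = v := by
    intro v hv
    obtain ⟨u, hu⟩ : ∃ u, u = n v * v⁻¹ := ⟨_, rfl⟩
    have huT : u ∈ T := by
      rw [hu]
      exact hnT v hv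
    have h1 : n v = u * v := by rw [hu]; group
    rw [sq, MulAut.mul_apply]
    calc n (n v) = n (u * v) := by rw [← h1]
      _ = u * n v := by rw [map_mul, hfixT u huT]
      _ = u * (u * v) := by rw [h1]
      _ = v := by rw [← mul_assoc, hsq, one_mul]
  have hfinal : y⁻¹ v1 = v1 := by
    apply fix_of_coprime y⁻¹ r hr.one_lt (by rw [inv_pow, hyr, inv_one]) 4
    · exact Nat.Coprime.pow_left 2 hrodd
    · have h1 := hnn v1 hv1
      rw [hny, ← pow_mul] at h1
      exact h1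
  apply hv1n
  have h2 := congrArg y hfinal
  rw [hyy] at h2
  exact h2.symm

/-- The subgroup fixed by the first entries of a list of pairs. -/
def fixAll (L : List (MulAut V × MulAut V)) : Subgroup V where
  carrier := {v | ∀ p ∈ L, p.1 v = v}
  one_mem' := fun p _ => map_one p.1
  mul_mem' := by
    intro x y hx hy p hp
    rw [map_mul, hx p hp, hy p hp]
  inv_mem' := by
    intro x hx p hp
    rw [map_inv, hx p hp]

theorem mem_fixAll {L : List (MulAut V × MulAut V)} {v : V} :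
    v ∈ fixAll L ↔ ∀ p ∈ L, p.1 v = v := Iff.rfl

/-- Each pair `(a, y)` with `a` an involution inverting `y`, of prime order at least five. -/
def GoodPair (p : MulAut V × MulAut V) : Prop :=
  p.1 * p.1 = 1 ∧ p.1 * p.2 * p.1 = p.2⁻¹ ∧ ∃ r : ℕ, r.Prime ∧ r ≠ 2 ∧ r ≠ 3 ∧ p.2 ^ r = 1

theorem count_list [Finite V] (hcomm : ∀ x y : V, x * y = y * x) (hsq : ∀ x : V, x * x = 1)
    (L : List (MulAut V × MulAut V)) (hgood : ∀ p ∈ L, GoodPair p)
    (hpair : L.Pairwise (fun p q => p.1 * q.1 = q.1 * p.1 ∧ p.1 * q.2 = q.2 * p.1)) :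
    ∀ W : Subgroup V, (∀ p ∈ L, ∀ v ∈ W, p.1 v ∈ W ∧ p.2 v ∈ W) → (∀ p ∈ L, ∃ v ∈ W, p.2 v ≠ v) →
      4 ^ L.length ≤ (W ⊓ fixAll L).relIndex W := by
  induction L with
  | nil =>
    intro W _ _
    have h1 : W ⊓ fixAll ([] : List (MulAut V × MulAut V)) = W := by
      apply inf_eq_left.2
      intro v _ p hp
      simp at hp
    rw [h1, Subgroup.relIndex_self]
    simp
  | cons q L ih =>
    intro W hinv hnt
    rw [List.pairwise_cons] at hpair
    obtain ⟨hq, hL⟩ := hpair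
    have hqg := hgood q (by simp)
    obtain ⟨ha, hay, r, hr, hr2, hr3, hyr⟩ := hqg
    have hqW := hinv q (by simp)
    have h4 := index_four hcomm hsq q.1 q.2 W (fun v hv => (hqW v hv).1) (fun v hv => (hqW v hv).2)
      ha hay r hr hr2 hr3 hyr (hnt q (by simp))
    set W1 := W ⊓ Fx q.1 with hW1
    have hW1mem : ∀ v, v ∈ W1 ↔ v ∈ W ∧ q.1 v = v := fun v => Iff.rfl
    have hih := ih (fun p hp => hgood p (List.mem_cons_of_mem _ hp)) hL W1 ?_ ?_
    · have h1 : W ⊓ fixAll (q :: L) = W1 ⊓ fixAll L := by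
        ext v
        constructor
        · rintro ⟨h1, h2⟩
          exact ⟨⟨h1, h2 q (by simp)⟩, fun p hp => h2 p (List.mem_cons_of_mem _ hp)⟩
        · rintro ⟨⟨h1, h2⟩, h3⟩
          refine ⟨h1, fun p hp => ?_⟩
          rcases List.mem_cons.1 hp with rfl | hp
          · exact h2
          · exact h3 p hp
      rw [h1, ← Subgroup.relIndex_mul_relIndex (W1 ⊓ fixAll L) W1 W inf_le_left inf_le_left,
        List.length_cons, pow_succ]
      exact Nat.mul_le_mul hih h4
    · intro p hp v hv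
      have hv' := (hW1mem v).1 hv
      obtain ⟨h1, h2⟩ := hq p hp
      obtain ⟨h3, h4⟩ := hinv p (List.mem_cons_of_mem _ hp) v hv'.1
      refine ⟨(hW1mem _).2 ⟨h3, ?_⟩, (hW1mem _).2 ⟨h4, ?_⟩⟩
      · rw [← MulAut.mul_apply, h1, MulAut.mul_apply, hv'.2]
      · rw [← MulAut.mul_apply, h2, MulAut.mul_apply, hv'.2]
    · intro p hp
      by_contra hcon
      push Not at hcon
      obtain ⟨h1, h2⟩ := hq p hp
      obtain ⟨ha', hay', s, hs, hs2, hs3, hys⟩ := hgood p (List.mem_cons_of_mem _ hp)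
      obtain ⟨v, hv, hvn⟩ := hnt p (List.mem_cons_of_mem _ hp)
      apply hvn
      exact fix_lift hcomm hsq q.1 p.2 W (fun v hv => (hqW v hv).1)
        (fun v hv => (hinv p (List.mem_cons_of_mem _ hp) v hv).2) ha h2 s (hs.odd_of_ne_two hs2)
        hs.one_lt hys (fun v hv hav => hcon v ((hW1mem v).2 ⟨hv, hav⟩)) v hv

end Count

section Chain

variable {T Γ : Type*} [Group T] [Finite T] [Group Γ] [Finite Γ] (ρ : Γ →* MulAut T)

/-- A chain of pairs `(t, z)`, `t` inverting `z` and fixing every later `z`. -/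
theorem exists_list_chain (hΓ : ∀ g : Γ, g * g = 1) (hodd : Odd (Nat.card T)) (n : ℕ)
    (hn : Nat.card Γ = 2 ^ n)
    (hz : ∀ t : Γ, t ≠ 1 → ∃ z : T, (orderOf z).Prime ∧ orderOf z ≠ 3 ∧ ρ t z = z⁻¹ ∧
      ∀ g, ρ g z = z ∨ ρ g z = z⁻¹) :
    ∃ L : List (Γ × T), L.length = n ∧
      (∀ p ∈ L, (orderOf p.2).Prime ∧ orderOf p.2 ≠ 3 ∧ ρ p.1 p.2 = p.2⁻¹) ∧
      L.Pairwise (fun p q => ρ p.1 q.2 = q.2) := by
  classical
  have key : ∀ k ≤ n, ∃ L : List (Γ × T), L.length = k ∧
      (∀ p ∈ L, (orderOf p.2).Prime ∧ orderOf p.2 ≠ 3 ∧ ρ p.1 p.2 = p.2⁻¹) ∧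
      L.Pairwise (fun p q => ρ p.1 q.2 = q.2) ∧
      Nat.card (fixSub ρ {x | ∃ p ∈ L, p.2 = x}) = 2 ^ (n - k) := by
    intro k
    induction k with
    | zero =>
      intro _
      refine ⟨[], rfl, by simp, List.Pairwise.nil, ?_⟩
      have h1 : fixSub ρ {x | ∃ p ∈ ([] : List (Γ × T)), p.2 = x} = ⊤ := by
        rw [eq_top_iff]
        rintro g _ x ⟨p, hp, _⟩
        simp at hp
      rw [h1]
      simp [hn]
    | succ k ih =>
      intro hk
      obtain ⟨L, hlen, hL, hp, hfix⟩ := ih (by omega)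
      have h2 : 1 < Nat.card (fixSub ρ {x | ∃ p ∈ L, p.2 = x}) := by
        rw [hfix]
        exact Nat.one_lt_two_pow (by omega)
      haveI : Nontrivial (fixSub ρ {x | ∃ p ∈ L, p.2 = x}) := Finite.one_lt_card_iff_nontrivial.1 h2
      obtain ⟨⟨t, ht⟩, ht1⟩ := exists_ne (1 : fixSub ρ {x | ∃ p ∈ L, p.2 = x})
      have ht1' : t ≠ 1 := fun h => ht1 (Subtype.ext h)
      obtain ⟨z, hzp, hz3, hzt, hze⟩ := hz t ht1'
      have hz1 : z ≠ 1 := by
        intro h
        rw [h, orderOf_one] at hzp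
        exact Nat.not_prime_one hzp
      refine ⟨(t, z) :: L, by simp [hlen], ?_, ?_, ?_⟩
      · intro p hp'
        rcases List.mem_cons.1 hp' with rfl | hp'
        · exact ⟨hzp, hz3, hzt⟩
        · exact hL p hp'
      · rw [List.pairwise_cons]
        refine ⟨fun q hq => ?_, hp⟩
        exact ht _ ⟨q, hq, rfl⟩
      · have h3 : {x | ∃ p ∈ (t, z) :: L, p.2 = x} = insert z {x | ∃ p ∈ L, p.2 = x} := by
          ext x
          simp only [List.mem_cons, Set.mem_insert_iff]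
          constructor
          · rintro ⟨p, rfl | hp', rfl⟩
            · exact Or.inl rfl
            · exact Or.inr ⟨p, hp', rfl⟩
          · rintro (rfl | ⟨p, hp', rfl⟩)
            · exact ⟨(t, x), Or.inl rfl, rfl⟩
            · exact ⟨p, Or.inr hp', rfl⟩
        rw [h3]
        have h4 := card_fixSub_insert ρ hodd {x | ∃ p ∈ L, p.2 = x} z hz1 hze hΓ t ht hzt
        rw [hfix] at h4
        have h5 : n - k = (n - (k + 1)) + 1 := by omega
        rw [h5, pow_succ] at h4
        omega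
  obtain ⟨L, h1, h2, h3, _⟩ := key n le_rfl
  exact ⟨L, h1, h2, h3⟩

end Chain

section InG

variable {G : Type*} [Group G] [Finite G]

/-- An eigen-element for an elementary abelian `2`-group normalizing a nilpotent odd subgroup. -/
theorem exists_eigen_general (A P : Subgroup G) (hA : A ≤ Subgroup.normalizer (P : Set G))
    (hsq : ∀ a ∈ A, a * a = 1) (hnil : Group.IsNilpotent P) (hodd : Odd (Nat.card P)) (t : G)
    (ht : t ∈ A) (hnt : ∃ x ∈ P, t * x * t⁻¹ ≠ x) :
    ∃ y ∈ P, (orderOf y).Prime ∧ t * y * t⁻¹ = y⁻¹ ∧ ∀ g ∈ A, g * y * g⁻¹ = y ∨ g * y * g⁻¹ = y⁻¹ := by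
  classical
  let ρ : A →* MulAut P := (P.normalizerMonoidHom).comp (Subgroup.inclusion hA)
  have hρ : ∀ (g : A) (x : P), ((ρ g x : P) : G) = g * x * (g : G)⁻¹ := fun g x => rfl
  have hΓ : ∀ g : A, g * g = 1 := fun g => Subtype.ext (hsq g g.2)
  obtain ⟨B, hBn, hBab, hBinv, hsc⟩ := exists_selfcent ρ hnil hΓ
  have hb : ∃ b ∈ B, ρ ⟨t, ht⟩ b ≠ b := by
    by_contra hcon
    push Not at hcon
    obtain ⟨x, hx, hxn⟩ := hnt
    apply hxn
    have h1 := trivial_of_trivial_on ρ hΓ hodd B hBn hsc ⟨t, ht⟩ hcon ⟨x, hx⟩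
    exact congrArg Subtype.val h1
  obtain ⟨b, hbB, hb1⟩ := hb
  obtain ⟨y, _, hyp, hyt, hye⟩ := exists_eigen_in ρ hΓ B hBab hBinv ⟨t, ht⟩ b hbB hb1
  refine ⟨y, y.2, ?_, ?_, ?_⟩
  · rw [Subgroup.orderOf_coe]
    exact hyp
  · exact congrArg Subtype.val hyt
  · intro g hg
    rcases hye ⟨g, hg⟩ with h | h
    · exact Or.inl (congrArg Subtype.val h)
    · exact Or.inr (congrArg Subtype.val h)

/-- An involution inverting an element of order three gives an `S₃` section. -/
theorem involves_S3 (a y : G) (ha : a * a = 1) (hy : orderOf y = 3) (hay : a * y * a⁻¹ = y⁻¹) :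
    Cfsg.Involves (Equiv.Perm (Fin 3)) G := by
  have hainv : a⁻¹ = a := inv_eq_of_mul_eq_one_left ha
  rw [hainv] at hay
  have hy3 : y ^ 3 = 1 := by rw [← hy, pow_orderOf_eq_one]
  have hy1 : y * y ≠ 1 := by
    intro h
    have h1 : orderOf y ∣ 2 := orderOf_dvd_of_pow_eq_one (by rw [sq]; exact h)
    rw [hy] at h1
    omega
  have ha1 : a ≠ 1 := by
    rintro rfl
    apply hy1
    simp only [one_mul, inv_one, mul_one] at hay
    have : y * y⁻¹ = 1 := mul_inv_cancel y
    rw [← hay] at this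
    exact this
  have hay2 : (a * y) * (a * y) = 1 := by
    calc (a * y) * (a * y) = (a * y * a) * y := by group
      _ = 1 := by rw [hay]; group
  have hord2 : ∀ x : G, x * x = 1 → x ≠ 1 → orderOf x = 2 := by
    intro x h1 h2
    exact orderOf_eq_prime (by rw [sq]; exact h1) h2
  have hay1 : a * y ≠ 1 := by
    intro h
    have h2 : y = a⁻¹ := eq_inv_of_mul_eq_one_right h
    rw [hainv] at h2
    apply hy1
    rw [h2]
    exact ha
  have hE : Cfsg.IsThreeTranspositionSet ({a, a * y} : Set G) := by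
    refine ⟨?_, ?_⟩
    · rintro d (rfl | rfl)
      · exact hord2 _ ha ha1
      · exact hord2 _ hay2 hay1
    · rintro d (rfl | rfl) e (rfl | rfl)
      · left
        rw [sq, ha, one_mul]
      · right
        have h1 : d * (d * y) = y := by rw [← mul_assoc, ha, one_mul]
        rw [h1]
        exact hy3
      · right
        rw [hay, inv_pow, hy3, inv_one]
      · left
        rw [sq, hay2, one_mul]
  have hnc : ¬ Commute a (a * y) := by
    intro h
    have h1 : a * (a * y) = (a * y) * a := h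
    rw [hay, ← mul_assoc, ha, one_mul] at h1
    apply hy1
    calc y * y = y⁻¹ * y := by rw [← h1]
      _ = 1 := inv_mul_cancel y
  obtain ⟨e⟩ := Cfsg.Agent.S0444.result hE (d := a) (e := a * y) (by simp) (by simp) hnc
  refine ⟨Subgroup.closure ({a, a * y} : Set G), ⊥, ?_, ?_⟩
  · rw [Subgroup.bot_subgroupOf]
    infer_instance
  · refine ⟨(QuotientGroup.quotientMulEquivOfEq (Subgroup.bot_subgroupOf _)).trans
      (QuotientGroup.quotientBot.trans e)⟩

end InG

end CfsgLib.FGS.Eigen
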