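import Cfsg.Prelude
import Cfsg.Agent.Lib.FGS.Cyc
import Cfsg.Agent.Lib.FGS.Syl
import Cfsg.Agent.Lib.Char.Burnside
import Cfsg.Agent.Lib.Solv.SZ
import Cfsg.Agent.Lib.Solv.Fit
import Cfsg.Agent.Lib.Solv.Act
import Cfsg.Agent.Lib.Solv.PGroup
import Cfsg.Agent.Lib.Solv.CoprimeSylow
import Cfsg.Agent.Lib.OOL.PLength
import Cfsg.Agent.Lib.OOL.CNTri

/-!
Groups of exponent dividing six: solvable, with 2-length and 3-length at most one.
-/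

set_option autoImplicit false
set_option linter.unusedSectionVars false

open scoped commutatorElement Pointwise

namespace CfsgLib.FGS

universe u

variable {G : Type u} [Group G] [Finite G]

lemma exp6_card (h : ∀ x : G, x ^ 6 = 1) : ∃ a b : ℕ, Nat.card G = 2 ^ a * 3 ^ b := by
  obtain ⟨a, m, hm, hma⟩ := Nat.exists_eq_pow_mul_and_not_dvd (Nat.card_pos (α := G)).ne' 2 (by norm_num)
  have hm0 : m ≠ 0 := by
    rintro rfl
    simp at hma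
    exact (Nat.card_pos (α := G)).ne' hma
  have h3 : ∀ {d : ℕ}, d.Prime → d ∣ m → d = 3 := by
    intro d hd hdm
    haveI := Fact.mk hd
    have hdG : d ∣ Nat.card G := by
      rw [hma]
      exact Dvd.dvd.mul_left hdm _
    obtain ⟨x, hx⟩ := exists_prime_orderOf_dvd_card' (G := G) d hdG
    have h6 : d ∣ 6 := hx ▸ orderOf_dvd_of_pow_eq_one (h x)
    have h7 : d ∣ 2 * 3 := h6
    rcases (Nat.Prime.dvd_mul hd).1 h7 with h8 | h8
    · have h9 : d = 2 := (Nat.prime_dvd_prime_iff_eq hd (by norm_num)).1 h8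
      subst h9
      exact absurd hdm hm
    · exact (Nat.prime_dvd_prime_iff_eq hd (by norm_num)).1 h8
  refine ⟨a, m.primeFactorsList.length, ?_⟩
  rw [hma, ← Nat.eq_prime_pow_of_unique_prime_dvd hm0 h3]

theorem exp6_solvable (h : ∀ x : G, x ^ 6 = 1) : Group.IsSolvable G :=
  CfsgLib.Char.solvable_of_card_eq (p := 2) (q := 3) (by norm_num) (by norm_num) _ G rfl (exp6_card h)

lemma exp6_quot (h : ∀ x : G, x ^ 6 = 1) (N : Subgroup G) [N.Normal] (y : G ⧸ N) : y ^ 6 = 1 := by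
  obtain ⟨x, rfl⟩ := QuotientGroup.mk_surjective y
  rw [← QuotientGroup.mk_pow, h x]
  rfl

lemma exp6_two_elt (h : ∀ x : G, x ^ 6 = 1) (x : G) (k : ℕ) (hx : x ^ 2 ^ k = 1) : x ^ 2 = 1 := by
  have h1 : orderOf x ∣ Nat.gcd (2 ^ k) 6 := Nat.dvd_gcd (orderOf_dvd_of_pow_eq_one hx) (orderOf_dvd_of_pow_eq_one (h x))
  have h2 : Nat.gcd (2 ^ k) 6 ∣ 2 := by
    have h3 : Nat.gcd (2 ^ k) 6 ∣ 2 * 3 := Nat.gcd_dvd_right _ _
    exact (Nat.Coprime.coprime_dvd_left (Nat.gcd_dvd_left (2 ^ k) 6)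
      (Nat.Coprime.pow_left k (by norm_num : Nat.Coprime 2 3))).dvd_of_dvd_mul_right h3
  exact orderOf_dvd_iff_pow_eq_one.1 (h1.trans h2)

lemma exp6_three_elt (h : ∀ x : G, x ^ 6 = 1) (x : G) (k : ℕ) (hx : x ^ 3 ^ k = 1) : x ^ 3 = 1 := by
  have h1 : orderOf x ∣ Nat.gcd (3 ^ k) 6 := Nat.dvd_gcd (orderOf_dvd_of_pow_eq_one hx) (orderOf_dvd_of_pow_eq_one (h x))
  have h2 : Nat.gcd (3 ^ k) 6 ∣ 3 := by
    have h3 : Nat.gcd (3 ^ k) 6 ∣ 3 * 2 := Nat.gcd_dvd_right _ _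
    exact (Nat.Coprime.coprime_dvd_left (Nat.gcd_dvd_left (3 ^ k) 6)
      (Nat.Coprime.pow_left k (by norm_num : Nat.Coprime 3 2))).dvd_of_dvd_mul_right h3
  exact orderOf_dvd_iff_pow_eq_one.1 (h1.trans h2)

/-- A `p`-element modulo a normal `p`-subgroup is a `p`-element. -/
lemma pelt_of_mod {p : ℕ} [Fact p.Prime] (V : Subgroup G) (hV : IsPGroup p V) {x : G} {k : ℕ}
    (hx : x ^ p ^ k ∈ V) : ∃ m : ℕ, x ^ p ^ m = 1 := by
  obtain ⟨j, hj⟩ := hV ⟨_, hx⟩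
  refine ⟨k + j, ?_⟩
  have := congrArg Subtype.val hj
  simp only [Subgroup.coe_pow, Subgroup.coe_one] at this
  rw [pow_add, pow_mul]
  exact this

/-- The `2`-part of the statement. -/
theorem exp6_two_core (h : ∀ x : G, x ^ 6 = 1) (hO : Cfsg.pPrimeCore 2 G = ⊥) (t : G) (ht : t ^ 2 = 1) :
    t ∈ Cfsg.pCore 2 G := by
  haveI : Fact (Nat.Prime 2) := ⟨by norm_num⟩
  haveI := exp6_solvable h
  set V := Cfsg.pCore 2 G with hV
  haveI hVn : V.Normal := CfsgLib.Solv.pCore_normal' 2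
  have hVp : IsPGroup 2 V := CfsgLib.Solv.pCore_isPGroup 2
  apply CfsgLib.Solv.centralizer_pCore_le (G := G) 2 hO
  rw [Subgroup.mem_centralizer_iff]
  intro v hv
  have hv' : v ∈ V := hv
  obtain ⟨j, hj⟩ := hVp ⟨v, hv'⟩
  have hv2 : v ^ 2 = 1 := exp6_two_elt h v j (by
    have := congrArg Subtype.val hj
    simpa using this)
  have h1 : (v * t) ^ 2 ∈ V := by
    have e : (v * t) ^ 2 = v * (t * v * t⁻¹) * t ^ 2 := by
      rw [pow_two, pow_two]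
      group
    rw [e, ht, mul_one]
    exact V.mul_mem hv' (hVn.conj_mem v hv' t)
  obtain ⟨m, hm⟩ := pelt_of_mod (k := 1) V hVp (x := v * t) (by simpa using h1)
  have h2 := exp6_two_elt h _ m hm
  have ht' : t⁻¹ = t := by
    rw [inv_eq_iff_mul_eq_one, ← pow_two, ht]
  have hv' : v⁻¹ = v := by
    rw [inv_eq_iff_mul_eq_one, ← pow_two, hv2]
  rw [pow_two] at h2
  have h3 : v * t * (v * t) = 1 := h2
  calc v * t = (v * t)⁻¹ := by
        rw [eq_inv_iff_mul_eq_one]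
        exact h3
    _ = t * v := by
        rw [mul_inv_rev, ht', hv']

/-- The abstract computation: a four-group permuted by an element of order three cannot act
nontrivially on an abelian section on which that element has norm one. -/
theorem a4_fix_aux {Γ : Type*} [Group Γ] (W : Subgroup Γ) (hab : ∀ u ∈ W, ∀ v ∈ W, u * v = v * u)
    (hodd : ∀ w ∈ W, w * w = 1 → w = 1) (ξ a b c : Γ) (hξ : ∀ w ∈ W, ξ * w * ξ⁻¹ ∈ W)
    (hab' : ξ * a * ξ⁻¹ = b) (hbc : ξ * b * ξ⁻¹ = c) (hca : ξ * c * ξ⁻¹ = a)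
    (hN : ∀ w ∈ W, w * (ξ * w * ξ⁻¹) * (ξ * (ξ * w * ξ⁻¹) * ξ⁻¹) = 1)
    (y : Γ) (hy : y ∈ W) (h1 : a * y * a⁻¹ = y) (h2 : b * y * b⁻¹ = y⁻¹) (h3 : c * y * c⁻¹ = y⁻¹) : y = 1 := by
  obtain ⟨y₁, hy₁⟩ : ∃ y₁, y₁ = ξ * y * ξ⁻¹ := ⟨_, rfl⟩
  obtain ⟨y₂, hy₂⟩ : ∃ y₂, y₂ = ξ * y₁ * ξ⁻¹ := ⟨_, rfl⟩
  have hy₁W : y₁ ∈ W := hy₁ ▸ hξ y hy
  have hy₂W : y₂ ∈ W := hy₂ ▸ hξ y₁ hy₁W
  have e1 : a * y₁ * a⁻¹ = y₁⁻¹ := by
    calc a * y₁ * a⁻¹ = ξ * (c * y * c⁻¹) * ξ⁻¹ := by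
          rw [← hca, hy₁]
          group
      _ = y₁⁻¹ := by
          rw [h3, hy₁]
          group
  have e2 : a * y₂ * a⁻¹ = y₂⁻¹ := by
    have f : c * y₁ * c⁻¹ = y₁⁻¹ := by
      calc c * y₁ * c⁻¹ = ξ * (b * y * b⁻¹) * ξ⁻¹ := by
            rw [← hbc, hy₁]
            group
        _ = y₁⁻¹ := by
            rw [h2, hy₁]
            group
    calc a * y₂ * a⁻¹ = ξ * (c * y₁ * c⁻¹) * ξ⁻¹ := by
          rw [← hca, hy₂]
          group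
      _ = y₂⁻¹ := by
          rw [f, hy₂]
          group
  have hn : y * y₁ * y₂ = 1 := by
    rw [hy₂, hy₁]
    exact hN y hy
  have hn2 : y * y₁⁻¹ * y₂⁻¹ = 1 := by
    have h5 : a * (y * y₁ * y₂) * a⁻¹ = 1 := by
      rw [hn]
      group
    have e : a * (y * y₁ * y₂) * a⁻¹ = (a * y * a⁻¹) * (a * y₁ * a⁻¹) * (a * y₂ * a⁻¹) := by group
    rw [e, h1, e1, e2] at h5
    exact h5
  apply hodd y hy
  have h12 : y₁ * y₂ = y₂ * y₁ := hab _ hy₁W _ hy₂W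
  have hn3 : y * (y₁ * y₂) = 1 := by rw [← mul_assoc]; exact hn
  have hn4 : y * (y₁ * y₂)⁻¹ = 1 := by
    have h6 : y₁⁻¹ * y₂⁻¹ = (y₁ * y₂)⁻¹ := by
      rw [h12, mul_inv_rev]
    rw [← h6, ← mul_assoc]
    exact hn2
  have h7 : y₁ * y₂ = y⁻¹ := eq_inv_of_mul_eq_one_right hn3
  rw [h7, inv_inv] at hn4
  exact hn4

theorem a4_fix {Γ : Type*} [Group Γ] (W : Subgroup Γ) (hab : ∀ u ∈ W, ∀ v ∈ W, u * v = v * u)
    (hodd : ∀ w ∈ W, w * w = 1 → w = 1) (ξ s₁ s₂ s₃ : Γ) (hξ : ∀ w ∈ W, ξ * w * ξ⁻¹ ∈ W)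
    (h12 : ξ * s₁ * ξ⁻¹ = s₂) (h23 : ξ * s₂ * ξ⁻¹ = s₃) (h31 : ξ * s₃ * ξ⁻¹ = s₁)
    (hN : ∀ w ∈ W, w * (ξ * w * ξ⁻¹) * (ξ * (ξ * w * ξ⁻¹) * ξ⁻¹) = 1)
    (hs1 : s₁ * s₁ = 1) (hs2 : s₂ * s₂ = 1) (hcomm : s₁ * s₂ = s₂ * s₁) (hprod : s₁ * s₂ = s₃)
    (hs₁W : ∀ w ∈ W, s₁ * w * s₁⁻¹ ∈ W) (hs₂W : ∀ w ∈ W, s₂ * w * s₂⁻¹ ∈ W)
    (w : Γ) (hw : w ∈ W) : s₁ * w * s₁⁻¹ = w := by
  have hs1i : s₁⁻¹ = s₁ := inv_eq_of_mul_eq_one_left hs1
  have hs2i : s₂⁻¹ = s₂ := inv_eq_of_mul_eq_one_left hs2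
  -- `u = w * (s₁ w s₁)⁻¹` is inverted by `s₁`
  obtain ⟨w', hw'⟩ : ∃ w', w' = s₁ * w * s₁⁻¹ := ⟨_, rfl⟩
  have hw'W : w' ∈ W := hw' ▸ hs₁W w hw
  have hw's : s₁ * w' * s₁⁻¹ = w := by
    rw [hw']
    have e : s₁ * (s₁ * w * s₁⁻¹) * s₁⁻¹ = (s₁ * s₁) * w * (s₁⁻¹ * s₁⁻¹) := by group
    rw [e, hs1, hs1i, hs1]
    simp
  obtain ⟨u, hu⟩ : ∃ u, u = w * w'⁻¹ := ⟨_, rfl⟩
  have huW : u ∈ W := hu ▸ W.mul_mem hw (W.inv_mem hw'W)
  have hus : s₁ * u * s₁⁻¹ = u⁻¹ := by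
    have e : s₁ * (w * w'⁻¹) * s₁⁻¹ = (s₁ * w * s₁⁻¹) * (s₁ * w' * s₁⁻¹)⁻¹ := by group
    rw [hu, e, ← hw', hw's, mul_inv_rev, inv_inv]
  obtain ⟨z, hz⟩ : ∃ z, z = s₂ * u * s₂⁻¹ := ⟨_, rfl⟩
  have hzW : z ∈ W := hz ▸ hs₂W _ huW
  have hzs2 : s₂ * z * s₂⁻¹ = u := by
    rw [hz]
    have e : s₂ * (s₂ * u * s₂⁻¹) * s₂⁻¹ = (s₂ * s₂) * u * (s₂⁻¹ * s₂⁻¹) := by group
    rw [e, hs2, hs2i, hs2]
    simp
  have hconj12 : ∀ x : Γ, s₁ * (s₂ * x * s₂⁻¹) * s₁⁻¹ = s₂ * (s₁ * x * s₁⁻¹) * s₂⁻¹ := by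
    intro x
    calc s₁ * (s₂ * x * s₂⁻¹) * s₁⁻¹ = (s₁ * s₂) * x * (s₁ * s₂)⁻¹ := by group
      _ = (s₂ * s₁) * x * (s₂ * s₁)⁻¹ := by rw [hcomm]
      _ = s₂ * (s₁ * x * s₁⁻¹) * s₂⁻¹ := by group
  have hzs1 : s₁ * z * s₁⁻¹ = z⁻¹ := by
    rw [hz, hconj12, hus]
    group
  have hs3conj : ∀ x : Γ, s₃ * x * s₃⁻¹ = s₁ * (s₂ * x * s₂⁻¹) * s₁⁻¹ := by
    intro x
    rw [← hprod]
    group
  have hcommuz : u * z = z * u := hab _ huW _ hzW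
  have hp : u * z = 1 := by
    apply a4_fix_aux W hab hodd ξ s₂ s₃ s₁ hξ h23 h31 h12 hN (u * z) (W.mul_mem huW hzW)
    · have e : s₂ * (u * z) * s₂⁻¹ = (s₂ * u * s₂⁻¹) * (s₂ * z * s₂⁻¹) := by group
      rw [e, hzs2, ← hz]
      exact hcommuz.symm
    · rw [hs3conj]
      have e : s₂ * (u * z) * s₂⁻¹ = z * u := by
        have e' : s₂ * (u * z) * s₂⁻¹ = (s₂ * u * s₂⁻¹) * (s₂ * z * s₂⁻¹) := by group
        rw [e', hzs2, ← hz]
      rw [e]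
      have e' : s₁ * (z * u) * s₁⁻¹ = (s₁ * z * s₁⁻¹) * (s₁ * u * s₁⁻¹) := by group
      rw [e', hzs1, hus, mul_inv_rev]
    · have e' : s₁ * (u * z) * s₁⁻¹ = (s₁ * u * s₁⁻¹) * (s₁ * z * s₁⁻¹) := by group
      rw [e', hzs1, hus, mul_inv_rev]
      exact (hab _ (W.inv_mem huW) _ (W.inv_mem hzW))
  have hm : u * z⁻¹ = 1 := by
    apply a4_fix_aux W hab hodd ξ s₃ s₁ s₂ hξ h31 h12 h23 hN (u * z⁻¹) (W.mul_mem huW (W.inv_mem hzW))
    · rw [hs3conj]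
      have e : s₂ * (u * z⁻¹) * s₂⁻¹ = z * u⁻¹ := by
        have e' : s₂ * (u * z⁻¹) * s₂⁻¹ = (s₂ * u * s₂⁻¹) * (s₂ * z * s₂⁻¹)⁻¹ := by group
        rw [e', hzs2, ← hz]
      rw [e]
      have e' : s₁ * (z * u⁻¹) * s₁⁻¹ = (s₁ * z * s₁⁻¹) * (s₁ * u * s₁⁻¹)⁻¹ := by group
      rw [e', hzs1, hus, inv_inv]
      exact (hab _ (W.inv_mem hzW) _ huW)
    · have e' : s₁ * (u * z⁻¹) * s₁⁻¹ = (s₁ * u * s₁⁻¹) * (s₁ * z * s₁⁻¹)⁻¹ := by group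
      rw [e', hzs1, hus, inv_inv, mul_inv_rev, inv_inv]
      exact (hab _ (W.inv_mem huW) _ hzW)
    · have e' : s₂ * (u * z⁻¹) * s₂⁻¹ = (s₂ * u * s₂⁻¹) * (s₂ * z * s₂⁻¹)⁻¹ := by group
      rw [e', hzs2, ← hz, mul_inv_rev, inv_inv]
  -- conclude
  have huu : u * u = 1 := by
    have hz' : z = u⁻¹ := eq_inv_of_mul_eq_one_right hp
    rw [hz', inv_inv] at hm
    exact hm
  have hu1 := hodd u huW huu
  rw [hu] at hu1
  rw [← hw']
  have := mul_inv_eq_one.1 hu1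
  exact this.symm

/-- Core of the `3`-part. -/
theorem exp6_three_core (h : ∀ x : G, x ^ 6 = 1) (hO : Cfsg.pPrimeCore 3 G = ⊥) (z : G) (hz : z ^ 3 = 1) :
    z ∈ Cfsg.pCore 3 G := by
  classical
  haveI hf2 : Fact (Nat.Prime 2) := ⟨by norm_num⟩
  haveI hf3 : Fact (Nat.Prime 3) := ⟨by norm_num⟩
  haveI hGs := exp6_solvable h
  obtain ⟨V, hV⟩ : ∃ V, V = Cfsg.pCore 3 G := ⟨_, rfl⟩
  rw [← hV]
  haveI hVn : V.Normal := hV ▸ CfsgLib.Solv.pCore_normal' 3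
  have hVp : IsPGroup 3 V := hV ▸ CfsgLib.Solv.pCore_isPGroup 3
  have hCV : Subgroup.centralizer (V : Set G) ≤ V := by
    have := CfsgLib.Solv.centralizer_pCore_le (G := G) 3 hO
    rwa [← hV] at this
  have hV3 : ∀ a ∈ V, a ^ 3 = 1 := by
    intro a ha
    obtain ⟨j, hj⟩ := hVp ⟨a, ha⟩
    exact exp6_three_elt h a j (by simpa using congrArg Subtype.val hj)
  by_contra hzV
  obtain ⟨π, hπ⟩ : ∃ π : G →* G ⧸ V, π = QuotientGroup.mk' V := ⟨_, rfl⟩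
  have hπker : ∀ a, π a = 1 ↔ a ∈ V := by
    intro a
    rw [hπ]
    exact QuotientGroup.eq_one_iff a
  have hπs : Function.Surjective π := hπ ▸ QuotientGroup.mk'_surjective V
  have hQ6 : ∀ y : G ⧸ V, y ^ 6 = 1 := exp6_quot h V
  haveI hQs : Group.IsSolvable (G ⧸ V) := exp6_solvable hQ6
  have hO3 : Cfsg.pCore 3 (G ⧸ V) = ⊥ := by
    subst hV
    exact CfsgLib.OOL.pCore_quotient_pCore_eq_bot 3
  have hO2 : Cfsg.pPrimeCore 2 (G ⧸ V) = ⊥ := by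
    rw [eq_bot_iff, ← hO3]
    haveI : (Cfsg.pPrimeCore 2 (G ⧸ V)).Normal := CfsgLib.Solv.pPrimeCore_normal' 2
    apply CfsgLib.Solv.le_pCore'
    intro t
    refine ⟨1, ?_⟩
    apply Subtype.ext
    have hc := CfsgLib.Solv.pPrimeCore_coprime (G := G ⧸ V) 2
    have h1 : orderOf (t : G ⧸ V) ∣ Nat.card (Cfsg.pPrimeCore 2 (G ⧸ V)) := Subgroup.orderOf_dvd_natCard _ t.2
    have h2 : orderOf (t : G ⧸ V) ∣ 2 * 3 := orderOf_dvd_of_pow_eq_one (hQ6 t)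
    have h3 : orderOf (t : G ⧸ V) ∣ 3 :=
      (Nat.Coprime.coprime_dvd_left h1 hc).dvd_of_dvd_mul_left h2
    simpa using orderOf_dvd_iff_pow_eq_one.1 h3
  have hCP := CfsgLib.Solv.centralizer_pCore_le (G := G ⧸ V) 2 hO2
  obtain ⟨P, hP⟩ : ∃ P, P = Cfsg.pCore 2 (G ⧸ V) := ⟨_, rfl⟩
  rw [← hP] at hCP
  haveI hPn : P.Normal := hP ▸ CfsgLib.Solv.pCore_normal' 2
  have hPp : IsPGroup 2 P := hP ▸ CfsgLib.Solv.pCore_isPGroup 2
  -- the image of `z` is not in `P`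
  have hzP : π z ∉ P := by
    intro hm
    obtain ⟨j, hj⟩ := hPp ⟨_, hm⟩
    have h2 := exp6_two_elt hQ6 (π z) j (by simpa using congrArg Subtype.val hj)
    have h3 : (π z) ^ 3 = 1 := by rw [← map_pow, hz, map_one]
    have h4 : π z = 1 := by
      have : (π z) ^ 3 = (π z) ^ 2 * π z := by rw [pow_succ]
      rw [h2, one_mul, h3] at this
      exact this.symm
    exact hzV ((hπker z).1 h4)
  have hzC : π z ∉ Subgroup.centralizer (P : Set (G ⧸ V)) := fun hm => hzP (hCP hm)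
  rw [Subgroup.mem_centralizer_iff] at hzC
  push Not at hzC
  obtain ⟨rh, hrhP, hrh⟩ := hzC
  obtain ⟨Y, hY⟩ : ∃ Y, Y = P.comap π := ⟨_, rfl⟩
  haveI hYn : Y.Normal := hY ▸ hPn.comap π
  have hVY : V ≤ Y := by
    intro a ha
    rw [hY, Subgroup.mem_comap, (hπker a).2 ha]
    exact P.one_mem
  have hYmem : ∀ a, a ∈ Y ↔ π a ∈ P := by
    intro a
    rw [hY, Subgroup.mem_comap]
  obtain ⟨Q⟩ : Nonempty (Sylow 2 Y) := inferInstance
  obtain ⟨R, hR⟩ : ∃ R, R = (Q : Subgroup Y).map Y.subtype := ⟨_, rfl⟩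
  have hRs : CfsgLib.Solv.IsSylowIn 2 R Y := hR ▸ CfsgLib.Solv.isSylowIn_of_sylow Q
  have hRY : R ≤ Y := hRs.1
  have hRp : IsPGroup 2 R := hRs.2.1
  have hR2 : ∀ a ∈ R, a ^ 2 = 1 := by
    intro a ha
    obtain ⟨j, hj⟩ := hRp ⟨a, ha⟩
    exact exp6_two_elt h a j (by simpa using congrArg Subtype.val hj)
  have hRab : ∀ a ∈ R, ∀ b ∈ R, a * b = b * a := by
    intro a ha b hb
    have h1 := hR2 _ (R.mul_mem ha hb)
    have h2 := hR2 a ha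
    have h3 := hR2 b hb
    have ha' : a⁻¹ = a := by rw [inv_eq_iff_mul_eq_one, ← pow_two, h2]
    have hb' : b⁻¹ = b := by rw [inv_eq_iff_mul_eq_one, ← pow_two, h3]
    rw [pow_two] at h1
    calc a * b = (a * b)⁻¹ := by
          rw [eq_inv_iff_mul_eq_one]
          exact h1
      _ = b * a := by rw [mul_inv_rev, ha', hb']
  -- `R V = Y`
  have hRV : R ⊔ V = Y := by
    apply le_antisymm (sup_le hRY hVY)
    have hW : R ⊔ V ≤ Y := sup_le hRY hVY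
    have hd1 : (R ⊔ V).relIndex Y ∣ R.relIndex Y := Subgroup.relIndex_dvd_of_le_left Y le_sup_left
    have hd2 : (R ⊔ V).relIndex Y ∣ V.relIndex Y := Subgroup.relIndex_dvd_of_le_left Y le_sup_right
    have hq : IsPGroup 2 (Y ⧸ V.subgroupOf Y) := by
      intro c
      obtain ⟨a, rfl⟩ := QuotientGroup.mk_surjective c
      have ha : π a ∈ P := (hYmem a).1 a.2
      obtain ⟨j, hj⟩ := hPp ⟨_, ha⟩
      refine ⟨j, ?_⟩
      rw [← QuotientGroup.mk_pow, QuotientGroup.eq_one_iff, Subgroup.mem_subgroupOf]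
      have h1 : π a ^ 2 ^ j = 1 := by simpa using congrArg Subtype.val hj
      rw [← hπker]
      simpa [map_pow] using h1
    obtain ⟨m, hm⟩ := IsPGroup.iff_card.1 hq
    have hd3 : (R ⊔ V).relIndex Y ∣ 2 ^ m := by
      rw [← hm, ← Subgroup.index_eq_card]
      exact hd2
    obtain ⟨i, -, hi⟩ := (Nat.dvd_prime_pow (by norm_num : Nat.Prime 2)).1 hd3
    have hi0 : i = 0 := by
      by_contra h0
      apply hRs.2.2
      rw [hi] at hd1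
      exact (dvd_pow_self 2 h0).trans hd1
    rw [hi0, pow_zero] at hi
    exact Subgroup.relIndex_eq_one.1 hi
  have hmulRV : ∀ y ∈ Y, ∃ r ∈ R, ∃ v ∈ V, y = v * r := by
    intro y hy
    rw [← hRV, ← SetLike.mem_coe, Subgroup.mul_normal, Set.mem_mul] at hy
    obtain ⟨r, hr, v, hv, rfl⟩ := hy
    exact ⟨r, hr, r * v * r⁻¹, hVn.conj_mem v hv r, by group⟩
  -- a conjugate of `z` modulo `V` normalizes `R`
  have hconj := hRs.conj_of_mem_normalizer (a := z) (by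
    rw [Subgroup.normalizer_eq_top]
    trivial)
  obtain ⟨k, hkY, hk⟩ := hRs.exists_conj_eq hconj
  obtain ⟨r₀, hr₀, v₁, hv₁, hkeq⟩ := hmulRV k hkY
  obtain ⟨z', hz'⟩ : ∃ z', z' = v₁⁻¹ * z := ⟨_, rfl⟩
  have hz'n : ∀ a ∈ R, z' * a * z'⁻¹ ∈ R := by
    intro a ha
    have h1 : z * a * z⁻¹ ∈ MulAut.conj z • R := by
      rw [CfsgLib.Solv.mem_conj_smul]
      have e : z⁻¹ * (z * a * z⁻¹) * z = a := by group
      rw [e]
      exact ha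
    rw [← hk, CfsgLib.Solv.mem_conj_smul] at h1
    have e : k⁻¹ * (z * a * z⁻¹) * k = r₀⁻¹ * (z' * a * z'⁻¹) * r₀ := by
      rw [hkeq, hz']
      group
    rw [e] at h1
    have h2 := R.mul_mem (R.mul_mem hr₀ h1) (R.inv_mem hr₀)
    have e2 : r₀ * (r₀⁻¹ * (z' * a * z'⁻¹) * r₀) * r₀⁻¹ = z' * a * z'⁻¹ := by group
    rwa [e2] at h2
  have hπz' : π z' = π z := by
    rw [hz', map_mul, map_inv, (hπker v₁).2 hv₁]
    simp
  obtain ⟨x, t, hx, ht, hxt, -, ⟨e, he⟩, htc⟩ := exists_primary_decomp 3 (by norm_num) z'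
  have hxn : ∀ a ∈ R, x * a * x⁻¹ ∈ R := by
    have hz'N : z' ∈ Subgroup.normalizer (R : Set G) := mem_normalizer_of_conj_le hz'n
    have : x ∈ Subgroup.normalizer (R : Set G) := (Subgroup.zpowers_le.2 hz'N) hx
    intro a ha
    exact (Subgroup.mem_normalizer_iff.1 this a).1 ha
  have hx3 : x ^ 3 = 1 := exp6_three_elt h x e (by rw [← he, pow_orderOf_eq_one])
  have hπx : π x = π z := by
    have ht1 : π t = 1 := by
      obtain ⟨i, hi⟩ := ht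
      have h1 : (π t) ^ 3 = 1 := by
        have e1 : π t = (π z) ^ i := by
          rw [← hπz', ← map_zpow]
          exact congrArg π hi.symm
        rw [e1, ← zpow_natCast, ← zpow_mul, mul_comm, zpow_mul, zpow_natCast, ← map_pow, hz]
        simp
      have h2 : orderOf (π t) ∣ 3 := orderOf_dvd_of_pow_eq_one h1
      have h3 : orderOf (π t) ∣ orderOf t := orderOf_map_dvd _ _
      have h4 : orderOf (π t) ∣ Nat.gcd (orderOf t) 3 := Nat.dvd_gcd h3 h2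
      rw [Nat.Coprime.gcd_eq_one htc, Nat.dvd_one, orderOf_eq_one_iff] at h4
      exact h4
    rw [← hπz', hxt, map_mul, ht1, mul_one]
  -- lift `rh`
  obtain ⟨y, hy⟩ := hπs rh
  have hyY : y ∈ Y := (hYmem y).2 (hy ▸ hrhP)
  obtain ⟨r, hr, v, hv, hyeq⟩ := hmulRV y hyY
  have hπr : π r = rh := by
    rw [← hy, hyeq, map_mul, (hπker v).2 hv, one_mul]
  -- the four group
  have hr1R : x * r * x⁻¹ ∈ R := hxn r hr
  have hr2R : x * (x * r * x⁻¹) * x⁻¹ ∈ R := hxn _ hr1R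
  obtain ⟨r₁, hr₁⟩ : ∃ r₁, r₁ = x * r * x⁻¹ := ⟨_, rfl⟩
  obtain ⟨r₂, hr₂⟩ : ∃ r₂, r₂ = x * r₁ * x⁻¹ := ⟨_, rfl⟩
  rw [← hr₁] at hr1R hr2R
  rw [← hr₂] at hr2R
  have hr₃ : x * r₂ * x⁻¹ = r := by
    have hx3' : x * x * x = 1 := by
      have := hx3
      simpa only [pow_succ, pow_zero, one_mul] using this
    have e1 : x * r₂ * x⁻¹ = (x * x * x) * r * (x * x * x)⁻¹ := by
      rw [hr₂, hr₁]
      group
    rw [e1, hx3']
    simp
  have hrne : r₁ ≠ r := by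
    intro hEq
    apply hrh
    have h1 := congrArg π hEq
    rw [hr₁, map_mul, map_mul, map_inv, hπx, hπr] at h1
    calc rh * π z = π z * rh * (π z)⁻¹ * π z := by rw [h1]
      _ = π z * rh := by group
  obtain ⟨s₁, hs₁⟩ : ∃ s₁, s₁ = r * r₁ := ⟨_, rfl⟩
  obtain ⟨s₂, hs₂⟩ : ∃ s₂, s₂ = r₁ * r₂ := ⟨_, rfl⟩
  obtain ⟨s₃, hs₃⟩ : ∃ s₃, s₃ = r₂ * r := ⟨_, rfl⟩
  have hs₁R : s₁ ∈ R := hs₁ ▸ R.mul_mem hr hr1R
  have hs₂R : s₂ ∈ R := hs₂ ▸ R.mul_mem hr1R hr2R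
  have hs₃R : s₃ ∈ R := hs₃ ▸ R.mul_mem hr2R hr
  have hinv : ∀ a ∈ R, a * a = 1 := by
    intro a ha
    rw [← pow_two]
    exact hR2 a ha
  have hs₁ne : s₁ ≠ 1 := by
    intro h1
    apply hrne
    rw [hs₁] at h1
    have h2 : r₁ = r⁻¹ := eq_inv_of_mul_eq_one_right h1
    rw [h2, inv_eq_iff_mul_eq_one]
    exact hinv r hr
  have h12 : x * s₁ * x⁻¹ = s₂ := by
    rw [hs₁, hs₂, hr₂, hr₁]
    group
  have h23 : x * s₂ * x⁻¹ = s₃ := by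
    have e1 : x * s₂ * x⁻¹ = (x * r₁ * x⁻¹) * (x * r₂ * x⁻¹) := by
      rw [hs₂]
      group
    rw [e1, hr₃, ← hr₂, hs₃]
  have h31 : x * s₃ * x⁻¹ = s₁ := by
    have e1 : x * s₃ * x⁻¹ = (x * r₂ * x⁻¹) * (x * r * x⁻¹) := by
      rw [hs₃]
      group
    rw [e1, hr₃, ← hr₁, hs₁]
  have hprod : s₁ * s₂ = s₃ := by
    rw [hs₁, hs₂, hs₃]
    calc r * r₁ * (r₁ * r₂) = r * (r₁ * r₁) * r₂ := by group
      _ = r * r₂ := by rw [hinv r₁ hr1R, mul_one]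
      _ = r₂ * r := hRab r hr r₂ hr2R
  -- norm identity in `V`
  have hnorm : ∀ a ∈ V, a * (x * a * x⁻¹) * (x * (x * a * x⁻¹) * x⁻¹) = 1 := by
    intro a ha
    have h1 : (a * x) ^ 3 ∈ V := by
      rw [← hπker, map_pow, map_mul, (hπker a).2 ha, one_mul, hπx, ← map_pow, hz, map_one]
    obtain ⟨m, hm⟩ := pelt_of_mod (k := 1) V hVp (x := a * x) (by simpa using h1)
    have h2 := exp6_three_elt h _ m hm
    have e : (a * x) ^ 3 = a * (x * a * x⁻¹) * (x * (x * a * x⁻¹) * x⁻¹) * x ^ 3 := by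
      simp only [pow_succ, pow_zero, one_mul]
      group
    rw [e, hx3, mul_one] at h2
    exact h2
  -- the Frattini section
  obtain ⟨F, hF⟩ : ∃ F, F = (frattini V).map V.subtype := ⟨_, rfl⟩
  have hFV : F ≤ V := hF ▸ Subgroup.map_subtype_le _
  haveI hFn : F.Normal := by
    subst hF
    infer_instance
  obtain ⟨ρ, hρ⟩ : ∃ ρ : G →* G ⧸ F, ρ = QuotientGroup.mk' F := ⟨_, rfl⟩
  have hρker : ∀ a, ρ a = 1 ↔ a ∈ F := by
    intro a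
    rw [hρ]
    exact QuotientGroup.eq_one_iff a
  have hρs : Function.Surjective ρ := hρ ▸ QuotientGroup.mk'_surjective F
  have hcommF : ∀ a ∈ V, ∀ b ∈ V, a * b * a⁻¹ * b⁻¹ ∈ F := by
    intro a ha b hb
    have h1 := (CfsgLib.Solv.pgroup_commutator_pow_le_frattini hVp).1
    have h2 : ⁅(⟨a, ha⟩ : V), (⟨b, hb⟩ : V)⁆ ∈ frattini V :=
      h1 (Subgroup.commutator_mem_commutator (Subgroup.mem_top _) (Subgroup.mem_top _))
    rw [hF]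
    exact ⟨_, h2, rfl⟩
  have hab : ∀ u ∈ V.map ρ, ∀ v ∈ V.map ρ, u * v = v * u := by
    rintro _ ⟨a, ha, rfl⟩ _ ⟨b, hb, rfl⟩
    have h1 := (hρker _).2 (hcommF a ha b hb)
    simp only [map_mul, map_inv] at h1
    have h2 := mul_inv_eq_one.1 h1
    exact mul_inv_eq_iff_eq_mul.1 h2
  have hodd : ∀ w ∈ V.map ρ, w * w = 1 → w = 1 := by
    rintro _ ⟨a, ha, rfl⟩ h1
    have h2 : ρ a ^ 3 = 1 := by rw [← map_pow, hV3 a ha, map_one]
    have h3 : ρ a ^ 3 = ρ a * ρ a * ρ a := by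
      simp only [pow_succ, pow_zero, one_mul]
    rw [h3, h1, one_mul] at h2
    exact h2
  have hconjW : ∀ g : G, ∀ w ∈ V.map ρ, ρ g * w * (ρ g)⁻¹ ∈ V.map ρ := by
    rintro g _ ⟨a, ha, rfl⟩
    refine ⟨g * a * g⁻¹, hVn.conj_mem a ha g, ?_⟩
    simp only [map_mul, map_inv]
  have hfix := a4_fix (V.map ρ) hab hodd (ρ x) (ρ s₁) (ρ s₂) (ρ s₃) (hconjW x)
    (by rw [← h12]; simp only [map_mul, map_inv])
    (by rw [← h23]; simp only [map_mul, map_inv])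
    (by rw [← h31]; simp only [map_mul, map_inv])
    (by
      rintro _ ⟨a, ha, rfl⟩
      have h1 := congrArg ρ (hnorm a ha)
      simpa only [map_mul, map_inv, map_one] using h1)
    (by rw [← map_mul, hinv s₁ hs₁R, map_one])
    (by rw [← map_mul, hinv s₂ hs₂R, map_one])
    (by rw [← map_mul, ← map_mul, hRab s₁ hs₁R s₂ hs₂R])
    (by rw [← map_mul, hprod])
    (hconjW s₁) (hconjW s₂)
  have hcomm1 : ∀ k ∈ V, Commute (ρ s₁) (ρ k) := by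
    intro k hk
    have h1 := hfix (ρ k) ⟨k, hk, rfl⟩
    exact (mul_inv_eq_iff_eq_mul.1 h1)
  have hA : Subgroup.zpowers s₁ ≤ Subgroup.centralizer (V : Set G) := by
    apply CfsgLib.Solv.frattini_coprime_trivial
    · rw [Subgroup.normalizer_eq_top]
      exact le_top
    · rw [Nat.card_zpowers, orderOf_eq_prime (pow_two s₁ ▸ hinv s₁ hs₁R) hs₁ne]
      obtain ⟨n, hn⟩ := IsPGroup.iff_card.1 (hVp.to_subgroup (frattini V))
      rw [hn]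
      exact Nat.Coprime.pow_right _ (by norm_num)
    · rintro _ ⟨i, rfl⟩ k hk
      rw [← hF, ← hρker]
      have h1 : Commute ((ρ s₁) ^ i) (ρ k) := (hcomm1 k hk).zpow_left i
      simp only [map_mul, map_inv, map_zpow]
      rw [h1.eq]
      simp
  have hs₁V : s₁ ∈ V := hCV (hA (Subgroup.mem_zpowers s₁))
  have h1 := hV3 s₁ hs₁V
  have h2 := hinv s₁ hs₁R
  apply hs₁ne
  have h3 : s₁ ^ 3 = s₁ * s₁ * s₁ := by
    simp only [pow_succ, pow_zero, one_mul]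
  rw [h3, h2, one_mul] at h1
  exact h1

/-- Criterion for `p`-length at most one. -/
theorem plengthLE_one_of {p : ℕ} [hp : Fact p.Prime]
    (hc : ∀ (x : G ⧸ Cfsg.pPrimeCore p G) (k : ℕ), x ^ p ^ k = 1 → x ∈ Cfsg.pCore p (G ⧸ Cfsg.pPrimeCore p G)) :
    Cfsg.PLengthLE p 1 G := by
  classical
  haveI hO : (Cfsg.pPrimeCore p G).Normal := CfsgLib.Solv.pPrimeCore_normal' p
  have h3 : (Cfsg.upperPSeries p G 3).1 = ⊤ := by
    have h0 : (Cfsg.upperPSeries p G 3).1 = (Cfsg.pPrimeCore p (G ⧸ (Cfsg.upperPSeries p G 2).1)).comap (QuotientGroup.mk' _) := rfl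
    rw [h0, CfsgLib.OOL.comap_pPrimeCore_congr p inferInstance CfsgLib.OOL.pPrimePCore_normal' (CfsgLib.OOL.upperPSeries_two p)]
    haveI hOO : (Cfsg.pPrimePCore p G).Normal := CfsgLib.OOL.pPrimePCore_normal'
    have hcop : (Nat.card (G ⧸ Cfsg.pPrimePCore p G)).Coprime p := by
      rw [Nat.coprime_comm, Nat.Prime.coprime_iff_not_dvd hp.out]
      intro hd
      obtain ⟨y, hy⟩ := exists_prime_orderOf_dvd_card' (G := G ⧸ Cfsg.pPrimePCore p G) p hd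
      obtain ⟨g, rfl⟩ := QuotientGroup.mk_surjective y
      have h1 : (g : G ⧸ Cfsg.pPrimePCore p G) ^ p = 1 := by
        have := pow_orderOf_eq_one (g : G ⧸ Cfsg.pPrimePCore p G)
        rwa [hy] at this
      have hne : (g : G ⧸ Cfsg.pPrimePCore p G) ≠ 1 := by
        intro h
        rw [h, orderOf_one] at hy
        exact hp.out.one_lt.ne hy
      apply hne
      rw [QuotientGroup.eq_one_iff]
      rw [← QuotientGroup.mk_pow, QuotientGroup.eq_one_iff] at h1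
      have h2 : QuotientGroup.mk' (Cfsg.pPrimeCore p G) (g ^ p) ∈ Cfsg.pCore p (G ⧸ Cfsg.pPrimeCore p G) := h1
      rw [map_pow] at h2
      obtain ⟨m, hm⟩ := pelt_of_mod (p := p) (k := 1) _ (CfsgLib.Solv.pCore_isPGroup p) (by simpa using h2)
      exact hc _ m hm
    have hle : (⊤ : Subgroup (G ⧸ Cfsg.pPrimePCore p G)) ≤ Cfsg.pPrimeCore p (G ⧸ Cfsg.pPrimePCore p G) := by
      apply CfsgLib.Solv.le_pPrimeCore'
      rwa [Subgroup.card_top]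
    rw [top_le_iff.1 hle, Subgroup.comap_top]
  exact h3

theorem exp6_plength_two (h : ∀ x : G, x ^ 6 = 1) : Cfsg.PLengthLE 2 1 G := by
  haveI : Fact (Nat.Prime 2) := ⟨by norm_num⟩
  apply plengthLE_one_of
  intro x k hx
  haveI : (Cfsg.pPrimeCore 2 G).Normal := CfsgLib.Solv.pPrimeCore_normal' 2
  have h6 := exp6_quot h (Cfsg.pPrimeCore 2 G)
  exact exp6_two_core h6 (CfsgLib.Solv.pPrimeCore_quotient_eq_bot 2) x (exp6_two_elt h6 x k hx)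

theorem exp6_plength_three (h : ∀ x : G, x ^ 6 = 1) : Cfsg.PLengthLE 3 1 G := by
  haveI : Fact (Nat.Prime 3) := ⟨by norm_num⟩
  apply plengthLE_one_of
  intro x k hx
  haveI : (Cfsg.pPrimeCore 3 G).Normal := CfsgLib.Solv.pPrimeCore_normal' 3
  have h6 := exp6_quot h (Cfsg.pPrimeCore 3 G)
  exact exp6_three_core h6 (CfsgLib.Solv.pPrimeCore_quotient_eq_bot 3) x (exp6_three_elt h6 x k hx)

end CfsgLib.FGS
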