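import Mathlib
import Cfsg.Agent.Lib.OOL.ES
import Cfsg.Agent.Lib.ExS.Rank

set_option autoImplicit false
set_option linter.unusedVariables false
set_option linter.unusedSectionVars false

open Cfsg Finset
open CfsgLib.ExS.Rank

namespace CfsgLib.FGS.ExtraTwo

universe u v

theorem sq_iff {n e : ℕ} (x : HG n e) : x ^ 2 = 1 ↔ Qf n e x.v = 0 := by
  rw [pow_two]
  constructor
  · intro h
    have h1 := congrArg HG.a h
    rw [mul_a, one_a, z2_add_self, zero_add] at h1
    exact h1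
  · intro h
    apply HG.ext
    · rw [mul_v, one_v]
      exact vec_add_self _
    · rw [mul_a, one_a, z2_add_self, zero_add]
      exact h

theorem count_HG (n e : ℕ) :
    ((Nat.card {x : HG n e // x ^ 2 = 1} : ℕ) : ℤ) = 2 ^ (2 * n) + sumS n e := by
  classical
  have e1 : {x : HG n e // x ^ 2 = 1} ≃ {v : Vec n // Qf n e v = 0} × ZMod 2 :=
    { toFun := fun x => (⟨x.1.v, (sq_iff x.1).1 x.2⟩, x.1.a)
      invFun := fun y => ⟨⟨y.1.1, y.2⟩, (sq_iff _).2 y.1.2⟩
      left_inv := by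
        rintro ⟨⟨v, a⟩, h⟩
        rfl
      right_inv := by
        rintro ⟨⟨v, h⟩, a⟩
        rfl }
  have h1 : Nat.card {x : HG n e // x ^ 2 = 1} = Nat.card {v : Vec n // Qf n e v = 0} * 2 := by
    rw [Nat.card_congr e1, Nat.card_prod, Nat.card_zmod]
  have h2 : Nat.card {v : Vec n // Qf n e v = 0} = (univ.filter (fun v : Vec n => Qf n e v = 0)).card := by
    rw [Nat.card_eq_fintype_card, Fintype.card_subtype]
  have h3 : sumS n e = 2 * ((univ.filter (fun v : Vec n => Qf n e v = 0)).card : ℤ) - 2 ^ (2 * n) := by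
    have hc : Fintype.card (Vec n) = 2 ^ (2 * n) := by
      rw [← Nat.card_eq_fintype_card]; exact card_vec
    unfold sumS chi
    rw [Finset.sum_ite]
    simp only [Finset.sum_const, smul_eq_mul, nsmul_eq_mul, mul_one, mul_neg]
    have h4 := Finset.card_filter_add_card_filter_not (s := (univ : Finset (Vec n))) (fun v : Vec n => Qf n e v = 0)
    rw [Finset.card_univ, hc] at h4
    have h5 : (((univ.filter (fun v : Vec n => Qf n e v = 0)).card : ℕ) : ℤ) + (((univ.filter (fun v : Vec n => ¬ Qf n e v = 0)).card : ℕ) : ℤ) = 2 ^ (2 * n) := by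
      exact_mod_cast h4
    linarith
  rw [h1, h2, h3]
  push_cast
  ring

theorem count_plus (m : ℕ) : Nat.card {x : HG m 0 // x ^ 2 = 1} = 2 ^ (2 * m) + 2 ^ m := by
  have h := count_HG m 0
  rw [sumS_zero] at h
  exact_mod_cast h

theorem count_minus (m : ℕ) (hm : 1 ≤ m) : Nat.card {x : HG m 1 // x ^ 2 = 1} = 2 ^ (2 * m) - 2 ^ m := by
  obtain ⟨k, rfl⟩ : ∃ k, m = k + 1 := ⟨m - 1, by omega⟩
  have h := count_HG (k + 1) 1
  rw [sumS_one] at h
  have hle : 2 ^ (k + 1) ≤ 2 ^ (2 * (k + 1)) := Nat.pow_le_pow_right (by norm_num) (by omega)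
  zify [hle]
  rw [h]
  ring

theorem count_iso {A : Type u} {B : Type v} [Group A] [Group B] (f : A ≃* B) :
    Nat.card {x : A // x ^ 2 = 1} = Nat.card {x : B // x ^ 2 = 1} := by
  refine Nat.card_congr (f.toEquiv.subtypeEquiv (fun a => ?_))
  show a ^ 2 = 1 ↔ (f a) ^ 2 = 1
  rw [← map_pow]
  exact (map_eq_one_iff f f.injective).symm

theorem count_ne (m : ℕ) : 2 ^ (2 * m) + 2 ^ m ≠ 2 ^ (2 * m) - 2 ^ m := by
  have h : 0 < 2 ^ m := by positivity
  have h2 : 0 < 2 ^ (2 * m) := by positivity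
  omega

/-- Every extraspecial 2-group of order `2 ^ (2 m + 1)` is one of the two models. -/
theorem classify {E : Type u} [Group E] [Finite E] (hE : IsExtraspecial 2 E) (m : ℕ) (hm : 1 ≤ m)
    (hc : Nat.card E = 2 ^ (2 * m + 1)) : Nonempty (E ≃* HG m 0) ∨ Nonempty (E ≃* HG m 1) := by
  have h1 := CfsgLib.OOL.ES.isES_of_extraspecial hE
  have h2 := CfsgLib.OOL.ES.isES_of_extraspecial (extraspecial (n := m) (e := 0) hm)
  have h3 := CfsgLib.OOL.ES.isES_of_extraspecial (extraspecial (n := m) (e := 1) hm)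
  rcases CfsgLib.OOL.ES.es_three _ E (HG m 0) (HG m 1) h1 h2 h3 hc card_HG card_HG with h | ⟨⟨f⟩⟩ | h
  · exact Or.inl h
  · exfalso
    have := count_iso f
    rw [count_plus, count_minus m hm] at this
    exact count_ne m this
  · exact Or.inr h

theorem exists_m {E : Type u} [Group E] [Finite E] (hE : IsExtraspecial 2 E) :
    ∃ m : ℕ, 1 ≤ m ∧ Nat.card E = 2 ^ (2 * m + 1) :=
  CfsgLib.OOL.ES.extraspecial_card hE

theorem prank_iso {A : Type u} {B : Type v} [Group A] [Group B] (f : A ≃* B) (k : ℕ)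
    (h : PRankLE 2 k A) : PRankLE 2 k B := by
  intro S hS hS2
  have h1 := h (S.map f.symm.toMonoidHom) ⟨⟨?_⟩⟩ ?_
  · rwa [Subgroup.card_map_of_injective f.symm.injective] at h1
  · rintro ⟨a, s, hs, rfl⟩ ⟨b, s', hs', rfl⟩
    apply Subtype.ext
    have h2 := hS.is_comm.comm (⟨s, hs⟩ : S) ⟨s', hs'⟩
    have h3 : s * s' = s' * s := congrArg (fun z : S => (z : B)) h2
    show f.symm s * f.symm s' = f.symm s' * f.symm s
    rw [← map_mul, ← map_mul, h3]
  · rintro a ⟨s, hs, rfl⟩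
    show (f.symm s) ^ 2 = 1
    rw [← map_pow, hS2 s hs, map_one]

theorem rank_plus (m : ℕ) : PRankLE 2 (m + 1) (HG m 0) := by
  intro A _ hA
  have h1 := card_le_of_proj A
  have h2 := witt_zero (projW A) (qf_of_mem hA)
  rw [pow_succ]
  exact h1.trans (Nat.mul_le_mul_right _ h2)

theorem rank_plus' (m : ℕ) : ¬ PRankLE 2 m (HG m 0) := by
  intro h
  have h1 := h (stdA m 0) stdA_elem.1 stdA_elem.2
  rw [card_stdA (by omega)] at h1
  have := (Nat.pow_le_pow_iff_right (by norm_num : 1 < 2)).1 h1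
  omega

theorem rank_minus (m : ℕ) (hm : 1 ≤ m) : PRankLE 2 m (HG m 1) := by
  obtain ⟨k, rfl⟩ : ∃ k, m = k + 1 := ⟨m - 1, by omega⟩
  intro A _ hA
  have h1 := card_le_of_proj A
  have h2 := witt_one (projW A) (qf_of_mem hA)
  rw [pow_succ]
  exact h1.trans (Nat.mul_le_mul_right _ h2)

theorem rank_minus' (m : ℕ) (hm : 1 ≤ m) : ¬ PRankLE 2 (m - 1) (HG m 1) := by
  intro h
  have h1 := h (stdA m 1) stdA_elem.1 stdA_elem.2
  rw [card_stdA hm] at h1
  have := (Nat.pow_le_pow_iff_right (by norm_num : 1 < 2)).1 h1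
  omega

end CfsgLib.FGS.ExtraTwo
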