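import Cfsg.Agent.Lib.Solv.Frob

/-!
# Constructing Frobenius groups from fixed-point-free actions.
-/

set_option autoImplicit false
set_option linter.unusedSectionVars false
set_option linter.style.haveILetI false

namespace CfsgLib.FGS

open Cfsg

/-- A fixed-point-free action gives a Frobenius group. -/
theorem exists_frobenius_of_fpf {H₀ : Type} [Group H₀] [Finite H₀] [Nontrivial H₀]
    {V : Type} [Group V] [Finite V] [Nontrivial V]
    (φ : H₀ →* MulAut V) (hfpf : ∀ h : H₀, h ≠ 1 → ∀ v : V, φ h v = v → v = 1) :
    ∃ (L : Type) (_ : Group L) (_ : Finite L) (H : Subgroup L),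
      IsFrobeniusComplement H ∧ Nonempty (H ≃* H₀) := by
  classical
  let L := V ⋊[φ] H₀
  haveI : Finite L := Finite.of_equiv _ (SemidirectProduct.equivProd (φ := φ)).symm
  let inl' : V →* L := SemidirectProduct.inl
  let inr' : H₀ →* L := SemidirectProduct.inr
  have hinrinj : Function.Injective inr' := SemidirectProduct.inr_injective
  have hinlinj : Function.Injective inl' := SemidirectProduct.inl_injective
  refine ⟨L, inferInstance, inferInstance, inr'.range, ?_, ⟨(MonoidHom.ofInjective hinrinj).symm⟩⟩
  let K : Subgroup L := inl'.range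
  haveI hKn : K.Normal := by
    have : K = (SemidirectProduct.rightHom : L →* H₀).ker := SemidirectProduct.range_inl_eq_ker_rightHom
    rw [this]
    infer_instance
  have hdis : Disjoint K inr'.range := by
    rw [Subgroup.disjoint_def]
    rintro _ ⟨n, rfl⟩ ⟨g, hg⟩
    have h1 : g = 1 := congrArg (SemidirectProduct.right (φ := φ)) hg
    rw [← hg, h1]
    exact map_one inr'
  have hc : Subgroup.IsComplement' K inr'.range := by
    apply Subgroup.isComplement'_of_disjoint_and_mul_eq_univ hdis
    ext x
    simp only [Set.mem_mul, Set.mem_univ, iff_true]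
    exact ⟨inl' x.left, ⟨_, rfl⟩, inr' x.right, ⟨_, rfl⟩, SemidirectProduct.inl_left_mul_inr_right x⟩
  have hK : K ≠ ⊥ := by
    obtain ⟨v, hv⟩ := exists_ne (1 : V)
    intro h0
    have : inl' v ∈ K := ⟨v, rfl⟩
    rw [h0] at this
    have h1 : inl' v = inl' 1 := by rw [map_one]; exact this
    exact hv (hinlinj h1)
  have hH : inr'.range ≠ ⊥ := by
    obtain ⟨v, hv⟩ := exists_ne (1 : H₀)
    intro h0
    have : inr' v ∈ inr'.range := ⟨v, rfl⟩
    rw [h0] at this
    have h1 : inr' v = inr' 1 := by rw [map_one]; exact this
    exact hv (hinrinj h1)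
  refine (CfsgLib.Solv.frobenius_complement_iff K inr'.range hc hK hH).mpr ?_
  rintro _ ⟨h, rfl⟩ hh
  have hh1 : h ≠ 1 := fun h0 => hh (by rw [h0, map_one])
  rw [eq_bot_iff]
  rintro x ⟨⟨v, rfl⟩, hv⟩
  have h2 : inr' h * inl' v = inl' v * inr' h := by
    have := Subgroup.mem_centralizer_singleton_iff.mp hv
    exact this.symm
  have h3 : inl' (φ h v) = inl' v := by
    have h4 := SemidirectProduct.inl_aut (φ := φ) h v
    change inl' (φ h v) = inr' h * inl' v * inr' h⁻¹ at h4
    rw [h4, h2, mul_assoc, ← map_mul, mul_inv_cancel, map_one, mul_one]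
  have h5 := hfpf h hh1 v (hinlinj h3)
  rw [h5]
  exact map_one inl'

/-- Version with additive module. -/
theorem exists_frobenius_of_fpf_add {H₀ : Type} [Group H₀] [Finite H₀] [Nontrivial H₀]
    {W : Type} [AddCommGroup W] [Finite W] [Nontrivial W]
    (f : H₀ → W →+ W) (hf1 : f 1 = AddMonoidHom.id W) (hfm : ∀ g h w, f (g * h) w = f g (f h w))
    (hfpf : ∀ h : H₀, h ≠ 1 → ∀ w : W, f h w = w → w = 0) :
    ∃ (L : Type) (_ : Group L) (_ : Finite L) (H : Subgroup L),
      IsFrobeniusComplement H ∧ Nonempty (H ≃* H₀) := by
  let V := Multiplicative W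
  have hinv : ∀ h w, f h⁻¹ (f h w) = w := fun h w => by
    rw [← hfm, inv_mul_cancel, hf1]
    rfl
  have hinv' : ∀ h w, f h (f h⁻¹ w) = w := fun h w => by
    rw [← hfm, mul_inv_cancel, hf1]
    rfl
  let φ : H₀ →* MulAut V :=
    { toFun := fun h =>
        { toFun := fun v => Multiplicative.ofAdd (f h (Multiplicative.toAdd v))
          invFun := fun v => Multiplicative.ofAdd (f h⁻¹ (Multiplicative.toAdd v))
          left_inv := fun v => by
            change Multiplicative.ofAdd (f h⁻¹ (f h (Multiplicative.toAdd v))) = v
            rw [hinv]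
            rfl
          right_inv := fun v => by
            change Multiplicative.ofAdd (f h (f h⁻¹ (Multiplicative.toAdd v))) = v
            rw [hinv']
            rfl
          map_mul' := fun a b => by
            change Multiplicative.ofAdd (f h (Multiplicative.toAdd a + Multiplicative.toAdd b)) = _
            rw [map_add]
            rfl }
      map_one' := by
        ext v
        change Multiplicative.ofAdd (f 1 (Multiplicative.toAdd v)) = v
        rw [hf1]
        rfl
      map_mul' := by
        intro g h
        ext v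
        change Multiplicative.ofAdd (f (g * h) (Multiplicative.toAdd v)) = _
        rw [hfm]
        rfl }
  refine exists_frobenius_of_fpf φ ?_
  intro h hh v hv
  have h1 : f h (Multiplicative.toAdd v) = Multiplicative.toAdd v := congrArg Multiplicative.toAdd hv
  have h2 := hfpf h hh _ h1
  exact h2

end CfsgLib.FGS
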