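import Cfsg.Agent.Lib.PLocal.CardSup
import Mathlib

/-!
The Krull-Remak-Schmidt theorem for finite groups.
-/

set_option autoImplicit false
set_option linter.unusedSectionVars false

namespace CfsgLib.FGS

open Subgroup

universe u v

/-- Directly indecomposable (without the nontriviality clause). -/
def IsIndec (X : Type*) [Group X] : Prop :=
  ∀ H K : Subgroup X, H.Normal → K.Normal → H ⊓ K = ⊥ → H ⊔ K = ⊤ → H = ⊥ ∨ K = ⊥

section Fitting

variable {X : Type*} [Group X]

/-- Normal endomorphisms. -/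
def IsNormalEnd (f : X →* X) : Prop := ∀ g x, f (g * x * g⁻¹) = g * f x * g⁻¹

/-- Iterates of an endomorphism. -/
def endIter (f : X →* X) : ℕ → (X →* X)
  | 0 => MonoidHom.id X
  | n + 1 => f.comp (endIter f n)

theorem endIter_zero (f : X →* X) (x : X) : endIter f 0 x = x := rfl

theorem endIter_succ (f : X →* X) (n : ℕ) (x : X) : endIter f (n + 1) x = f (endIter f n x) := rfl

theorem endIter_succ' (f : X →* X) (n : ℕ) (x : X) : endIter f (n + 1) x = endIter f n (f x) := by
  induction n with
  | zero => rfl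
  | succ n ih => rw [endIter_succ, ih, endIter_succ]

theorem endIter_add (f : X →* X) (a b : ℕ) (x : X) :
    endIter f (a + b) x = endIter f a (endIter f b x) := by
  induction a with
  | zero => simp [endIter_zero]
  | succ a ih =>
    rw [show a + 1 + b = a + b + 1 by ring, endIter_succ, ih, endIter_succ]

theorem IsNormalEnd.iter {f : X →* X} (hf : IsNormalEnd f) (n : ℕ) : IsNormalEnd (endIter f n) := by
  induction n with
  | zero => intro g x; rfl
  | succ n ih =>
    intro g x
    rw [endIter_succ, ih, hf, endIter_succ]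

variable [Finite X]

theorem fitting_dichotomy (hX : IsIndec X) (f : X →* X) (hf : IsNormalEnd f) :
    (∃ N, ∀ x, endIter f N x = 1) ∨ Function.Bijective f := by
  classical
  have hmono : Monotone (fun n => (endIter f n).ker) := by
    apply monotone_nat_of_le_succ
    intro n x hx
    rw [MonoidHom.mem_ker] at hx ⊢
    rw [endIter_succ, hx, map_one]
  obtain ⟨N₀, hN₀⟩ := WellFoundedGT.monotone_chain_condition
    (⟨fun n => (endIter f n).ker, hmono⟩ : ℕ →o Subgroup X)
  have hstab : ∀ m, N₀ ≤ m → (endIter f m).ker = (endIter f N₀).ker := fun m hm => (hN₀ m hm).symm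
  obtain ⟨N, hN⟩ : ∃ N, N = N₀ + 1 := ⟨_, rfl⟩
  have hK : (endIter f (N + N)).ker = (endIter f N).ker := by
    rw [hstab (N + N) (by omega), hstab N (by omega)]
  obtain ⟨F, hF⟩ : ∃ F, F = endIter f N := ⟨_, rfl⟩
  have hFn : IsNormalEnd F := hF ▸ hf.iter N
  haveI hRn : F.range.Normal := by
    constructor
    rintro _ ⟨x, rfl⟩ g
    exact ⟨g * x * g⁻¹, hFn g x⟩
  have hinf : F.ker ⊓ F.range = ⊥ := by
    rw [eq_bot_iff]
    rintro y ⟨hy1, ⟨x, rfl⟩⟩
    have h1 : x ∈ (endIter f (N + N)).ker := by
      rw [MonoidHom.mem_ker, endIter_add, ← hF]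
      exact hy1
    rw [hK, ← hF] at h1
    exact h1
  have hsup : F.ker ⊔ F.range = ⊤ := by
    apply Subgroup.eq_top_of_card_eq
    have h1 := CfsgLib.PLocal.card_sup_mul_card_inf F.ker F.range (by
      rw [Subgroup.normalizer_eq_top]
      exact le_top)
    rw [hinf, Subgroup.card_bot, mul_one] at h1
    rw [h1, ← Subgroup.index_ker F, mul_comm]
    exact F.ker.index_mul_card
  rcases hX _ _ inferInstance inferInstance hinf hsup with h | h
  · right
    rw [← Finite.injective_iff_bijective]
    intro x y hxy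
    have h1 : F x = F y := by
      rw [hF, hN, endIter_succ', endIter_succ', hxy]
    exact (MonoidHom.ker_eq_bot_iff F).1 h h1
  · left
    refine ⟨N, fun x => ?_⟩
    have h1 : F x ∈ F.range := ⟨x, rfl⟩
    rw [h, Subgroup.mem_bot] at h1
    rw [← hF]
    exact h1

theorem not_bij_of_nil [Nontrivial X] (f : X →* X) (h : ∃ N, ∀ x, endIter f N x = 1) :
    ¬ Function.Bijective f := by
  intro hb
  obtain ⟨N, hN⟩ := h
  obtain ⟨x, hx⟩ := exists_ne (1 : X)
  have hinj : ∀ n, Function.Injective (endIter f n) := by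
    intro n
    induction n with
    | zero => exact fun a b h => h
    | succ n ih =>
      intro a b hab
      rw [endIter_succ, endIter_succ] at hab
      exact ih (hb.1 hab)
  apply hx
  apply hinj N
  rw [hN, map_one]

/-- The sum of two nilpotent normal endomorphisms is nilpotent. -/
theorem sum_nilpotent [Nontrivial X] (hX : IsIndec X) (f g h : X →* X) (hf : IsNormalEnd f)
    (hg : IsNormalEnd g) (hh : IsNormalEnd h) (hsum : ∀ x, h x = f x * g x)
    (hfn : ∃ N, ∀ x, endIter f N x = 1) (hgn : ∃ N, ∀ x, endIter g N x = 1) :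
    ∃ N, ∀ x, endIter h N x = 1 := by
  rcases fitting_dichotomy hX h hh with h1 | hb
  · exact h1
  exfalso
  let E : X ≃* X := MulEquiv.ofBijective h hb
  have hE : ∀ x, h (E.symm x) = x := fun x => E.apply_symm_apply x
  have hEn : ∀ a x, E.symm (a * x * a⁻¹) = a * E.symm x * a⁻¹ := by
    intro a x
    apply E.injective
    rw [E.apply_symm_apply]
    show a * x * a⁻¹ = h (a * E.symm x * a⁻¹)
    rw [hh, hE]
  let f' : X →* X := f.comp E.symm.toMonoidHom
  let g' : X →* X := g.comp E.symm.toMonoidHom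
  have hf' : IsNormalEnd f' := by
    intro a x
    show f (E.symm (a * x * a⁻¹)) = a * f (E.symm x) * a⁻¹
    rw [hEn, hf]
  have hsum' : ∀ x, x = f' x * g' x := by
    intro x
    have := hsum (E.symm x)
    rw [hE] at this
    exact this
  rcases fitting_dichotomy hX f' hf' with ⟨N, hN⟩ | hb'
  · -- `g'` is injective
    have hg'inj : Function.Injective g' := by
      rw [injective_iff_map_eq_one]
      intro x hx
      have h1 : f' x = x := by
        have := hsum' x
        rw [hx, mul_one] at this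
        exact this.symm
      have h2 : ∀ n, endIter f' n x = x := by
        intro n
        induction n with
        | zero => rfl
        | succ n ih => rw [endIter_succ, ih, h1]
      rw [← h2 N, hN]
    have hg'b : Function.Bijective g' := Finite.injective_iff_bijective.1 hg'inj
    apply not_bij_of_nil g hgn
    have : (g : X → X) = g' ∘ E := by
      funext x
      show g x = g (E.symm (E x))
      rw [E.symm_apply_apply]
    rw [this]
    exact hg'b.comp E.bijective
  · apply not_bij_of_nil f hfn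
    have : (f : X → X) = f' ∘ E := by
      funext x
      show f x = f (E.symm (E x))
      rw [E.symm_apply_apply]
    rw [this]
    exact hb'.comp E.bijective

/-- A partition of the identity in normal endomorphisms has an automorphism among its terms. -/
theorem exists_bijective_component [Nontrivial X] {κ : Type*} [Fintype κ] [DecidableEq κ] (hX : IsIndec X)
    (f : Finset κ → (X →* X)) (hn : ∀ S, IsNormalEnd (f S)) (h0 : ∀ x, f ∅ x = 1)
    (h1 : ∀ x, f Finset.univ x = x)
    (hins : ∀ (S : Finset κ) (j : κ), j ∉ S → ∀ x, f (insert j S) x = f S x * f {j} x) :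
    ∃ j, Function.Bijective (f {j}) := by
  by_contra hcon
  push Not at hcon
  have hall : ∀ S : Finset κ, ∃ N, ∀ x, endIter (f S) N x = 1 := by
    intro S
    induction S using Finset.induction_on with
    | empty =>
      refine ⟨1, fun x => ?_⟩
      rw [endIter_succ]
      exact h0 _
    | insert j S hj ih =>
      have hjn : ∃ N, ∀ x, endIter (f {j}) N x = 1 :=
        (fitting_dichotomy hX _ (hn _)).resolve_right (hcon j)
      exact sum_nilpotent hX (f S) (f {j}) (f (insert j S)) (hn _) (hn _) (hn _) (hins S j hj) ih hjn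
  obtain ⟨N, hN⟩ := hall Finset.univ
  obtain ⟨x, hx⟩ := exists_ne (1 : X)
  have h2 : ∀ n, endIter (f Finset.univ) n x = x := by
    intro n
    induction n with
    | zero => rfl
    | succ n ih => rw [endIter_succ, ih, h1]
  apply hx
  rw [← h2 N, hN]

end Fitting

theorem equiv_of_complements {G : Type*} [Group G] (A L K : Subgroup G) [hA : A.Normal]
    (h1 : A ⊓ L = ⊥) (h2 : A ⊔ L = ⊤) (h3 : A ⊓ K = ⊥) (h4 : A ⊔ K = ⊤) : Nonempty (L ≃* K) := by
  have key : ∀ T : Subgroup G, A ⊓ T = ⊥ → A ⊔ T = ⊤ →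
      Function.Bijective ((QuotientGroup.mk' A).comp T.subtype) := by
    intro T hT1 hT2
    constructor
    · rw [injective_iff_map_eq_one]
      intro t ht
      have h5 : (t : G) ∈ A := (QuotientGroup.eq_one_iff _).1 ht
      have h6 : (t : G) ∈ A ⊓ T := ⟨h5, t.2⟩
      rw [hT1, Subgroup.mem_bot] at h6
      exact Subtype.ext h6
    · intro y
      obtain ⟨g, rfl⟩ := QuotientGroup.mk'_surjective A y
      have h5 : g ∈ ((A ⊔ T : Subgroup G) : Set G) := by rw [hT2]; trivial
      rw [Subgroup.normal_mul] at h5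
      obtain ⟨a, ha, t, ht, rfl⟩ := Set.mem_mul.1 h5
      refine ⟨⟨t, ht⟩, ?_⟩
      show QuotientGroup.mk' A t = QuotientGroup.mk' A (a * t)
      have h6 : QuotientGroup.mk' A a = 1 := (QuotientGroup.eq_one_iff a).2 ha
      rw [map_mul, h6, one_mul]
  exact ⟨(MulEquiv.ofBijective _ (key L h1 h2)).trans (MulEquiv.ofBijective _ (key K h3 h4)).symm⟩

/-- The exchange step. -/
theorem krs_exchange {κ : Type*} [Fintype κ] [DecidableEq κ] {B : κ → Type*} [∀ j, Group (B j)]
    [∀ j, Finite (B j)] (hB : ∀ j, IsIndec (B j))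
    {X : Type*} [Group X] [Finite X] [Nontrivial X] (hX : IsIndec X)
    (π : (∀ j, B j) →* X) (ι : X →* (∀ j, B j)) (hπι : ∀ x, π (ι x) = x)
    (hp : ∀ h y, ι (π (h * y * h⁻¹)) = h * ι (π y) * h⁻¹) :
    ∃ j, Nonempty (X ≃* B j) ∧ Nonempty (π.ker ≃* (Pi.evalMonoidHom B j).ker) := by
  classical
  let q : Finset κ → ((∀ j, B j) →* (∀ j, B j)) := fun S =>
    { toFun := fun y j => if j ∈ S then y j else 1
      map_one' := by
        funext j
        by_cases h : j ∈ S <;> simp [h]
      map_mul' := by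
        intro a b
        funext j
        by_cases h : j ∈ S <;> simp [h] }
  have hqapp : ∀ S y j, q S y j = if j ∈ S then y j else 1 := fun _ _ _ => rfl
  have hqn : ∀ S h y, q S (h * y * h⁻¹) = h * q S y * h⁻¹ := by
    intro S h y
    funext j
    simp only [hqapp, Pi.mul_apply, Pi.inv_apply]
    by_cases hj : j ∈ S <;> simp [hj]
  let f : Finset κ → (X →* X) := fun S => π.comp ((q S).comp ι)
  have hfapp : ∀ S x, f S x = π (q S (ι x)) := fun _ _ => rfl
  have hfn : ∀ S, IsNormalEnd (f S) := by
    intro S g x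
    rw [hfapp, hfapp]
    have h1 : ι (g * x * g⁻¹) = ι g * ι x * (ι g)⁻¹ := by simp only [map_mul, map_inv]
    rw [h1, hqn S (ι g) (ι x)]
    simp only [map_mul, map_inv, hπι]
  obtain ⟨j, hj⟩ := exists_bijective_component hX f hfn
    (by
      intro x
      rw [hfapp]
      have : q ∅ (ι x) = 1 := by
        funext j
        simp [hqapp]
      rw [this, map_one])
    (by
      intro x
      rw [hfapp]
      have : q Finset.univ (ι x) = ι x := by
        funext j
        simp [hqapp]
      rw [this, hπι])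
    (by
      intro S j hjS x
      rw [hfapp, hfapp, hfapp, ← map_mul]
      congr 1
      funext i
      simp only [hqapp, Pi.mul_apply, Finset.mem_insert, Finset.mem_singleton]
      by_cases h1 : i = j
      · subst h1
        simp [hjS]
      · by_cases h2 : i ∈ S <;> simp [h1, h2])
  let τ : B j →* (∀ j, B j) := MonoidHom.mulSingle B j
  let ρ : (∀ j, B j) →* B j := Pi.evalMonoidHom B j
  have hτρ : ∀ y, q {j} y = τ (ρ y) := by
    intro y
    funext i
    by_cases h1 : i = j
    · subst h1
      simp [hqapp, τ, ρ]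
    · simp [hqapp, τ, ρ, h1, Pi.mulSingle_eq_of_ne h1]
  have hρτ : ∀ y, ρ (τ y) = y := fun y => by simp [ρ, τ]
  let u : X →* B j := ρ.comp ι
  let v : B j →* X := π.comp τ
  have hvu : ∀ x, v (u x) = f {j} x := by
    intro x
    show π (τ (ρ (ι x))) = π (q {j} (ι x))
    rw [hτρ]
  let w : B j →* B j := u.comp v
  have hwapp : ∀ y, w y = ρ (ι (π (τ y))) := fun _ => rfl
  have hwn : IsNormalEnd w := by
    intro g y
    rw [hwapp, hwapp]
    have h1 : τ (g * y * g⁻¹) = τ g * τ y * (τ g)⁻¹ := by
      simp only [map_mul, map_inv]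
    rw [h1, hp]
    simp only [map_mul, map_inv, hρτ]
  have hwnil : ¬ ∃ N, ∀ y, endIter w N y = 1 := by
    rintro ⟨N, hN⟩
    obtain ⟨x, hx⟩ := exists_ne (1 : X)
    have h1 : ∀ n, v (endIter w n (u x)) = endIter (f {j}) (n + 1) x := by
      intro n
      induction n with
      | zero =>
        rw [endIter_zero, endIter_succ, endIter_zero, hvu]
      | succ n ih =>
        rw [endIter_succ, endIter_succ]
        show v (u (v (endIter w n (u x)))) = _
        rw [hvu, ih]
    have h2 := h1 N
    rw [hN, map_one] at h2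
    have hinj : ∀ n, Function.Injective (endIter (f {j}) n) := by
      intro n
      induction n with
      | zero => exact fun a b h => h
      | succ n ih =>
        intro a b hab
        rw [endIter_succ, endIter_succ] at hab
        exact ih (hj.1 hab)
    apply hx
    apply hinj (N + 1)
    rw [← h2, map_one]
  have hwb : Function.Bijective w := (fitting_dichotomy (hB j) w hwn).resolve_left hwnil
  have huinj : Function.Injective u := by
    intro a b hab
    apply hj.1
    rw [← hvu, ← hvu, hab]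
  have husurj : Function.Surjective u := by
    intro y
    obtain ⟨z, hz⟩ := hwb.2 y
    exact ⟨v z, hz⟩
  refine ⟨j, ⟨MulEquiv.ofBijective u ⟨huinj, husurj⟩⟩, ?_⟩
  -- the complements
  haveI hAn : ι.range.Normal := by
    constructor
    rintro _ ⟨x, rfl⟩ h
    refine ⟨π (h * ι x * h⁻¹), ?_⟩
    rw [hp, hπι]
  apply equiv_of_complements ι.range
  · rw [eq_bot_iff]
    rintro _ ⟨⟨x, rfl⟩, h2⟩
    have h3 : π (ι x) = 1 := h2
    rw [hπι] at h3
    rw [h3, map_one]
    exact Subgroup.one_mem _
  · rw [eq_top_iff]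
    intro g _
    have e : g = ι (π g) * ((ι (π g))⁻¹ * g) := by group
    rw [e]
    refine Subgroup.mul_mem _ (Subgroup.mem_sup_left ⟨_, rfl⟩) (Subgroup.mem_sup_right ?_)
    rw [MonoidHom.mem_ker, map_mul, map_inv, hπι, inv_mul_cancel]
  · rw [eq_bot_iff]
    rintro _ ⟨⟨x, rfl⟩, h2⟩
    have h3 : u x = 1 := h2
    have h4 : x = 1 := huinj (by rw [h3, map_one])
    rw [h4, map_one]
    exact Subgroup.one_mem _
  · rw [eq_top_iff]
    intro g _
    obtain ⟨x, hx⟩ := husurj (ρ g)
    have e : g = ι x * ((ι x)⁻¹ * g) := by group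
    rw [e]
    refine Subgroup.mul_mem _ (Subgroup.mem_sup_left ⟨_, rfl⟩) (Subgroup.mem_sup_right ?_)
    show ρ ((ι x)⁻¹ * g) = 1
    rw [map_mul, map_inv]
    show (u x)⁻¹ * ρ g = 1
    rw [hx, inv_mul_cancel]

theorem kerEval_equiv {ι : Type*} [DecidableEq ι] {A : ι → Type*} [∀ i, Group (A i)] (i₀ : ι) :
    Nonempty ((Pi.evalMonoidHom A i₀).ker ≃* (∀ i : {i // i ≠ i₀}, A i.1)) := by
  let F : (Pi.evalMonoidHom A i₀).ker →* (∀ i : {i // i ≠ i₀}, A i.1) :=
    { toFun := fun x i => (x : ∀ i, A i) i.1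
      map_one' := rfl
      map_mul' := fun _ _ => rfl }
  refine ⟨MulEquiv.ofBijective F ⟨?_, ?_⟩⟩
  · intro x y hxy
    apply Subtype.ext
    funext i
    by_cases h : i = i₀
    · subst h
      have h1 : (x : ∀ i, A i) i = 1 := x.2
      have h2 : (y : ∀ i, A i) i = 1 := y.2
      rw [h1, h2]
    · exact congrFun hxy ⟨i, h⟩
  · intro y
    refine ⟨⟨fun i => if h : i = i₀ then 1 else y ⟨i, h⟩, ?_⟩, ?_⟩
    · rw [MonoidHom.mem_ker]
      exact dif_pos rfl
    · funext i
      exact dif_neg i.2

/-- Induction for Krull-Remak-Schmidt. -/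
theorem krs_aux : ∀ (c : ℕ) (ι κ : Type) [Fintype ι] [Fintype κ] [DecidableEq ι] [DecidableEq κ]
    (A : ι → Type u) (B : κ → Type v) [∀ i, Group (A i)] [∀ j, Group (B j)] [∀ i, Finite (A i)]
    [∀ j, Finite (B j)], Fintype.card ι = c → (∀ i, Nontrivial (A i)) → (∀ i, IsIndec (A i)) →
    (∀ j, Nontrivial (B j)) → (∀ j, IsIndec (B j)) → ((∀ i, A i) ≃* (∀ j, B j)) →
    ∃ σ : ι ≃ κ, ∀ i, Nonempty (A i ≃* B (σ i)) := by
  intro c
  induction c with
  | zero =>
    intro ι κ _ _ _ _ A B _ _ _ _ hc hAt hAi hBt hBi e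
    haveI : IsEmpty ι := Fintype.card_eq_zero_iff.1 hc
    haveI : IsEmpty κ := by
      constructor
      intro j
      haveI := hBt j
      obtain ⟨y, hy⟩ := exists_ne (1 : B j)
      have h1 : e.symm (Pi.mulSingle j y) = 1 := Subsingleton.elim _ _
      have h2 : (Pi.mulSingle j y : ∀ j, B j) = 1 := by
        have := congrArg e h1
        simpa using this
      apply hy
      have := congrFun h2 j
      simpa using this
    exact ⟨Equiv.equivOfIsEmpty _ _, fun i => isEmptyElim i⟩
  | succ c ih =>
    intro ι κ _ _ _ _ A B _ _ _ _ hc hAt hAi hBt hBi e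
    haveI : Nonempty ι := Fintype.card_pos_iff.1 (by omega)
    obtain ⟨i₀⟩ := ‹Nonempty ι›
    haveI := hAt i₀
    let π : (∀ j, B j) →* A i₀ := (Pi.evalMonoidHom A i₀).comp e.symm.toMonoidHom
    let ι' : A i₀ →* (∀ j, B j) := e.toMonoidHom.comp (MonoidHom.mulSingle A i₀)
    have hπι : ∀ x, π (ι' x) = x := by
      intro x
      show (e.symm (e (Pi.mulSingle i₀ x))) i₀ = x
      simp
    have hp : ∀ h y, ι' (π (h * y * h⁻¹)) = h * ι' (π y) * h⁻¹ := by
      intro h y
      show e (Pi.mulSingle i₀ ((e.symm (h * y * h⁻¹)) i₀)) = h * e (Pi.mulSingle i₀ ((e.symm y) i₀)) * h⁻¹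
      apply e.symm.injective
      simp only [map_mul, map_inv, MulEquiv.symm_apply_apply]
      funext i
      by_cases h1 : i = i₀
      · subst h1
        simp
      · simp [h1, Pi.mulSingle_eq_of_ne h1]
    obtain ⟨j₀, ⟨e₁⟩, ⟨e₂⟩⟩ := krs_exchange hBi (hAi i₀) π ι' hπι hp
    -- the complements
    obtain ⟨e₃⟩ := kerEval_equiv (A := A) i₀
    obtain ⟨e₄⟩ := kerEval_equiv (A := B) j₀
    let e₅ : π.ker ≃* (Pi.evalMonoidHom A i₀).ker :=
      { toFun := fun y => ⟨e.symm y, y.2⟩
        invFun := fun x => ⟨e x, by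
          rw [MonoidHom.mem_ker]
          show (e.symm (e x)) i₀ = 1
          rw [e.symm_apply_apply]
          exact x.2⟩
        left_inv := fun y => Subtype.ext (by simp)
        right_inv := fun x => Subtype.ext (by simp)
        map_mul' := fun a b => Subtype.ext (by simp) }
    let e₆ : (∀ i : {i // i ≠ i₀}, A i.1) ≃* (∀ j : {j // j ≠ j₀}, B j.1) :=
      e₃.symm.trans (e₅.symm.trans (e₂.trans e₄))
    have hcard : Fintype.card {i // i ≠ i₀} = c := by
      simp [Fintype.card_subtype_compl, hc]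
    obtain ⟨σ', hσ'⟩ := ih {i // i ≠ i₀} {j // j ≠ j₀} (fun i => A i.1) (fun j => B j.1) hcard
      (fun i => hAt i.1) (fun i => hAi i.1) (fun j => hBt j.1) (fun j => hBi j.1) e₆
    let σ : ι ≃ κ :=
      { toFun := fun i => if h : i = i₀ then j₀ else (σ' ⟨i, h⟩).1
        invFun := fun j => if h : j = j₀ then i₀ else (σ'.symm ⟨j, h⟩).1
        left_inv := by
          intro i
          by_cases h : i = i₀
          · simp [h]
          · have h1 : (σ' ⟨i, h⟩).1 ≠ j₀ := (σ' ⟨i, h⟩).2
            simp [h, h1]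
        right_inv := by
          intro j
          by_cases h : j = j₀
          · simp [h]
          · have h1 : (σ'.symm ⟨j, h⟩).1 ≠ i₀ := (σ'.symm ⟨j, h⟩).2
            simp [h, h1] }
    refine ⟨σ, fun i => ?_⟩
    by_cases h : i = i₀
    · subst h
      have : σ i = j₀ := by
        show (if h : i = i then j₀ else (σ' ⟨i, h⟩).1) = j₀
        simp
      rw [this]
      exact ⟨e₁⟩
    · have : σ i = (σ' ⟨i, h⟩).1 := by
        show (if h : i = i₀ then j₀ else (σ' ⟨i, h⟩).1) = _
        rw [dif_neg h]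
      rw [this]
      exact hσ' ⟨i, h⟩

end CfsgLib.FGS
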