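import Cfsg.Agent.Lib.FGS.FrobDiv
import Cfsg.Agent.Lib.FGS.Elem
import Cfsg.Agent.Lib.Char.Burnside

set_option autoImplicit false
set_option linter.unusedSectionVars false
set_option linter.style.haveILetI false
set_option linter.unusedVariables false

open Subgroup Cfsg

namespace CfsgLib.FGS.OC

universe u

variable {G : Type u} [Group G] [Finite G]

/-- number of elements of order `m`. -/
noncomputable def cnt (G : Type u) [Group G] (m : ℕ) : ℕ := Nat.card {g : G // orderOf g = m}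

/-- number of solutions of `x^d=1`, in divisor form. -/
noncomputable def Fd (G : Type u) [Group G] (d : ℕ) : ℕ := ∑ e ∈ d.divisors, cnt G e

theorem cnt_one : cnt G 1 = 1 := by
  have : Unique {g : G // orderOf g = 1} :=
    { default := ⟨1, orderOf_one⟩
      uniq := fun g => Subtype.ext (orderOf_eq_one_iff.1 g.2) }
  simp [cnt, Nat.card_unique]

theorem dvd_Fd {d : ℕ} (hd : d ∣ Nat.card G) : d ∣ Fd G d := by
  have hd0 : d ≠ 0 := fun h => by
    rw [h, zero_dvd_iff] at hd
    exact Nat.card_pos.ne' hd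
  have h1 := CfsgLib.FGS.dvd_card_pow_eq_one (G := G) d hd
  rw [CfsgLib.FGS.card_pow_eq_one_eq_sum hd0] at h1
  exact h1

theorem Fd_mul_prime (m p : ℕ) (hp : p.Prime) (hpm : ¬ p ∣ m) (hm : m ≠ 0) :
    Fd G (m * p) = Fd G m + ∑ e ∈ m.divisors, cnt G (e * p) := by
  classical
  have hdiv : (m * p).divisors = m.divisors ∪ m.divisors.image (· * p) := by
    ext d
    simp only [Nat.mem_divisors, Finset.mem_union, Finset.mem_image]
    constructor
    · rintro ⟨h1, h2⟩
      obtain ⟨a, b, ha, hb, rfl⟩ := (Nat.dvd_mul).1 h1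
      rcases (Nat.dvd_prime hp).1 hb with rfl | rfl
      · left
        rw [mul_one]; exact ⟨ha, hm⟩
      · right
        exact ⟨a, ⟨ha, hm⟩, rfl⟩
    · rintro (⟨h1, _⟩ | ⟨a, ⟨h1, _⟩, rfl⟩)
      · exact ⟨h1.trans (Nat.dvd_mul_right _ _), mul_ne_zero hm hp.ne_zero⟩
      · exact ⟨Nat.mul_dvd_mul_right h1 _, mul_ne_zero hm hp.ne_zero⟩
  have hdisj : Disjoint m.divisors (m.divisors.image (· * p)) := by
    rw [Finset.disjoint_left]
    intro d hd hd'
    obtain ⟨a, _, rfl⟩ := Finset.mem_image.1 hd'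
    exact hpm ((Nat.dvd_mul_left p a).trans (Nat.dvd_of_mem_divisors hd))
  unfold Fd
  rw [hdiv, Finset.sum_union hdisj, Finset.sum_image]
  intro a _ b _ hab
  exact Nat.eq_of_mul_eq_mul_right hp.pos hab

theorem Fd_one : Fd G 1 = 1 := by
  simp [Fd, cnt_one]

theorem Fd_prime {p : ℕ} (hp : p.Prime) : Fd G p = 1 + cnt G p := by
  unfold Fd
  rw [Nat.Prime.divisors hp, Finset.sum_pair hp.one_lt.ne, cnt_one]

theorem Fd_prime_sq {p : ℕ} (hp : p.Prime) : Fd G (p ^ 2) = 1 + cnt G p + cnt G (p ^ 2) := by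
  unfold Fd
  rw [Nat.divisors_prime_pow hp, Finset.sum_map, Finset.sum_range_succ, Finset.sum_range_succ, Finset.sum_range_one]
  simp [cnt_one]

theorem Fd_prime_cube {p : ℕ} (hp : p.Prime) : Fd G (p ^ 3) = 1 + cnt G p + cnt G (p ^ 2) + cnt G (p ^ 3) := by
  unfold Fd
  rw [Nat.divisors_prime_pow hp, Finset.sum_map, Finset.sum_range_succ, Finset.sum_range_succ,
    Finset.sum_range_succ, Finset.sum_range_one]
  simp [cnt_one]

theorem Fd_mul_two_primes {p q : ℕ} (hp : p.Prime) (hq : q.Prime) (hne : p ≠ q) :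
    Fd G (p * q) = 1 + cnt G p + cnt G q + cnt G (p * q) := by
  have h1 : ¬ q ∣ p := fun h => hne ((Nat.prime_dvd_prime_iff_eq hq hp).1 h).symm
  rw [Fd_mul_prime p q hq h1 hp.ne_zero, Fd_prime hp, Nat.Prime.divisors hp, Finset.sum_pair hp.one_lt.ne, one_mul]
  ring

/-- `m ≥ 3`: the number of elements of order `m` is even. -/
theorem cnt_even {m : ℕ} (hm : 3 ≤ m) : Even (cnt G m) := by
  classical
  haveI := Fintype.ofFinite G
  have hc : cnt G m = (Finset.univ.filter (fun g : G => orderOf g = m)).card := by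
    unfold cnt
    rw [Nat.card_eq_fintype_card, Fintype.card_subtype]
  rw [hc, ← ZMod.natCast_eq_zero_iff_even]
  have h1 : ∑ g ∈ Finset.univ.filter (fun g : G => orderOf g = m), (1 : ZMod 2) = 0 := by
    refine Finset.sum_involution (fun g _ => g⁻¹) ?_ ?_ ?_ ?_
    · intro a ha
      decide
    · intro a ha _ h
      have ha' : orderOf a = m := (Finset.mem_filter.1 ha).2
      have h2 : a ^ 2 = 1 := by
        rw [pow_two]
        nth_rw 1 [← h]
        simp
      have h3 := orderOf_dvd_of_pow_eq_one h2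
      rw [ha'] at h3
      have := Nat.le_of_dvd (by norm_num) h3
      omega
    · intro a ha
      have ha' : orderOf a = m := (Finset.mem_filter.1 ha).2
      exact Finset.mem_filter.2 ⟨Finset.mem_univ _, by rw [orderOf_inv, ha']⟩
    · intro a ha
      simp
  rw [Finset.sum_const, nsmul_eq_mul, mul_one] at h1
  exact h1

theorem cnt_ne_one {m : ℕ} (hm : 3 ≤ m) : cnt G m ≠ 1 := by
  intro h
  have := cnt_even (G := G) hm
  rw [h] at this
  exact (by decide : ¬ Even 1) this

theorem cnt_pos_of_prime {p : ℕ} (hp : p.Prime) (hd : p ∣ Nat.card G) : cnt G p ≠ 0 := by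
  haveI : Fact p.Prime := ⟨hp⟩
  obtain ⟨x, hx⟩ := exists_prime_orderOf_dvd_card' p hd
  unfold cnt
  haveI : Nonempty {g : G // orderOf g = p} := ⟨⟨x, hx⟩⟩
  exact Nat.card_pos.ne'

theorem exists_of_cnt_ne_zero {m : ℕ} (h : cnt G m ≠ 0) : ∃ g : G, orderOf g = m := by
  unfold cnt at h
  by_contra hne
  push Not at hne
  haveI : IsEmpty {g : G // orderOf g = m} := ⟨fun g => hne g.1 g.2⟩
  exact h Nat.card_of_isEmpty

theorem cnt_ne_zero_of {m : ℕ} {g : G} (h : orderOf g = m) : cnt G m ≠ 0 := by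
  unfold cnt
  haveI : Nonempty {g : G // orderOf g = m} := ⟨⟨g, h⟩⟩
  exact Nat.card_pos.ne'

theorem dvd_card_of_cnt_ne_zero {m : ℕ} (h : cnt G m ≠ 0) : m ∣ Nat.card G := by
  obtain ⟨g, rfl⟩ := exists_of_cnt_ne_zero h
  exact orderOf_dvd_natCard g

theorem orderOf_conj_eq (u g : G) : orderOf (u * g * u⁻¹) = orderOf g := by
  have := MulEquiv.orderOf_eq (MulAut.conj u) g
  simpa using this

/-- A `p`-group acting by conjugation on elements of order `m`. -/
theorem exists_comm_of_not_dvd {p m : ℕ} (hp : p.Prime) (P : Subgroup G) (hP : IsPGroup p P)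
    (h : ¬ p ∣ cnt G m) : ∃ w : G, orderOf w = m ∧ ∀ u ∈ P, u * w = w * u := by
  classical
  haveI : Fact p.Prime := ⟨hp⟩
  letI : MulAction P {g : G // orderOf g = m} :=
    { smul := fun u g => ⟨u.1 * g.1 * u.1⁻¹, (orderOf_conj_eq _ _).trans g.2⟩
      one_smul := fun g => Subtype.ext (by
        show (1 : G) * g.1 * (1 : G)⁻¹ = g.1
        group)
      mul_smul := fun a b g => Subtype.ext (by
        show (a.1 * b.1) * g.1 * (a.1 * b.1)⁻¹ = a.1 * (b.1 * g.1 * b.1⁻¹) * a.1⁻¹
        group) }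
  have hmod := hP.card_modEq_card_fixedPoints {g : G // orderOf g = m}
  have hne : (MulAction.fixedPoints P {g : G // orderOf g = m}).Nonempty := by
    by_contra hempty
    rw [Set.not_nonempty_iff_eq_empty] at hempty
    rw [hempty] at hmod
    apply h
    have h2 : Nat.card (∅ : Set {g : G // orderOf g = m}) = 0 := by simp
    rw [h2] at hmod
    exact (Nat.modEq_zero_iff_dvd).1 hmod
  obtain ⟨w, hw⟩ := hne
  refine ⟨w.1, w.2, ?_⟩
  intro u hu
  have h1 := congrArg Subtype.val (hw ⟨u, hu⟩)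
  have h2 : u * w.1 * u⁻¹ = w.1 := h1
  calc u * w.1 = (u * w.1 * u⁻¹) * u := by group
    _ = w.1 * u := by rw [h2]

/-- Commuting an order-`m` element gives two order-`pm` elements. -/
theorem two_cnt_le {p m : ℕ} (hp : p.Prime) (hm : 3 ≤ m) (hco : Nat.Coprime p m)
    (h : ∀ u : G, orderOf u = p → ∃ w : G, orderOf w = m ∧ u * w = w * u) :
    2 * cnt G p ≤ cnt G (p * m) := by
  classical
  choose w hw1 hw2 using fun u : {u : G // orderOf u = p} => h u.1 u.2
  let f : {u : G // orderOf u = p} × Bool → {x : G // orderOf x = p * m} := fun a =>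
    match a.2 with
    | false => ⟨a.1.1 * w a.1, by
        have hc : Commute a.1.1 (w a.1) := hw2 a.1
        rw [hc.orderOf_mul_eq_mul_orderOf_of_coprime (by rw [a.1.2, hw1]; exact hco), a.1.2, hw1]⟩
    | true => ⟨a.1.1 * (w a.1)⁻¹, by
        have hc : Commute a.1.1 (w a.1)⁻¹ := (Commute.inv_right (hw2 a.1))
        rw [hc.orderOf_mul_eq_mul_orderOf_of_coprime (by rw [orderOf_inv, a.1.2, hw1]; exact hco), orderOf_inv, a.1.2, hw1]⟩
  have hval : ∀ (u : {u : G // orderOf u = p}) (v : G), orderOf v = m → u.1 * v = v * u.1 →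
      ∀ e : ℕ, e ≡ 1 [MOD p] → e ≡ 0 [MOD m] → (u.1 * v) ^ e = u.1 := by
    intro u v hv hc e he1 he2
    have hc' : Commute u.1 v := hc
    rw [hc'.mul_pow]
    have h1 : v ^ e = 1 := by
      apply orderOf_dvd_iff_pow_eq_one.1
      rw [hv]
      exact (Nat.modEq_zero_iff_dvd).1 he2
    have h2 : u.1 ^ e = u.1 ^ 1 := by
      apply pow_eq_pow_iff_modEq.2
      rw [u.2]
      exact he1
    rw [h1, h2, pow_one, mul_one]
  obtain ⟨e, he⟩ := Nat.chineseRemainder hco 1 0
  have hinj : Function.Injective f := by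
    rintro ⟨u, a⟩ ⟨v, b⟩ hab
    have hab' := congrArg Subtype.val hab
    -- recover `u`
    have hu : u = v := by
      apply Subtype.ext
      cases a <;> cases b
      · have h1 := hval u (w u) (hw1 u) (hw2 u) e he.1 he.2
        have h2 := hval v (w v) (hw1 v) (hw2 v) e he.1 he.2
        have h3 : u.1 * w u = v.1 * w v := hab'
        rw [← h1, ← h2, h3]
      · have h1 := hval u (w u) (hw1 u) (hw2 u) e he.1 he.2
        have h2 := hval v (w v)⁻¹ (by rw [orderOf_inv, hw1]) (Commute.inv_right (hw2 v)) e he.1 he.2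
        have h3 : u.1 * w u = v.1 * (w v)⁻¹ := hab'
        rw [← h1, ← h2, h3]
      · have h1 := hval u (w u)⁻¹ (by rw [orderOf_inv, hw1]) (Commute.inv_right (hw2 u)) e he.1 he.2
        have h2 := hval v (w v) (hw1 v) (hw2 v) e he.1 he.2
        have h3 : u.1 * (w u)⁻¹ = v.1 * w v := hab'
        rw [← h1, ← h2, h3]
      · have h1 := hval u (w u)⁻¹ (by rw [orderOf_inv, hw1]) (Commute.inv_right (hw2 u)) e he.1 he.2
        have h2 := hval v (w v)⁻¹ (by rw [orderOf_inv, hw1]) (Commute.inv_right (hw2 v)) e he.1 he.2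
        have h3 : u.1 * (w u)⁻¹ = v.1 * (w v)⁻¹ := hab'
        rw [← h1, ← h2, h3]
    subst hu
    have hne : w u ≠ (w u)⁻¹ := by
      intro h1
      have h2 : (w u) ^ 2 = 1 := by
        rw [pow_two]
        nth_rw 1 [h1]
        simp
      have h3 := orderOf_dvd_of_pow_eq_one h2
      rw [hw1] at h3
      have := Nat.le_of_dvd (by norm_num) h3
      omega
    cases a <;> cases b
    · rfl
    · exfalso
      have h3 : u.1 * w u = u.1 * (w u)⁻¹ := hab'
      exact hne (mul_left_cancel h3)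
    · exfalso
      have h3 : u.1 * (w u)⁻¹ = u.1 * w u := hab'
      exact hne (mul_left_cancel h3).symm
    · rfl
  have h3 := Nat.card_le_card_of_injective f hinj
  rw [Nat.card_prod, Nat.card_eq_fintype_card (α := Bool), Fintype.card_bool] at h3
  unfold cnt
  rw [mul_comm]
  exact h3

/-- The main combination. -/
theorem two_cnt_le_of_not_dvd {p m : ℕ} (hp : p.Prime) (hm : 3 ≤ m) (hco : Nat.Coprime p m)
    (h : ¬ p ∣ cnt G m) : 2 * cnt G p ≤ cnt G (p * m) := by
  classical
  haveI : Fact p.Prime := ⟨hp⟩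
  obtain ⟨S⟩ : Nonempty (Sylow p G) := inferInstance
  obtain ⟨w, hw1, hw2⟩ := exists_comm_of_not_dvd hp (S : Subgroup G) S.isPGroup' h
  apply two_cnt_le hp hm hco
  intro u hu
  have hz : IsPGroup p (zpowers u) := by
    apply IsPGroup.of_card (n := 1)
    rw [Nat.card_zpowers, hu, pow_one]
  obtain ⟨S', hS'⟩ := hz.exists_le_sylow
  obtain ⟨g, hg⟩ := MulAction.exists_smul_eq G S S'
  have hu' : u ∈ (S' : Subgroup G) := hS' (mem_zpowers u)
  rw [← hg] at hu'
  obtain ⟨v, hv, hvu⟩ := hu'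
  refine ⟨g * w * g⁻¹, ?_, ?_⟩
  · exact (orderOf_conj_eq _ _).trans hw1
  · have h1 := hw2 v hv
    have h2 : u = g * v * g⁻¹ := hvu.symm
    rw [h2]
    calc g * v * g⁻¹ * (g * w * g⁻¹) = g * (v * w) * g⁻¹ := by group
      _ = g * (w * v) * g⁻¹ := by rw [h1]
      _ = g * w * g⁻¹ * (g * v * g⁻¹) := by group

end CfsgLib.FGS.OC
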