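import Cfsg.Agent.Lib.FGS.OC
import Cfsg.Agent.Lib.H3.SignIndexTwo

set_option autoImplicit false
set_option linter.unusedSectionVars false
set_option linter.style.haveILetI false
set_option linter.unusedVariables false

open Subgroup Cfsg

namespace CfsgLib.FGS.OC

universe u

variable {G : Type u} [Group G] [Finite G]

theorem sum_div_mul_prime (f : ℕ → ℕ) (m p : ℕ) (hp : p.Prime) (hpm : ¬ p ∣ m) (hm : m ≠ 0) :
    ∑ e ∈ (m * p).divisors, f e = ∑ e ∈ m.divisors, f e + ∑ e ∈ m.divisors, f (e * p) := by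
  classical
  have hdiv : (m * p).divisors = m.divisors ∪ m.divisors.image (· * p) := by
    ext d
    simp only [Nat.mem_divisors, Finset.mem_union, Finset.mem_image]
    constructor
    · rintro ⟨h1, h2⟩
      obtain ⟨a, b, ha, hb, rfl⟩ := (Nat.dvd_mul).1 h1
      rcases (Nat.dvd_prime hp).1 hb with rfl | rfl
      · left
        rw [mul_one]; exact ⟨ha, hm⟩
      · right
        exact ⟨a, ⟨ha, hm⟩, rfl⟩
    · rintro (⟨h1, _⟩ | ⟨a, ⟨h1, _⟩, rfl⟩)
      · exact ⟨h1.trans (Nat.dvd_mul_right _ _), mul_ne_zero hm hp.ne_zero⟩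
      · exact ⟨Nat.mul_dvd_mul_right h1 _, mul_ne_zero hm hp.ne_zero⟩
  have hdisj : Disjoint m.divisors (m.divisors.image (· * p)) := by
    rw [Finset.disjoint_left]
    intro d hd hd'
    obtain ⟨a, _, rfl⟩ := Finset.mem_image.1 hd'
    exact hpm ((Nat.dvd_mul_left p a).trans (Nat.dvd_of_mem_divisors hd))
  rw [hdiv, Finset.sum_union hdisj, Finset.sum_image]
  intro a _ b _ hab
  exact Nat.eq_of_mul_eq_mul_right hp.pos hab

theorem sum_div_prime (f : ℕ → ℕ) {p : ℕ} (hp : p.Prime) : ∑ e ∈ p.divisors, f e = f 1 + f p := by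
  rw [Nat.Prime.divisors hp, Finset.sum_pair hp.one_lt.ne]

theorem sum_div_two_primes (f : ℕ → ℕ) {p q : ℕ} (hp : p.Prime) (hq : q.Prime) (hne : p ≠ q) :
    ∑ e ∈ (p * q).divisors, f e = f 1 + f p + f q + f (p * q) := by
  have h1 : ¬ q ∣ p := fun h => hne ((Nat.prime_dvd_prime_iff_eq hq hp).1 h).symm
  rw [sum_div_mul_prime f p q hq h1 hp.ne_zero, sum_div_prime f hp, sum_div_prime _ hp, one_mul]
  ring

theorem divisors_four : (4 : ℕ).divisors = {1, 2, 4} := by decide

theorem sum_div_four (f : ℕ → ℕ) : ∑ e ∈ (4 : ℕ).divisors, f e = f 1 + f 2 + f 4 := by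
  rw [divisors_four]
  rw [Finset.sum_insert (by decide), Finset.sum_insert (by decide), Finset.sum_singleton]
  ring

theorem Fd_four : Fd G 4 = 1 + cnt G 2 + cnt G 4 := by
  unfold Fd
  rw [sum_div_four, cnt_one]

/-- `F(4p)`. -/
theorem Fd_four_mul {p : ℕ} (hp : p.Prime) (hp2 : p ≠ 2) :
    Fd G (4 * p) = 1 + cnt G 2 + cnt G 4 + cnt G p + cnt G (2 * p) + cnt G (4 * p) := by
  have h1 : ¬ p ∣ 4 := by
    intro h
    have h2 : p ∣ 2 ^ 2 := by simpa using h
    exact hp2 ((Nat.prime_dvd_prime_iff_eq hp Nat.prime_two).1 (hp.dvd_of_dvd_pow h2))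
  unfold Fd
  rw [sum_div_mul_prime _ 4 p hp h1 (by norm_num), sum_div_four, sum_div_four, cnt_one, one_mul]
  ring

theorem not_dvd_four_mul {p q : ℕ} (hp : p.Prime) (hq2 : q ≠ 2) (hq : q.Prime) (hne : p ≠ q) (hp2 : p ≠ 2) : ¬ q ∣ 4 * p := by
  intro h
  rcases (hq.dvd_mul).1 h with h1 | h1
  · have h2 : q ∣ 2 ^ 2 := by simpa using h1
    exact hq2 ((Nat.prime_dvd_prime_iff_eq hq Nat.prime_two).1 (hq.dvd_of_dvd_pow h2))
  · exact hne ((Nat.prime_dvd_prime_iff_eq hq hp).1 h1).symm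

/-- The twelve terms of `F(4pq)`. -/
theorem Fd_four_mul_mul {p q : ℕ} (hp : p.Prime) (hq : q.Prime) (hp2 : p ≠ 2) (hq2 : q ≠ 2) (hne : p ≠ q) :
    Fd G (4 * p * q) = 1 + cnt G 2 + cnt G 4 + cnt G p + cnt G (2 * p) + cnt G (4 * p)
      + cnt G q + cnt G (2 * q) + cnt G (4 * q) + cnt G (p * q) + cnt G (2 * (p * q)) + cnt G (4 * (p * q)) := by
  have h1 : ¬ p ∣ 4 := by
    intro h
    have h2 : p ∣ 2 ^ 2 := by simpa using h
    exact hp2 ((Nat.prime_dvd_prime_iff_eq hp Nat.prime_two).1 (hp.dvd_of_dvd_pow h2))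
  have h3 : ¬ q ∣ 4 * p := not_dvd_four_mul hp hq2 hq hne hp2
  unfold Fd
  rw [sum_div_mul_prime _ (4 * p) q hq h3 (mul_ne_zero (by norm_num) hp.ne_zero)]
  rw [sum_div_mul_prime _ 4 p hp h1 (by norm_num), sum_div_mul_prime _ 4 p hp h1 (by norm_num)]
  rw [sum_div_four, sum_div_four, sum_div_four, sum_div_four, cnt_one]
  simp only [one_mul]
  have e1 : 2 * p * q = 2 * (p * q) := by ring
  have e2 : 4 * p * q = 4 * (p * q) := by ring
  rw [e1, e2]
  ring

/-- `F(pqr)`. -/
theorem Fd_three_primes {p q r : ℕ} (hp : p.Prime) (hq : q.Prime) (hr : r.Prime) (hpq : p ≠ q) (hpr : p ≠ r) (hqr : q ≠ r) :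
    Fd G (p * (q * r)) = 1 + cnt G p + cnt G q + cnt G r + cnt G (p * q) + cnt G (p * r) + cnt G (q * r)
      + cnt G (p * (q * r)) := by
  have h1 : ¬ p ∣ q * r := by
    intro h
    rcases (hp.dvd_mul).1 h with h2 | h2
    · exact hpq ((Nat.prime_dvd_prime_iff_eq hp hq).1 h2)
    · exact hpr ((Nat.prime_dvd_prime_iff_eq hp hr).1 h2)
  have e : p * (q * r) = q * r * p := by ring
  unfold Fd
  rw [e, sum_div_mul_prime _ (q * r) p hp h1 (mul_ne_zero hq.ne_zero hr.ne_zero),
    sum_div_two_primes _ hq hr hqr, sum_div_two_primes _ hq hr hqr, cnt_one, one_mul]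
  have e1 : q * p = p * q := by ring
  have e2 : r * p = p * r := by ring
  rw [e1, e2]
  ring

theorem mul_dvd_card_of_coprime {m n : ℕ} (h : Nat.Coprime m n) (h1 : m ∣ Nat.card G) (h2 : n ∣ Nat.card G) :
    m * n ∣ Nat.card G := h.mul_dvd_of_dvd_of_dvd h1 h2

/-- The number of elements of order `2m` if the involution is unique. -/
theorem cnt_two_mul {m : ℕ} (hm : Odd m) (h2 : cnt G 2 = 1) : cnt G (2 * m) = cnt G m := by
  classical
  have hm0 : m ≠ 0 := hm.pos.ne'
  -- the involution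
  obtain ⟨z, hz⟩ := exists_of_cnt_ne_zero (m := 2) (G := G) (by rw [h2]; exact one_ne_zero)
  have huniq : ∀ y : G, orderOf y = 2 → y = z := by
    intro y hy
    have h3 : Nat.card {g : G // orderOf g = 2} = 1 := h2
    haveI : Finite {g : G // orderOf g = 2} := inferInstance
    have h4 := (Nat.card_eq_one_iff_unique.1 h3).1
    exact congrArg Subtype.val (h4.elim ⟨y, hy⟩ ⟨z, hz⟩)
  have hzc : ∀ g : G, g * z = z * g := by
    intro g
    have h3 := huniq (g * z * g⁻¹) ((orderOf_conj_eq _ _).trans hz)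
    calc g * z = (g * z * g⁻¹) * g := by group
      _ = z * g := by rw [h3]
  have hzz : z * z = 1 := by
    rw [← pow_two, ← hz, pow_orderOf_eq_one]
  have hcop : ∀ d : ℕ, d ∣ m → Nat.Coprime 2 d := fun d hd =>
    Nat.Coprime.coprime_dvd_right hd (Nat.coprime_two_left.2 hm)
  have hord : ∀ x : G, orderOf x ∣ m → orderOf (z * x) = 2 * orderOf x := by
    intro x hx
    have hc : Commute z x := (hzc x).symm
    rw [hc.orderOf_mul_eq_mul_orderOf_of_coprime (by rw [hz]; exact hcop _ hx), hz]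
  unfold cnt
  refine Nat.card_congr ⟨fun y => ⟨z * y.1, ?_⟩, fun x => ⟨z * x.1, ?_⟩, ?_, ?_⟩
  · -- order of `z * y`
    have hy := y.2
    have hzm : z ^ m = z := by
      obtain ⟨k, hk⟩ := hm
      rw [hk, pow_succ, pow_mul, pow_two, hzz, one_pow, one_mul]
    have hym : y.1 ^ m = z := by
      apply huniq
      rw [orderOf_pow' _ hm0, hy]
      have : Nat.gcd (2 * m) m = m := Nat.gcd_eq_right (Nat.dvd_mul_left m 2)
      rw [this]
      exact Nat.mul_div_cancel _ hm.pos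
    have hc : Commute z y.1 := (hzc y.1).symm
    have h1 : (z * y.1) ^ m = 1 := by
      rw [hc.mul_pow, hzm, hym, hzz]
    have h3 := orderOf_dvd_of_pow_eq_one h1
    have h4 := hord (z * y.1) h3
    have h5 : z * (z * y.1) = y.1 := by
      rw [← mul_assoc, hzz, one_mul]
    rw [h5, hy] at h4
    exact (Nat.eq_of_mul_eq_mul_left (by norm_num) h4).symm
  · rw [hord x.1 (by rw [x.2]), x.2]
  · intro y
    apply Subtype.ext
    show z * (z * y.1) = y.1
    rw [← mul_assoc, hzz, one_mul]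
  · intro x
    apply Subtype.ext
    show z * (z * x.1) = x.1
    rw [← mul_assoc, hzz, one_mul]

section Arith

variable {p : ℕ}

theorem cast_cnt_prime [Fact p.Prime] (hd : p ∣ Nat.card G) : ((cnt G p : ℕ) : ZMod p) = -1 := by
  have hp : p.Prime := Fact.out
  have h1 := dvd_Fd hd
  rw [Fd_prime hp] at h1
  have h2 := (ZMod.natCast_eq_zero_iff _ _).2 h1
  push_cast at h2
  linear_combination h2

theorem one_ne_neg_one_zmod [Fact p.Prime] (hp2 : p ≠ 2) : (1 : ZMod p) ≠ -1 := by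
  intro h
  have hp : p.Prime := Fact.out
  have h2 : (2 : ZMod p) = 0 := by linear_combination h
  have h3 : ((2 : ℕ) : ZMod p) = 0 := by exact_mod_cast h2
  rw [ZMod.natCast_eq_zero_iff] at h3
  exact hp2 ((Nat.prime_dvd_prime_iff_eq hp Nat.prime_two).1 h3)

theorem two_ne_zero_zmod [Fact p.Prime] (hp2 : p ≠ 2) : (2 : ZMod p) ≠ 0 := by
  intro h2
  have hp : p.Prime := Fact.out
  have h3 : ((2 : ℕ) : ZMod p) = 0 := by exact_mod_cast h2
  rw [ZMod.natCast_eq_zero_iff] at h3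
  exact hp2 ((Nat.prime_dvd_prime_iff_eq hp Nat.prime_two).1 h3)

end Arith

/-- Two odd primes with different numbers of elements. -/
theorem case_ne {p q : ℕ} (hp : p.Prime) (hq : q.Prime) (hp2 : p ≠ 2) (hq2 : q ≠ 2) (hne : p ≠ q)
    (hpd : p ∣ Nat.card G) (hqd : q ∣ Nat.card G) (hv : ∀ m, 3 ≤ m → cnt G m = 0 ∨ cnt G m = cnt G p ∨ cnt G m = cnt G q)
    (hab : cnt G p ≠ cnt G q) : cnt G (p * q) = 0 ∧ p ∣ cnt G q ∧ q ∣ cnt G p := by
  haveI : Fact p.Prime := ⟨hp⟩
  haveI : Fact q.Prime := ⟨hq⟩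
  have h3p : 3 ≤ p := by have := hp.two_le; omega
  have h3q : 3 ≤ q := by have := hq.two_le; omega
  have hcop : Nat.Coprime p q := (Nat.coprime_primes hp hq).2 hne
  have hpq : p * q ∣ Nat.card G := mul_dvd_card_of_coprime hcop hpd hqd
  have hF := dvd_Fd hpq
  rw [Fd_mul_two_primes hp hq hne] at hF
  have hFp := (ZMod.natCast_eq_zero_iff _ p).2 ((Nat.dvd_mul_right p q).trans hF)
  have hFq := (ZMod.natCast_eq_zero_iff _ q).2 ((Nat.dvd_mul_left q p).trans hF)
  push_cast at hFp hFq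
  have hap := cast_cnt_prime (G := G) hpd
  have hbq := cast_cnt_prime (G := G) hqd
  have h3pq : 3 ≤ p * q := by nlinarith
  rcases hv _ h3pq with h0 | h0 | h0
  · refine ⟨h0, ?_, ?_⟩
    · rw [h0] at hFp
      rw [← ZMod.natCast_eq_zero_iff]
      push_cast at hFp
      linear_combination hFp - hap
    · rw [h0] at hFq
      rw [← ZMod.natCast_eq_zero_iff]
      push_cast at hFq
      linear_combination hFq - hbq
  · exfalso
    have hb1 : ((cnt G q : ℕ) : ZMod p) = 1 := by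
      rw [h0] at hFp
      linear_combination hFp - 2 * hap
    have hnd : ¬ p ∣ cnt G q := by
      intro hd
      rw [← ZMod.natCast_eq_zero_iff, hb1] at hd
      exact one_ne_zero hd
    have h2 := two_cnt_le_of_not_dvd (G := G) hp h3q hcop hnd
    have h4 := cnt_pos_of_prime (G := G) hp hpd
    omega
  · exfalso
    have hb1 : ((cnt G p : ℕ) : ZMod q) = 1 := by
      rw [h0] at hFq
      linear_combination hFq - 2 * hbq
    have hnd : ¬ q ∣ cnt G p := by
      intro hd
      rw [← ZMod.natCast_eq_zero_iff, hb1] at hd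
      exact one_ne_zero hd
    have h2 := two_cnt_le_of_not_dvd (G := G) hq h3p hcop.symm hnd
    rw [mul_comm q p] at h2
    have h4 := cnt_pos_of_prime (G := G) hq hqd
    omega

/-- Two odd primes with the same number of elements. -/
theorem case_eq {p q : ℕ} (hp : p.Prime) (hq : q.Prime) (hne : p ≠ q) (hpd : p ∣ Nat.card G) (hqd : q ∣ Nat.card G)
    (hab : cnt G p = cnt G q) [Fact p.Prime] : ((cnt G (p * q) : ℕ) : ZMod p) = 1 := by
  have hcop : Nat.Coprime p q := (Nat.coprime_primes hp hq).2 hne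
  have hpq : p * q ∣ Nat.card G := mul_dvd_card_of_coprime hcop hpd hqd
  have hF := dvd_Fd hpq
  rw [Fd_mul_two_primes hp hq hne] at hF
  have hFp := (ZMod.natCast_eq_zero_iff _ p).2 ((Nat.dvd_mul_right p q).trans hF)
  push_cast at hFp
  have hap := cast_cnt_prime (G := G) hpd
  rw [← hab] at hFp
  linear_combination hFp - 2 * hap

end CfsgLib.FGS.OC
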