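import Cfsg.Agent.Lib.FGS.OC2

set_option autoImplicit false
set_option linter.unusedSectionVars false
set_option linter.style.haveILetI false
set_option linter.unusedVariables false

open Subgroup Cfsg

namespace CfsgLib.FGS.OC

universe u

variable {G : Type u} [Group G] [Finite G]

/-- `n ≡ -1` and `n' ≡ 1`-style non-divisibility helper. -/
theorem not_dvd_of_cast_eq_neg_one {p n : ℕ} [Fact p.Prime] (h : ((n : ℕ) : ZMod p) = -1) : ¬ p ∣ n := by
  intro hd
  rw [← ZMod.natCast_eq_zero_iff, h] at hd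
  exact one_ne_zero (neg_eq_zero.1 hd)

theorem not_dvd_of_cast_eq_one {p n : ℕ} [Fact p.Prime] (h : ((n : ℕ) : ZMod p) = 1) : ¬ p ∣ n := by
  intro hd
  rw [← ZMod.natCast_eq_zero_iff, h] at hd
  exact one_ne_zero hd

theorem three_le_of_odd_prime {p : ℕ} (hp : p.Prime) (hp2 : p ≠ 2) : 3 ≤ p := by
  have := hp.two_le
  omega

theorem three_le_mul {p q : ℕ} (hp : p.Prime) (hq : q.Prime) (hp2 : p ≠ 2) : 3 ≤ p * q := by
  have := three_le_of_odd_prime hp hp2
  have := hq.pos
  nlinarith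

/-- Lemma A: two odd primes with equal count and a third with different count. -/
theorem no_three_A {p q r : ℕ} (hp : p.Prime) (hq : q.Prime) (hr : r.Prime) (hp2 : p ≠ 2) (hr2 : r ≠ 2)
    (hpq : p ≠ q) (hpr : p ≠ r) (hpd : p ∣ Nat.card G) (hqd : q ∣ Nat.card G) (hrd : r ∣ Nat.card G)
    (hv : ∀ m, 3 ≤ m → cnt G m = 0 ∨ cnt G m = cnt G p ∨ cnt G m = cnt G r)
    (he : cnt G p = cnt G q) (hne : cnt G p ≠ cnt G r) : False := by
  haveI : Fact p.Prime := ⟨hp⟩
  have h1 := case_eq hp hq hpq hpd hqd he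
  have h2 := cast_cnt_prime (G := G) hpd
  have h3 := (case_ne hp hr hp2 hr2 hpr hpd hrd hv hne).2.1
  rcases hv _ (three_le_mul hp hq hp2) with h4 | h4 | h4
  · rw [h4] at h1
    push_cast at h1
    exact zero_ne_one h1
  · rw [h4, h2] at h1
    exact one_ne_neg_one_zmod hp2 h1.symm
  · rw [h4] at h1
    exact not_dvd_of_cast_eq_one h1 h3

/-- Lemma B: three odd primes with equal count. -/
theorem no_three_B {p q r n' : ℕ} (hp : p.Prime) (hq : q.Prime) (hr : r.Prime) (hp2 : p ≠ 2) (hq2 : q ≠ 2)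
    (hpq : p ≠ q) (hpr : p ≠ r) (hqr : q ≠ r) (hpd : p ∣ Nat.card G) (hqd : q ∣ Nat.card G) (hrd : r ∣ Nat.card G)
    (hv : ∀ m, 3 ≤ m → cnt G m = 0 ∨ cnt G m = cnt G p ∨ cnt G m = n')
    (he : cnt G p = cnt G q) (he' : cnt G p = cnt G r) : False := by
  haveI : Fact p.Prime := ⟨hp⟩
  haveI : Fact q.Prime := ⟨hq⟩
  have hn := cast_cnt_prime (G := G) hpd
  have hnq := cast_cnt_prime (G := G) hqd
  -- `cnt (p * q) = n'`
  have hX : ∀ s : ℕ, s.Prime → p ≠ s → s ∣ Nat.card G → cnt G p = cnt G s → cnt G (p * s) = n' := by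
    intro s hs hps hsd hes
    have h1 := case_eq hp hs hps hpd hsd hes
    rcases hv _ (three_le_mul hp hs hp2) with h4 | h4 | h4
    · rw [h4] at h1
      push_cast at h1
      exact absurd h1 zero_ne_one
    · rw [h4, hn] at h1
      exact absurd h1.symm (one_ne_neg_one_zmod hp2)
    · exact h4
  have h1 := hX q hq hpq hqd he
  have h2 := hX r hr hpr hrd he'
  have h3 : ((n' : ℕ) : ZMod p) = 1 := by
    rw [← h1]; exact case_eq hp hq hpq hpd hqd he
  -- `cnt (q * r) = n'`
  have h4 : cnt G (q * r) = n' := by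
    have h5 := case_eq hq hr hqr hqd hrd (he.symm.trans he')
    rcases hv _ (three_le_mul hq hr hq2) with h4 | h4 | h4
    · rw [h4] at h5
      push_cast at h5
      exact absurd h5 zero_ne_one
    · rw [h4, he, hnq] at h5
      exact absurd h5.symm (one_ne_neg_one_zmod hq2)
    · exact h4
  have hcop : Nat.Coprime p (q * r) :=
    Nat.Coprime.mul_right ((Nat.coprime_primes hp hq).2 hpq) ((Nat.coprime_primes hp hr).2 hpr)
  have h5 := two_cnt_le_of_not_dvd (G := G) hp (three_le_mul hq hr hq2) hcop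
    (by rw [h4]; exact not_dvd_of_cast_eq_one h3)
  have h6 := cnt_pos_of_prime (G := G) hp hpd
  have h7 : cnt G (p * (q * r)) = n' := by
    rcases hv (p * (q * r)) (by nlinarith [three_le_mul hq hr hq2, hp.pos]) with h8 | h8 | h8 <;> omega
  have hF := dvd_Fd (G := G) (d := p * (q * r)) (Nat.Coprime.mul_dvd_of_dvd_of_dvd hcop hpd
    (Nat.Coprime.mul_dvd_of_dvd_of_dvd ((Nat.coprime_primes hq hr).2 hqr) hqd hrd))
  rw [Fd_three_primes hp hq hr hpq hpr hqr, h1, h2, h4, h7, ← he, ← he'] at hF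
  have hFp := (ZMod.natCast_eq_zero_iff _ p).2 ((Nat.dvd_mul_right p (q * r)).trans hF)
  push_cast at hFp
  rw [hn, h3] at hFp
  apply two_ne_zero_zmod (p := p) hp2
  linear_combination hFp

/-- No three odd primes. -/
theorem no_three {a b : ℕ} (hab : a ≠ b) (hv : ∀ m, 3 ≤ m → cnt G m = 0 ∨ cnt G m = a ∨ cnt G m = b)
    {p q r : ℕ} (hp : p.Prime) (hq : q.Prime) (hr : r.Prime) (hp2 : p ≠ 2) (hq2 : q ≠ 2) (hr2 : r ≠ 2)
    (hpq : p ≠ q) (hpr : p ≠ r) (hqr : q ≠ r) (hpd : p ∣ Nat.card G) (hqd : q ∣ Nat.card G) (hrd : r ∣ Nat.card G) :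
    False := by
  have h3p := three_le_of_odd_prime hp hp2
  have h3q := three_le_of_odd_prime hq hq2
  have h3r := three_le_of_odd_prime hr hr2
  have hp0 := cnt_pos_of_prime (G := G) hp hpd
  have hq0 := cnt_pos_of_prime (G := G) hq hqd
  have hr0 := cnt_pos_of_prime (G := G) hr hrd
  have hvp := hv p h3p
  have hvq := hv q h3q
  have hvr := hv r h3r
  -- common reformulation
  have key : ∀ s t u : ℕ, s.Prime → t.Prime → u.Prime → s ≠ 2 → u ≠ 2 → s ≠ t → s ≠ u → t ≠ u → s ∣ Nat.card G →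
      t ∣ Nat.card G → u ∣ Nat.card G → cnt G s = cnt G t → cnt G s ≠ cnt G u →
      (cnt G s = a ∧ cnt G u = b ∨ cnt G s = b ∧ cnt G u = a) → False := by
    intro s t u hs ht hu hs2 hu2 hst hsu htu hsd htd hud he hne hc
    refine no_three_A hs ht hu hs2 hu2 hst hsu hsd htd hud ?_ he hne
    intro m hm
    rcases hc with ⟨h1, h2⟩ | ⟨h1, h2⟩ <;> rw [h1, h2]
    · exact hv m hm
    · rcases hv m hm with h | h | h
      · exact Or.inl h
      · exact Or.inr (Or.inr h)
      · exact Or.inr (Or.inl h)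
  by_cases h1 : cnt G p = cnt G q
  · by_cases h2 : cnt G p = cnt G r
    · -- all equal
      have : cnt G p = a ∨ cnt G p = b := by omega
      refine no_three_B (n' := if cnt G p = a then b else a) hp hq hr hp2 hq2 hpq hpr hqr hpd hqd hrd ?_ h1 h2
      intro m hm
      rcases this with h | h
      · rw [if_pos h, h]
        exact hv m hm
      · rw [if_neg (by omega), h]
        rcases hv m hm with h' | h' | h'
        · exact Or.inl h'
        · exact Or.inr (Or.inr h')
        · exact Or.inr (Or.inl h')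
    · exact key p q r hp hq hr hp2 hr2 hpq hpr hqr hpd hqd hrd h1 h2 (by omega)
  · by_cases h2 : cnt G p = cnt G r
    · exact key p r q hp hr hq hp2 hq2 hpr hpq hqr.symm hpd hrd hqd h2 h1 (by omega)
    · have h3 : cnt G q = cnt G r := by omega
      exact key q r p hq hr hp hq2 hp2 hqr hpq.symm hpr.symm hqd hrd hpd h3 (by omega) (by omega)

/-- The prime-set form of Burnside. -/
theorem solvable_of_primes {p q : ℕ} (hp : p.Prime) (hq : q.Prime) (hne : p ≠ q)
    (h : ∀ r : ℕ, r.Prime → r ∣ Nat.card G → r = p ∨ r = q) : Group.IsSolvable G := by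
  set n := Nat.card G with hn
  have hn0 : n ≠ 0 := Nat.card_pos.ne'
  refine CfsgLib.Char.solvable_of_card_eq hp hq n G rfl ?_
  refine ⟨n.factorization p, n.factorization q, ?_⟩
  have h1 := Nat.ordProj_mul_ordCompl_eq_self n p
  -- `m = n / p^a` is a power of `q`
  set m := n / p ^ n.factorization p with hm
  have hm0 : m ≠ 0 := by
    intro h0
    rw [h0, mul_zero] at h1
    exact hn0 h1.symm
  have h2 : Nat.Coprime p m := Nat.coprime_ordCompl hp hn0
  have h3 : m = q ^ m.factorization q := by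
    have h4 := Nat.ordProj_mul_ordCompl_eq_self m q
    set k := m / q ^ m.factorization q with hk
    have h5 : Nat.Coprime q k := Nat.coprime_ordCompl hq hm0
    have hk1 : k = 1 := by
      by_contra hk1
      obtain ⟨r, hr, hrk⟩ := Nat.exists_prime_and_dvd hk1
      have hrm : r ∣ m := hrk.trans (Dvd.intro_left _ h4)
      rcases h r hr (by rw [← h1]; exact hrm.trans (Nat.dvd_mul_left _ _)) with rfl | rfl
      · exact hr.coprime_iff_not_dvd.1 h2 hrm
      · exact hr.coprime_iff_not_dvd.1 h5 hrk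
    rw [hk1, mul_one] at h4
    exact h4.symm
  have h6 : m.factorization q = n.factorization q := by
    have h7 : n.factorization q = (p ^ n.factorization p * m).factorization q := by rw [h1]
    rw [h7, Nat.factorization_mul (pow_ne_zero _ hp.ne_zero) hm0, Nat.factorization_pow, hp.factorization]
    simp [hne]
  rw [← h6, ← h3, h1]

/-- `cnt 2 = 1`-case, different counts. The case where `cnt 4 = cnt p`. -/
theorem U_aux {p q : ℕ} (hp : p.Prime) (hq : q.Prime) (hp2 : p ≠ 2) (hq2 : q ≠ 2) (hne : p ≠ q)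
    (hpd : p ∣ Nat.card G) (hqd : q ∣ Nat.card G) (h4d : 4 ∣ Nat.card G) (h2 : cnt G 2 = 1)
    (hv : ∀ m, 3 ≤ m → cnt G m = 0 ∨ cnt G m = cnt G p ∨ cnt G m = cnt G q)
    (hab : cnt G p ≠ cnt G q) (h4 : cnt G 4 = cnt G p) : False := by
  haveI : Fact p.Prime := ⟨hp⟩
  have hcase := case_ne hp hq hp2 hq2 hne hpd hqd hv hab
  have hn := cast_cnt_prime (G := G) hpd
  have hodd : Odd p := hp.odd_of_ne_two hp2
  have h2p := cnt_two_mul (G := G) hodd h2
  have hc4 : Nat.Coprime 4 p := by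
    have : Nat.Coprime (2 ^ 2) p := Nat.Coprime.pow_left 2 (Nat.coprime_two_left.2 hodd)
    simpa using this
  have hF := dvd_Fd (G := G) (d := 4 * p) (hc4.mul_dvd_of_dvd_of_dvd h4d hpd)
  rw [Fd_four_mul hp hp2, h2, h4, h2p] at hF
  have hFp := (ZMod.natCast_eq_zero_iff _ p).2 ((Nat.dvd_mul_left p 4).trans hF)
  push_cast at hFp
  rw [hn] at hFp
  have hY : ((cnt G (4 * p) : ℕ) : ZMod p) = 1 := by
    linear_combination hFp
  rcases hv (4 * p) (by have := hp.pos; omega) with h5 | h5 | h5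
  · rw [h5] at hY
    push_cast at hY
    exact zero_ne_one hY
  · rw [h5, hn] at hY
    exact one_ne_neg_one_zmod hp2 hY.symm
  · rw [h5] at hY
    exact not_dvd_of_cast_eq_one hY hcase.2.1

theorem not_four_U {p q : ℕ} (hp : p.Prime) (hq : q.Prime) (hp2 : p ≠ 2) (hq2 : q ≠ 2) (hne : p ≠ q)
    (hpd : p ∣ Nat.card G) (hqd : q ∣ Nat.card G) (h2 : cnt G 2 = 1)
    (hv : ∀ m, 3 ≤ m → cnt G m = 0 ∨ cnt G m = cnt G p ∨ cnt G m = cnt G q)
    (hab : cnt G p ≠ cnt G q) : ¬ 4 ∣ Nat.card G := by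
  intro h4d
  have hF := dvd_Fd (G := G) h4d
  rw [Fd_four, h2] at hF
  rcases hv 4 (by norm_num) with h | h | h
  · rw [h] at hF
    omega
  · exact U_aux hp hq hp2 hq2 hne hpd hqd h4d h2 hv hab h
  · refine U_aux hq hp hq2 hp2 hne.symm hqd hpd h4d h2 ?_ hab.symm h
    intro m hm
    rcases hv m hm with h' | h' | h'
    · exact Or.inl h'
    · exact Or.inr (Or.inr h')
    · exact Or.inr (Or.inl h')

theorem not_four_E {p q X : ℕ} (hp : p.Prime) (hq : q.Prime) (hp2 : p ≠ 2) (hq2 : q ≠ 2) (hne : p ≠ q)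
    (hpd : p ∣ Nat.card G) (hqd : q ∣ Nat.card G) (h2 : cnt G 2 = 1)
    (hv : ∀ m, 3 ≤ m → cnt G m = 0 ∨ cnt G m = cnt G p ∨ cnt G m = X)
    (hab : cnt G p = cnt G q) (hX : X = cnt G (p * q)) : ¬ 4 ∣ Nat.card G := by
  intro h4d
  haveI : Fact p.Prime := ⟨hp⟩
  haveI : Fact q.Prime := ⟨hq⟩
  have hn := cast_cnt_prime (G := G) hpd
  have hnq := cast_cnt_prime (G := G) hqd
  have hX1 : ((X : ℕ) : ZMod p) = 1 := by
    rw [hX]; exact case_eq hp hq hne hpd hqd hab
  have hX2 : ((X : ℕ) : ZMod q) = 1 := by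
    rw [hX, mul_comm]; exact case_eq hq hp hne.symm hqd hpd hab.symm
  have hn0 := cnt_pos_of_prime (G := G) hp hpd
  have hF4 := dvd_Fd (G := G) h4d
  rw [Fd_four, h2] at hF4
  have hoddp : Odd p := hp.odd_of_ne_two hp2
  have hoddq : Odd q := hq.odd_of_ne_two hq2
  have h2p := cnt_two_mul (G := G) hoddp h2
  have h2q := cnt_two_mul (G := G) hoddq h2
  have h2pq := cnt_two_mul (G := G) (hoddp.mul hoddq) h2
  have hc4p : Nat.Coprime 4 p := by
    have : Nat.Coprime (2 ^ 2) p := Nat.Coprime.pow_left 2 (Nat.coprime_two_left.2 hoddp)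
    simpa using this
  have hc4q : Nat.Coprime 4 q := by
    have : Nat.Coprime (2 ^ 2) q := Nat.Coprime.pow_left 2 (Nat.coprime_two_left.2 hoddq)
    simpa using this
  have h4c : cnt G 4 = cnt G p ∨ cnt G 4 = X := by
    rcases hv 4 (by norm_num) with h | h | h
    · rw [h] at hF4
      omega
    · exact Or.inl h
    · exact Or.inr h
  -- `¬ p ∣ cnt 4`
  have hnd4 : ∀ s : ℕ, s.Prime → [Fact s.Prime] → ((cnt G p : ℕ) : ZMod s) = -1 → ((X : ℕ) : ZMod s) = 1 → ¬ s ∣ cnt G 4 := by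
    intro s hs _ h1 h3
    rcases h4c with h | h
    · rw [h]; exact not_dvd_of_cast_eq_neg_one h1
    · rw [h]; exact not_dvd_of_cast_eq_one h3
  have hY4p : cnt G (4 * p) = X := by
    have h5 := two_cnt_le_of_not_dvd (G := G) (m := 4) hp (by norm_num) hc4p.symm (hnd4 p hp hn hX1)
    rw [mul_comm p 4] at h5
    rcases hv (4 * p) (by have := hp.pos; omega) with h6 | h6 | h6 <;> omega
  have hY4q : cnt G (4 * q) = X := by
    have hq0 := cnt_pos_of_prime (G := G) hq hqd
    have h5 := two_cnt_le_of_not_dvd (G := G) (m := 4) hq (by norm_num) hc4q.symm (hnd4 q hq (by rw [hab]; exact hnq) hX2)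
    rw [mul_comm q 4] at h5
    rcases hv (4 * q) (by have := hq.pos; omega) with h6 | h6 | h6 <;> omega
  -- `F(4p)`
  have hF4p := dvd_Fd (G := G) (d := 4 * p) (hc4p.mul_dvd_of_dvd_of_dvd h4d hpd)
  rw [Fd_four_mul hp hp2, h2, h2p, hY4p] at hF4p
  have hFp := (ZMod.natCast_eq_zero_iff _ p).2 ((Nat.dvd_mul_left p 4).trans hF4p)
  push_cast at hFp
  rw [hn, hX1] at hFp
  have hc4 : ((cnt G 4 : ℕ) : ZMod p) = -1 := by
    linear_combination hFp
  have h4n : cnt G 4 = cnt G p := by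
    rcases h4c with h | h
    · exact h
    · rw [h, hX1] at hc4
      exact absurd hc4 (one_ne_neg_one_zmod hp2)
  rw [h4n] at hF4
  -- `F(4pq)`
  have hcoppq : Nat.Coprime 4 (p * q) := Nat.Coprime.mul_right hc4p hc4q
  have hpqd : p * q ∣ Nat.card G := ((Nat.coprime_primes hp hq).2 hne).mul_dvd_of_dvd_of_dvd hpd hqd
  have e : 4 * p * q = 4 * (p * q) := by ring
  have hF := dvd_Fd (G := G) (d := 4 * p * q) (by rw [e]; exact hcoppq.mul_dvd_of_dvd_of_dvd h4d hpqd)
  rw [Fd_four_mul_mul hp hq hp2 hq2 hne, h2, h4n, h2p, h2q, h2pq, hY4p, hY4q, ← hX, ← hab] at hF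
  have hFp' := (ZMod.natCast_eq_zero_iff _ p).2 ((Dvd.intro _ (by ring : p * (4 * q) = 4 * p * q)).trans hF)
  push_cast at hFp'
  rw [hn, hX1] at hFp'
  have hY2 : ((cnt G (4 * (p * q)) : ℕ) : ZMod p) = -1 := by
    linear_combination hFp'
  have hY2n : cnt G (4 * (p * q)) = cnt G p := by
    rcases hv (4 * (p * q)) (by have := hp.pos; have := hq.pos; nlinarith) with h | h | h
    · rw [h] at hY2
      push_cast at hY2
      exact absurd hY2 (by
        intro h0
        exact one_ne_zero (neg_eq_zero.1 h0.symm))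
    · exact h
    · rw [h, hX1] at hY2
      exact absurd hY2 (one_ne_neg_one_zmod hp2)
  rw [hY2n] at hF
  have hF' : 4 ∣ 1 + 1 + cnt G p + cnt G p + cnt G p + X + cnt G p + cnt G p + X + X + X + cnt G p :=
    (Dvd.intro _ (by ring : 4 * (p * q) = 4 * p * q)).trans hF
  omega

/-- If `4 ∤ |G|` with an involution, then there is a normal subgroup of index `2`. -/
theorem exists_index_two_of_not_four (h2 : 2 ∣ Nat.card G) (h4 : ¬ 4 ∣ Nat.card G) :
    ∃ N : Subgroup G, N.index = 2 ∧ Nat.card N * 2 = Nat.card G := by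
  haveI : Fact (2 : ℕ).Prime := ⟨Nat.prime_two⟩
  obtain ⟨T⟩ : Nonempty (Sylow 2 G) := inferInstance
  have hcard : Nat.card T = 2 := by
    rw [T.card_eq_multiplicity]
    have h1 : (Nat.card G).factorization 2 = 1 := by
      have h3 : 2 ^ 1 ∣ Nat.card G := by simpa using h2
      have h5 : ¬ 2 ^ 2 ∣ Nat.card G := by simpa using h4
      have hn0 : Nat.card G ≠ 0 := Nat.card_pos.ne'
      have h6 := (Nat.Prime.pow_dvd_iff_le_factorization Nat.prime_two hn0 (k := 1)).1 h3
      have h7 : ¬ 2 ≤ (Nat.card G).factorization 2 := fun h => h5 ((Nat.Prime.pow_dvd_iff_le_factorization Nat.prime_two hn0).2 h)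
      omega
    rw [h1]; rfl
  haveI : IsCyclic (T : Subgroup G) := isCyclic_of_prime_card (p := 2) hcard
  obtain ⟨N, hN⟩ := CfsgLib.SignIdx.exists_index_two_of_cyclic_sylow (even_iff_two_dvd.2 h2) T inferInstance
  refine ⟨N, hN, ?_⟩
  have := Subgroup.card_mul_index N
  rw [hN] at this
  exact this

/-- Extension by index two preserves solvability. -/
theorem solvable_of_index_two {N : Subgroup G} (hN : N.index = 2) (hs : Group.IsSolvable N) : Group.IsSolvable G := by
  haveI : N.Normal := Subgroup.normal_of_index_eq_two hN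
  have hcomm : ∀ a b : G ⧸ N, a * b = b * a := by
    intro a b
    haveI : Fact (Nat.card (G ⧸ N)).Prime := ⟨by
      rw [← Subgroup.index_eq_card, hN]; exact Nat.prime_two⟩
    haveI : IsCyclic (G ⧸ N) := isCyclic_of_prime_card rfl
    exact IsCyclic.commGroup.mul_comm a b
  haveI : Group.IsSolvable (G ⧸ N) := Group.isSolvable_of_comm hcomm
  exact Group.isSolvable_of_ker_le_range (N.subtype) (QuotientGroup.mk' N) (by
    intro x hx
    rw [MonoidHom.mem_ker, QuotientGroup.mk'_apply, QuotientGroup.eq_one_iff] at hx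
    exact ⟨⟨x, hx⟩, rfl⟩)

end CfsgLib.FGS.OC
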