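import Cfsg.Agent.Lib.FGS.OC3
import Cfsg.Agent.Lib.SS.UniqueP
import Cfsg.Agent.Lib.Solv.SZ
import Cfsg.Agent.Lib.PLocal.CoreLift

set_option autoImplicit false
set_option linter.unusedSectionVars false
set_option linter.style.haveILetI false
set_option linter.unusedVariables false

open Subgroup Cfsg
open scoped Pointwise

namespace CfsgLib.FGS.OC

universe u

/-- The key norm computation. -/
theorem norm_kill {A H : Type*} [CommGroup A] [Group H] (c : H →* MulAut A) (Q : Subgroup H) [Finite Q]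
    (t : H) {p : ℕ} (hp : p.Prime)
    (hfix : ∀ x : A, (∀ w ∈ Q, c w x = x) → x = 1)
    (hnorm : ∀ u ∈ Q, ∀ x : A, ∏ i ∈ Finset.range p, c ((u * t * u⁻¹) ^ i) x = 1)
    (hN : ∀ i, 0 < i → i < p → ∀ u ∈ Q, t ^ i * u * (t ^ i)⁻¹ ∈ Q)
    (hinj : ∀ i, 0 < i → i < p → ∀ u ∈ Q, u * t ^ i = t ^ i * u → u = 1) :
    ∀ x : A, x ^ Nat.card Q = 1 := by
  classical
  haveI : Fintype Q := Fintype.ofFinite Q
  intro x
  have h1 : ∏ u : Q, ∏ i ∈ Finset.range p, c (((u : H) * t * (u : H)⁻¹) ^ i) x = 1 :=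
    Finset.prod_eq_one (fun u _ => hnorm u.1 u.2 x)
  rw [Finset.prod_comm] at h1
  rw [Finset.prod_eq_single 0 ?_ (fun h => absurd (Finset.mem_range.2 hp.pos) h)] at h1
  · simp only [pow_zero, map_one, MulAut.one_apply, Finset.prod_const, Finset.card_univ] at h1
    rwa [Nat.card_eq_fintype_card]
  · intro i hi hi0
    have hip : i < p := Finset.mem_range.1 hi
    have hipos : 0 < i := Nat.pos_of_ne_zero hi0
    let φ : Q → Q := fun u => ⟨u.1 * (t ^ i * u.1⁻¹ * (t ^ i)⁻¹), Q.mul_mem u.2 (hN i hipos hip _ (Q.inv_mem u.2))⟩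
    have hφinj : Function.Injective φ := by
      intro u v huv
      have h2 : u.1 * (t ^ i * u.1⁻¹ * (t ^ i)⁻¹) = v.1 * (t ^ i * v.1⁻¹ * (t ^ i)⁻¹) := congrArg Subtype.val huv
      have h3 : v.1⁻¹ * u.1 = 1 := by
        apply hinj i hipos hip _ (Q.mul_mem (Q.inv_mem v.2) u.2)
        have h4 : u.1 * (t ^ i * u.1⁻¹) = v.1 * (t ^ i * v.1⁻¹) := by
          have := congrArg (· * t ^ i) h2
          simpa [mul_assoc] using this
        calc v.1⁻¹ * u.1 * t ^ i = v.1⁻¹ * (u.1 * (t ^ i * u.1⁻¹)) * u.1 := by group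
          _ = v.1⁻¹ * (v.1 * (t ^ i * v.1⁻¹)) * u.1 := by rw [h4]
          _ = t ^ i * (v.1⁻¹ * u.1) := by group
      exact Subtype.ext (by
        have := inv_mul_eq_one.1 h3
        exact this.symm)
    have hφbij : Function.Bijective φ := Finite.injective_iff_bijective.1 hφinj
    set y : A := c (t ^ i) x with hy
    have h5 : ∀ u : Q, c (((u : H) * t * (u : H)⁻¹) ^ i) x = c (φ u).1 y := by
      intro u
      have h6 : ((u : H) * t * (u : H)⁻¹) ^ i = (φ u).1 * t ^ i := by
        rw [conj_pow]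
        show u.1 * t ^ i * u.1⁻¹ = u.1 * (t ^ i * u.1⁻¹ * (t ^ i)⁻¹) * t ^ i
        group
      rw [h6, map_mul, hy]
      rfl
    have h7 : ∏ u : Q, c (((u : H) * t * (u : H)⁻¹) ^ i) x = ∏ w : Q, c w.1 y := by
      rw [← Function.Bijective.prod_comp hφbij (fun w : Q => c w.1 y)]
      exact Finset.prod_congr rfl (fun u _ => h5 u)
    rw [h7]
    apply hfix
    intro w hw
    rw [map_prod]
    have hb : Function.Bijective (fun v : Q => (⟨w, hw⟩ : Q) * v) := (Group.mulLeft_bijective _)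
    rw [← Function.Bijective.prod_comp hb (fun v : Q => c v.1 y)]
    refine Finset.prod_congr rfl (fun v _ => ?_)
    show c w (c v.1 y) = c (w * v.1) y
    rw [map_mul]
    rfl

variable {G : Type u} [Group G] [Finite G]


/-- Expansion of `(x s)^n`. -/
theorem pow_expand' {A H : Type*} [CommGroup A] [Group H] (ι : A →* H) (c : H →* MulAut A)
    (hc : ∀ g a, ι (c g a) = g * ι a * g⁻¹) (x : A) (s : H) (n : ℕ) :
    (ι x * s) ^ n = ι (∏ i ∈ Finset.range n, c (s ^ i) x) * s ^ n := by
  induction n with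
  | zero => simp
  | succ n ih =>
    rw [pow_succ, ih, Finset.prod_range_succ, map_mul, hc]
    group

theorem Fd_le {d : ℕ} (hd : d ≠ 0) : Fd G d ≤ Nat.card G := by
  have h := CfsgLib.FGS.card_pow_eq_one_eq_sum (G := G) hd
  have h1 : Fd G d = Nat.card {g : G // g ^ d = 1} := h.symm
  rw [h1]
  exact Nat.card_le_card_of_injective (fun x => x.1) Subtype.val_injective

theorem cnt_pow_zero {p : ℕ} (hp : p.Prime) (h : cnt G (p ^ 2) = 0) : ∀ k, 2 ≤ k → cnt G (p ^ k) = 0 := by
  intro k hk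
  by_contra hne
  obtain ⟨g, hg⟩ := exists_of_cnt_ne_zero hne
  apply cnt_ne_zero_of (g := g ^ (p ^ (k - 2))) (m := p ^ 2) _ h
  have hpos : p ^ k ≠ 0 := pow_ne_zero _ hp.ne_zero
  rw [orderOf_pow' _ (pow_ne_zero _ hp.ne_zero), hg]
  have e : p ^ k = p ^ (k - 2) * p ^ 2 := by
    rw [← pow_add]
    congr 1
    omega
  rw [Nat.gcd_eq_right (pow_dvd_pow _ (Nat.sub_le _ _)), e, Nat.mul_div_cancel_left _ (pow_pos hp.pos _)]

theorem Fd_prime_pow {p : ℕ} (hp : p.Prime) (h : ∀ k, 2 ≤ k → cnt G (p ^ k) = 0) (a : ℕ) :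
    Fd G (p ^ (a + 1)) = 1 + cnt G p := by
  induction a with
  | zero =>
    rw [zero_add, pow_one, Fd_prime hp]
  | succ a ih =>
    unfold Fd at ih ⊢
    rw [Nat.sum_divisors_prime_pow hp] at ih ⊢
    rw [Finset.sum_range_succ, ih, h (a + 1 + 1) (by omega), add_zero]

/-- Exact shape of the order. -/
theorem card_eq_of_primes {p q : ℕ} (hp : p.Prime) (hq : q.Prime) (hne : p ≠ q)
    (h : ∀ r : ℕ, r.Prime → r ∣ Nat.card G → r = p ∨ r = q) :
    Nat.card G = p ^ (Nat.card G).factorization p * q ^ (Nat.card G).factorization q := by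
  set n := Nat.card G with hn
  have hn0 : n ≠ 0 := Nat.card_pos.ne'
  have h1 := Nat.ordProj_mul_ordCompl_eq_self n p
  set m := n / p ^ n.factorization p with hm
  have hm0 : m ≠ 0 := by
    intro h0
    rw [h0, mul_zero] at h1
    exact hn0 h1.symm
  have h2 : Nat.Coprime p m := Nat.coprime_ordCompl hp hn0
  have h3 : m = q ^ m.factorization q := by
    have h4 := Nat.ordProj_mul_ordCompl_eq_self m q
    set k := m / q ^ m.factorization q with hk
    have h5 : Nat.Coprime q k := Nat.coprime_ordCompl hq hm0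
    have hk1 : k = 1 := by
      by_contra hk1
      obtain ⟨r, hr, hrk⟩ := Nat.exists_prime_and_dvd hk1
      have hrm : r ∣ m := hrk.trans (Dvd.intro_left _ h4)
      rcases h r hr (by rw [← h1]; exact hrm.trans (Nat.dvd_mul_left _ _)) with rfl | rfl
      · exact hr.coprime_iff_not_dvd.1 h2 hrm
      · exact hr.coprime_iff_not_dvd.1 h5 hrk
    rw [hk1, mul_one] at h4
    exact h4.symm
  have h6 : m.factorization q = n.factorization q := by
    have h7 : n.factorization q = (p ^ n.factorization p * m).factorization q := by rw [h1]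
    rw [h7, Nat.factorization_mul (pow_ne_zero _ hp.ne_zero) hm0, Nat.factorization_pow, hp.factorization]
    simp [hne]
  rw [← h6, ← h3, h1]

theorem exp_pos_of_dvd {p : ℕ} (hp : p.Prime) (h : p ∣ Nat.card G) : ∃ a, (Nat.card G).factorization p = a + 1 := by
  have h1 := (hp.dvd_iff_one_le_factorization Nat.card_pos.ne').1 h
  exact ⟨(Nat.card G).factorization p - 1, by omega⟩

/-- Case `E` is impossible when the only primes are `p, q` (odd). -/
theorem case_E_false {p q X : ℕ} (hp : p.Prime) (hq : q.Prime) (hp2 : p ≠ 2) (hq2 : q ≠ 2) (hne : p ≠ q)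
    (hpd : p ∣ Nat.card G) (hqd : q ∣ Nat.card G) (hprimes : ∀ r : ℕ, r.Prime → r ∣ Nat.card G → r = p ∨ r = q)
    (hv : ∀ m, 3 ≤ m → cnt G m = 0 ∨ cnt G m = cnt G p ∨ cnt G m = X)
    (hab : cnt G p = cnt G q) (hX : X = cnt G (p * q)) : False := by
  haveI : Fact p.Prime := ⟨hp⟩
  haveI : Fact q.Prime := ⟨hq⟩
  have hn := cast_cnt_prime (G := G) hpd
  have hnq := cast_cnt_prime (G := G) hqd
  have hX1 : ((X : ℕ) : ZMod p) = 1 := by
    rw [hX]; exact case_eq hp hq hne hpd hqd hab
  have hX2 : ((X : ℕ) : ZMod q) = 1 := by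
    rw [hX, mul_comm]; exact case_eq hq hp hne.symm hqd hpd hab.symm
  have hc : ∀ s : ℕ, s.Prime → [Fact s.Prime] → s ∣ Nat.card G → ((cnt G p : ℕ) : ZMod s) = -1 → ((X : ℕ) : ZMod s) = 1 →
      cnt G s = cnt G p → cnt G (s ^ 2) = 0 := by
    intro s hs _ hsd h1 h3 hse
    by_contra h0
    have hd := dvd_card_of_cnt_ne_zero h0
    have hF := dvd_Fd hd
    rw [Fd_prime_sq hs, hse] at hF
    have hFs := (ZMod.natCast_eq_zero_iff _ s).2 ((dvd_pow_self s (by norm_num)).trans hF)
    push_cast at hFs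
    rw [h1] at hFs
    have h5 : ((cnt G (s ^ 2) : ℕ) : ZMod s) = 0 := by linear_combination hFs
    have hs3 : 3 ≤ s ^ 2 := by
      have := hs.two_le
      nlinarith
    rcases hv _ hs3 with h6 | h6 | h6
    · exact h0 h6
    · rw [h6, h1] at h5
      exact one_ne_zero (neg_eq_zero.1 h5)
    · rw [h6, h3] at h5
      exact one_ne_zero h5
  have hc1 := hc p hp hpd hn hX1 rfl
  have hc2 := hc q hq hqd (by rw [hab]; exact hnq) hX2 hab.symm
  obtain ⟨a, ha⟩ := exp_pos_of_dvd hp hpd
  obtain ⟨b, hb⟩ := exp_pos_of_dvd hq hqd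
  have h1 := dvd_Fd (G := G) (d := p ^ (a + 1)) (by
    rw [← ha]; exact Nat.ordProj_dvd _ _)
  have h2 := dvd_Fd (G := G) (d := q ^ (b + 1)) (by
    rw [← hb]; exact Nat.ordProj_dvd _ _)
  rw [Fd_prime_pow hp (cnt_pow_zero hp hc1)] at h1
  rw [Fd_prime_pow hq (cnt_pow_zero hq hc2), ← hab] at h2
  have h3 : Nat.card G ∣ 1 + cnt G p := by
    rw [card_eq_of_primes hp hq hne hprimes, ha, hb]
    exact Nat.Coprime.mul_dvd_of_dvd_of_dvd (Nat.Coprime.pow _ _ ((Nat.coprime_primes hp hq).2 hne)) h1 h2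
  have h4 := Nat.le_of_dvd (by omega) h3
  have h5 := Fd_le (G := G) (d := p * q) (mul_ne_zero hp.ne_zero hq.ne_zero)
  rw [Fd_mul_two_primes hp hq hne] at h5
  have h6 := cnt_pos_of_prime (G := G) hq hqd
  omega

/-- In case `U`, no elements of order `p²`. -/
theorem case_U_sq {p q : ℕ} (hp : p.Prime) (hq : q.Prime) (hp2 : p ≠ 2) (hq2 : q ≠ 2) (hne : p ≠ q)
    (hpd : p ∣ Nat.card G) (hqd : q ∣ Nat.card G)
    (hv : ∀ m, 3 ≤ m → cnt G m = 0 ∨ cnt G m = cnt G p ∨ cnt G m = cnt G q)
    (hab : cnt G p ≠ cnt G q) : cnt G (p ^ 2) = 0 := by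
  haveI : Fact p.Prime := ⟨hp⟩
  haveI : Fact q.Prime := ⟨hq⟩
  have hn := cast_cnt_prime (G := G) hpd
  have hnq := cast_cnt_prime (G := G) hqd
  have hcase := case_ne hp hq hp2 hq2 hne hpd hqd hv hab
  by_contra h0
  have hd := dvd_card_of_cnt_ne_zero h0
  have hF := dvd_Fd hd
  rw [Fd_prime_sq hp] at hF
  have hFs := (ZMod.natCast_eq_zero_iff _ p).2 ((dvd_pow_self p (by norm_num)).trans hF)
  push_cast at hFs
  rw [hn] at hFs
  have h5 : ((cnt G (p ^ 2) : ℕ) : ZMod p) = 0 := by linear_combination hFs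
  have hs3 : 3 ≤ p ^ 2 := by
    have := hp.two_le
    nlinarith
  rcases hv _ hs3 with h6 | h6 | h6
  · exact h0 h6
  · rw [h6, hn] at h5
    exact one_ne_zero (neg_eq_zero.1 h5)
  · -- `cnt (p^2) = cnt q`
    obtain ⟨y, hy⟩ := exists_prime_orderOf_dvd_card' q hqd
    have hP : IsPGroup q (zpowers y) := by
      apply IsPGroup.of_card (n := 1)
      rw [Nat.card_zpowers, hy, pow_one]
    obtain ⟨w, hw, hwy⟩ := exists_comm_of_not_dvd hq (zpowers y) hP (m := p ^ 2) (by
      rw [h6]; exact not_dvd_of_cast_eq_neg_one hnq)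
    have hc := hwy y (mem_zpowers y)
    -- `w ^ p` has order `p` and commutes with `y`
    have hwp : orderOf (w ^ p) = p := by
      rw [orderOf_pow' _ hp.ne_zero, hw, Nat.gcd_eq_right (dvd_pow_self p (by norm_num))]
      rw [pow_two, Nat.mul_div_cancel _ hp.pos]
    have hcomm : Commute (w ^ p) y := Commute.pow_left hc.symm p
    have h7 : orderOf (w ^ p * y) = p * q := by
      rw [hcomm.orderOf_mul_eq_mul_orderOf_of_coprime (by rw [hwp, hy]; exact (Nat.coprime_primes hp hq).2 hne), hwp, hy]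
    exact cnt_ne_zero_of h7 hcase.1

/-- All elements have order `1, p, q`. -/
theorem orders_of {p q : ℕ} (hp : p.Prime) (hq : q.Prime) (hne : p ≠ q)
    (hprimes : ∀ r : ℕ, r.Prime → r ∣ Nat.card G → r = p ∨ r = q)
    (h1 : cnt G (p * q) = 0) (h2 : cnt G (p ^ 2) = 0) (h3 : cnt G (q ^ 2) = 0) (g : G) (hg : g ≠ 1) :
    orderOf g = p ∨ orderOf g = q := by
  have hcop : Nat.Coprime p q := (Nat.coprime_primes hp hq).2 hne
  set m := orderOf g with hm
  have hm0 : m ≠ 0 := (orderOf_pos g).ne'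
  have hm1 : m ≠ 1 := fun h => hg (orderOf_eq_one_iff.1 h)
  have hdvd : m ∣ Nat.card G := orderOf_dvd_natCard g
  have hno : ¬ (p ∣ m ∧ q ∣ m) := by
    rintro ⟨h4, h5⟩
    have h6 : p * q ∣ m := hcop.mul_dvd_of_dvd_of_dvd h4 h5
    obtain ⟨k, hk⟩ := h6
    have h7 : orderOf (g ^ k) = p * q := by
      have hk0 : k ≠ 0 := by
        rintro rfl
        exact hm0 (by rw [hk, mul_zero])
      rw [orderOf_pow' _ hk0, ← hm, Nat.gcd_eq_right (Dvd.intro_left _ hk.symm), hk,
        Nat.mul_div_cancel _ (Nat.pos_of_ne_zero hk0)]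
    exact cnt_ne_zero_of h7 h1
  have hpow : ∀ s t : ℕ, s.Prime → (∀ r : ℕ, r.Prime → r ∣ m → r = s) → cnt G (s ^ 2) = 0 → m = s := by
    intro s t hs hu hz
    have h4 := Nat.eq_prime_pow_of_unique_prime_dvd hm0 (fun {d} hd hdm => hu d hd hdm)
    set k := m.primeFactorsList.length with hk
    rw [h4] at hm1
    have hk0 : k ≠ 0 := by
      intro h0
      rw [h0, pow_zero] at hm1
      exact hm1 rfl
    have hk1 : k = 1 := by
      by_contra hk1
      have h5 := cnt_pow_zero hs hz k (by omega)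
      have h6 : orderOf g = s ^ k := h4
      exact cnt_ne_zero_of h6 h5
    rw [h4, hk1, pow_one]
  by_cases h4 : p ∣ m
  · left
    apply hpow p 0 hp _ h2
    intro r hr hrm
    rcases hprimes r hr (hrm.trans hdvd) with rfl | rfl
    · rfl
    · exact absurd ⟨h4, hrm⟩ hno
  · right
    apply hpow q 0 hq _ h3
    intro r hr hrm
    rcases hprimes r hr (hrm.trans hdvd) with rfl | rfl
    · exact absurd hrm h4
    · rfl


theorem mem_order_of_pgroup {p q : ℕ} (hp : p.Prime) (hq : q.Prime) (hne : p ≠ q)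
    (hord : ∀ g : G, g ≠ 1 → orderOf g = p ∨ orderOf g = q) {S : Subgroup G} (hS : IsPGroup p S)
    {g : G} (hg : g ∈ S) (hg1 : g ≠ 1) : orderOf g = p := by
  haveI : Fact p.Prime := ⟨hp⟩
  rcases hord g hg1 with h | h
  · exact h
  · exfalso
    obtain ⟨k, hk⟩ := IsPGroup.iff_orderOf.1 hS ⟨g, hg⟩
    rw [Subgroup.orderOf_mk, h] at hk
    exact hne ((Nat.prime_dvd_prime_iff_eq hq hp).1 (hq.dvd_of_dvd_pow (n := k) (by rw [← hk]))).symm

theorem no_comm {p q : ℕ} (hp : p.Prime) (hq : q.Prime) (hne : p ≠ q)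
    (hord : ∀ g : G, g ≠ 1 → orderOf g = p ∨ orderOf g = q) {x y : G} (hx : orderOf x = p) (hy : orderOf y = q)
    (hc : x * y = y * x) : False := by
  have hco : Commute x y := hc
  have h1 : orderOf (x * y) = p * q := by
    rw [hco.orderOf_mul_eq_mul_orderOf_of_coprime (by rw [hx, hy]; exact (Nat.coprime_primes hp hq).2 hne), hx, hy]
  have h2 : x * y ≠ 1 := by
    intro h
    rw [h, orderOf_one] at h1
    exact hp.one_lt.ne (Nat.eq_one_of_mul_eq_one_right h1.symm).symm
  rcases hord _ h2 with h3 | h3 <;> rw [h3] at h1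
  · have : q = 1 := by
      have h4 : p * 1 = p * q := by rw [mul_one]; exact h1
      exact (Nat.eq_of_mul_eq_mul_left hp.pos h4).symm
    exact hq.one_lt.ne' this
  · have : p = 1 := by
      have h4 : 1 * q = p * q := by rw [one_mul]; exact h1
      exact (Nat.eq_of_mul_eq_mul_right hq.pos h4).symm
    exact hp.one_lt.ne' this

/-- The Frobenius structure. -/
theorem frob_main {p q : ℕ} (hp : p.Prime) (hq : q.Prime) (hne : p ≠ q) (hodd : Odd (Nat.card G))
    (hpd : p ∣ Nat.card G) (hqd : q ∣ Nat.card G)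
    (hord : ∀ g : G, g ≠ 1 → orderOf g = p ∨ orderOf g = q) (E : Subgroup G) [hEn : E.Normal] (hE : E ≠ ⊥)
    [hEc : IsMulCommutative E] (hEp : IsPGroup p E) :
    ∃ C : Subgroup G, IsFrobeniusComplement C ∧ (Nat.card C).Prime := by
  classical
  haveI : Fact p.Prime := ⟨hp⟩
  haveI : Fact q.Prime := ⟨hq⟩
  obtain ⟨Q⟩ : Nonempty (Sylow q G) := inferInstance
  have hord' : ∀ g : G, g ≠ 1 → orderOf g = q ∨ orderOf g = p := fun g hg => (hord g hg).symm
  have hQord : ∀ g ∈ (Q : Subgroup G), g ≠ 1 → orderOf g = q := fun g hg hg1 =>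
    mem_order_of_pgroup hq hp hne.symm hord' Q.isPGroup' hg hg1
  have hEord : ∀ g ∈ E, g ≠ 1 → orderOf g = p := fun g hg hg1 =>
    mem_order_of_pgroup hp hq hne hord hEp hg hg1
  -- fixed-point-free
  have hfpf : ∀ h ∈ (Q : Subgroup G), h ≠ 1 → E ⊓ centralizer {h} = ⊥ := by
    intro h hh hh1
    rw [eq_bot_iff]
    rintro x ⟨hxE, hxC⟩
    rw [Subgroup.mem_bot]
    by_contra hx1
    have hxC' : h * x = x * h := Subgroup.mem_centralizer_singleton_iff.1 hxC |>.symm
    exact no_comm hp hq hne hord (hEord x hxE hx1) (hQord h hh hh1) hxC'.symm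
  have hQne : (Q : Subgroup G) ≠ ⊥ := Q.ne_bot_of_dvd_card hqd
  -- `|Q| = q`
  have hQcard : Nat.card (Q : Subgroup G) = q := by
    obtain ⟨P⟩ : Nonempty (Sylow q (Q : Subgroup G)) := inferInstance
    have hPtop : (P : Subgroup (Q : Subgroup G)) = ⊤ := by
      refine (P.is_maximal' (Q := ⊤) ?_ le_top).symm
      exact (Q.isPGroup').of_equiv (Subgroup.topEquiv (G := (Q : Subgroup G))).symm
    have hPcard : Nat.card P = Nat.card (Q : Subgroup G) := by
      rw [hPtop]
      exact Nat.card_congr (Subgroup.topEquiv (G := (Q : Subgroup G))).toEquiv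
    rcases CfsgLib.SS.fpf_sylow_structure E (Q : Subgroup G) hE hfpf q P with hc | ⟨n, ⟨e⟩⟩
    · obtain ⟨t, ht⟩ := IsCyclic.exists_ofOrder_eq_natCard (α := (P : Subgroup (Q : Subgroup G)))
      rw [hPcard] at ht
      rw [← ht]
      have h1 : ((t : (Q : Subgroup G)) : G) ∈ (Q : Subgroup G) := t.1.2
      have hne1 : ((t : (Q : Subgroup G)) : G) ≠ 1 := by
        intro h0
        have h2 : t = 1 := Subtype.ext (Subtype.ext h0)
        rw [h2, orderOf_one] at ht
        have h3 := Subgroup.card_eq_one.1 ht.symm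
        exact hQne h3
      have h4 := hQord _ h1 hne1
      rw [Subgroup.orderOf_coe, Subgroup.orderOf_coe] at h4
      exact h4
    · exfalso
      have h1 := Nat.card_congr e.toEquiv
      rw [Nat.card_eq_fintype_card (α := QuaternionGroup (2 ^ n)), QuaternionGroup.card] at h1
      have h2 : Nat.card P ∣ Nat.card G := by
        rw [hPcard]
        exact Subgroup.card_subgroup_dvd_card _
      rw [h1] at h2
      have h3 : 2 ∣ Nat.card G := Dvd.dvd.trans ⟨2 * 2 ^ n, by ring⟩ h2
      exact (Nat.not_even_iff_odd.2 hodd) (even_iff_two_dvd.2 h3)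
  have hqQ : (Nat.card (Q : Subgroup G)).Prime := by rw [hQcard]; exact hq
  -- `N(Q) = Q`
  have hNQ : normalizer ((Q : Subgroup G) : Set G) ≤ (Q : Subgroup G) := by
    by_contra hcon
    -- an element of order `p`
    obtain ⟨t, htN, htord⟩ : ∃ t ∈ normalizer ((Q : Subgroup G) : Set G), orderOf t = p := by
      by_contra hno
      push Not at hno
      apply hcon
      have h1 : IsPGroup q (normalizer ((Q : Subgroup G) : Set G)) := by
        rw [IsPGroup.iff_orderOf]
        intro g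
        by_cases hg1 : g = 1
        · exact ⟨0, by rw [hg1, orderOf_one, pow_zero]⟩
        · have hg2 : (g : G) ≠ 1 := fun h => hg1 (Subtype.ext h)
          rcases hord g hg2 with h2 | h2
          · exact absurd h2 (hno g g.2)
          · exact ⟨1, by rw [Subgroup.orderOf_coe] at h2; rw [h2, pow_one]⟩
      have h2 := Q.is_maximal' h1 Subgroup.le_normalizer
      rw [h2]
    -- the abstract computation
    letI iE : CommGroup E := { (inferInstance : Group E) with mul_comm := fun a b => mul_comm' a b }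
    have hsub : ∀ (g : G) (a : E), (MulAut.conjNormal g a : E).1 = g * a.1 * g⁻¹ := fun g a => rfl
    have hkill := norm_kill (A := E) (H := G) (MulAut.conjNormal : G →* MulAut E) (Q : Subgroup G) t hp ?_ ?_ ?_ ?_
    · -- conclusion
      have hEne : ∃ x ∈ E, x ≠ 1 := by
        by_contra h0
        push Not at h0
        exact hE ((Subgroup.eq_bot_iff_forall E).2 h0)
      obtain ⟨x, hx, hx1⟩ := hEne
      have h1 := hkill ⟨x, hx⟩
      have h2 : x ^ Nat.card (Q : Subgroup G) = 1 := congrArg Subtype.val h1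
      rw [hQcard] at h2
      have h3 := orderOf_dvd_of_pow_eq_one h2
      rw [hEord x hx hx1] at h3
      exact hne ((Nat.prime_dvd_prime_iff_eq hp hq).1 h3)
    · -- fixed points
      intro x hx
      by_contra hx1
      have hxne : (x : G) ≠ 1 := fun h => hx1 (Subtype.ext h)
      obtain ⟨y, hy, hy1⟩ : ∃ y ∈ (Q : Subgroup G), y ≠ 1 := by
        by_contra h0
        push Not at h0
        exact hQne ((Subgroup.eq_bot_iff_forall _).2 h0)
      have h1 := congrArg Subtype.val (hx y hy)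
      rw [hsub] at h1
      have h2 : y * x.1 = x.1 * y := by
        calc y * x.1 = (y * x.1 * y⁻¹) * y := by group
          _ = x.1 * y := by rw [h1]
      exact no_comm hp hq hne hord (hEord _ x.2 hxne) (hQord y hy hy1) h2.symm
    · -- norm
      intro u hu x
      set s := u * t * u⁻¹ with hs
      have hsord : orderOf s = p := by rw [hs, orderOf_conj_eq]; exact htord
      have hsp : s ^ p = 1 := by rw [← hsord]; exact pow_orderOf_eq_one s
      have hzp : IsPGroup p (zpowers s) := by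
        apply IsPGroup.of_card (n := 1)
        rw [Nat.card_zpowers, hsord, pow_one]
      have hsup : IsPGroup p (E ⊔ zpowers s : Subgroup G) := IsPGroup.to_sup_of_normal_left hEp hzp
      have hxs : x.1 * s ∈ (E ⊔ zpowers s : Subgroup G) :=
        Subgroup.mul_mem _ ((le_sup_left : E ≤ E ⊔ zpowers s) x.2) ((le_sup_right : zpowers s ≤ E ⊔ zpowers s) (mem_zpowers s))
      have hxsp : (x.1 * s) ^ p = 1 := by
        by_cases h1 : x.1 * s = 1
        · rw [h1, one_pow]
        · have := mem_order_of_pgroup hp hq hne hord hsup hxs h1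
          rw [← this]
          exact pow_orderOf_eq_one _
      have hexp := pow_expand' (A := E) (H := G) E.subtype (MulAut.conjNormal : G →* MulAut E) hsub x s p
      rw [hsp, mul_one] at hexp
      have h3 : E.subtype x = x.1 := rfl
      rw [h3, hxsp] at hexp
      exact Subtype.ext hexp.symm
    · -- normalises
      intro i _ _ u hu
      have h1 : t ^ i ∈ normalizer ((Q : Subgroup G) : Set G) := Subgroup.pow_mem _ htN i
      exact (Subgroup.mem_normalizer_iff.1 h1 u).1 hu
    · -- regularity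
      intro i hi0 hip u hu hc
      by_contra hu1
      have h1 : orderOf (t ^ i) = p := by
        rw [orderOf_pow' _ hi0.ne', htord]
        have : Nat.gcd p i = 1 := (Nat.Prime.coprime_iff_not_dvd hp).2 (Nat.not_dvd_of_pos_of_lt hi0 hip)
        rw [this, Nat.div_one]
      exact no_comm hp hq hne hord h1 (hQord u hu hu1) hc.symm
  -- the Frobenius property
  refine ⟨Q, ⟨hQne, ?_, ?_⟩, hqQ⟩
  · intro htop
    obtain ⟨x, hx⟩ := exists_prime_orderOf_dvd_card' p hpd
    have h1 : x ∈ (Q : Subgroup G) := by rw [htop]; exact Subgroup.mem_top x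
    have hx1 : x ≠ 1 := by
      intro h
      rw [h, orderOf_one] at hx
      exact hp.one_lt.ne hx
    rw [hQord x h1 hx1] at hx
    exact hne hx.symm
  · intro g hg
    by_contra hne0
    apply hg
    apply hNQ
    -- a nontrivial element of the intersection
    obtain ⟨y, hy, hy1⟩ : ∃ y ∈ ((Q : Subgroup G) ⊓ (MulAut.conj g • (Q : Subgroup G))), y ≠ 1 := by
      by_contra h0
      push Not at h0
      exact hne0 ((Subgroup.eq_bot_iff_forall _).2 h0)
    have hyQ : y ∈ (Q : Subgroup G) := hy.1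
    obtain ⟨z, hz, hzy⟩ := Subgroup.mem_smul_pointwise_iff_exists _ _ _ |>.1 hy.2
    have hzy' : g * z * g⁻¹ = y := hzy
    have hz1 : z ≠ 1 := by
      rintro rfl
      apply hy1
      rw [← hzy']
      group
    -- `Q = ⟨z⟩`
    have hzgen : (Q : Subgroup G) = zpowers z := by
      symm
      apply Subgroup.eq_of_le_of_card_ge
      · rw [Subgroup.zpowers_le]; exact hz
      · rw [Nat.card_zpowers, hQord z hz hz1, hQcard]
    apply CfsgLib.PLocal.mem_normalizer_of_conj_le
    intro x hx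
    rw [hzgen] at hx
    obtain ⟨k, rfl⟩ := Subgroup.mem_zpowers_iff.1 hx
    have h2 : g * z ^ k * g⁻¹ = y ^ k := by
      rw [← hzy', conj_zpow]
    rw [h2]
    exact Subgroup.zpow_mem _ hyQ k

end CfsgLib.FGS.OC
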