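import Cfsg.Agent.Lib.FGS.OC4

set_option autoImplicit false
set_option linter.unusedSectionVars false
set_option linter.style.haveILetI false
set_option linter.unusedVariables false

open Subgroup Cfsg

namespace CfsgLib.FGS.OC

universe u

theorem exists_type_copy (N : Type*) [Group N] [Finite N] :
    ∃ (P : Type) (_ : Group P) (_ : Finite P), Nonempty (N ≃* P) := by
  obtain ⟨k, ⟨e⟩⟩ := Finite.exists_equiv_fin N
  let e' : N ≃ {i : ℕ // i < k} := e.trans Fin.equivSubtype
  letI iG : Group {i : ℕ // i < k} := e'.symm.group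
  refine ⟨{i : ℕ // i < k}, iG, Finite.of_equiv _ Fin.equivSubtype, ⟨{ toEquiv := e', map_mul' := ?_ }⟩⟩
  intro a b
  show e' (a * b) = e' (e'.symm (e' a) * e'.symm (e' b))
  simp

variable {G : Type u} [Group G] [Finite G]

/-- Unique involution is central. -/
theorem central_of_cnt_two (h2 : cnt G 2 = 1) : ∃ z : G, orderOf z = 2 ∧ (∀ g : G, g * z = z * g) ∧ ∀ y : G, orderOf y = 2 → y = z := by
  obtain ⟨z, hz⟩ := exists_of_cnt_ne_zero (m := 2) (G := G) (by rw [h2]; exact one_ne_zero)
  have huniq : ∀ y : G, orderOf y = 2 → y = z := by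
    intro y hy
    have h3 : Nat.card {g : G // orderOf g = 2} = 1 := h2
    have h4 := (Nat.card_eq_one_iff_unique.1 h3).1
    exact congrArg Subtype.val (h4.elim ⟨y, hy⟩ ⟨z, hz⟩)
  refine ⟨z, hz, ?_, huniq⟩
  intro g
  have h3 := huniq (g * z * g⁻¹) ((orderOf_conj_eq _ _).trans hz)
  calc g * z = (g * z * g⁻¹) * g := by group
    _ = z * g := by rw [h3]

/-- Orders with a single prime. -/
theorem order_eq_of_single {p : ℕ} (hp : p.Prime) (h : cnt G (p ^ 2) = 0) (g : G) (hg : g ≠ 1)
    (hpr : ∀ r : ℕ, r.Prime → r ∣ orderOf g → r = p) : orderOf g = p := by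
  have hm0 : orderOf g ≠ 0 := (orderOf_pos g).ne'
  have hm1 : orderOf g ≠ 1 := fun h => hg (orderOf_eq_one_iff.1 h)
  have h4 := Nat.eq_prime_pow_of_unique_prime_dvd hm0 (fun {d} hd hdm => hpr d hd hdm)
  set k := (orderOf g).primeFactorsList.length with hk
  rw [h4] at hm1
  have hk0 : k ≠ 0 := by
    intro h0
    rw [h0, pow_zero] at hm1
    exact hm1 rfl
  have hk1 : k = 1 := by
    by_contra hk1
    exact cnt_ne_zero_of h4 (cnt_pow_zero hp h k (by omega))
  rw [h4, hk1, pow_one]

/-- The direct product decomposition. -/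
theorem prod_decomp (N : Subgroup G) (hN : N.index = 2) (z : G) (hz : orderOf z = 2) (hzc : ∀ g : G, g * z = z * g)
    (hzN : z ∉ N) : Nonempty (G ≃* Multiplicative (ZMod 2) × N) := by
  classical
  have hzz : z ^ 2 = 1 := by rw [← hz]; exact pow_orderOf_eq_one z
  let f : Multiplicative (ZMod 2) × N →* G := MonoidHom.mk' (fun a => z ^ (Multiplicative.toAdd a.1).val * a.2.1) (by
    rintro ⟨a, x⟩ ⟨b, y⟩
    show z ^ (Multiplicative.toAdd (a * b)).val * (x.1 * y.1) = z ^ (Multiplicative.toAdd a).val * x.1 * (z ^ (Multiplicative.toAdd b).val * y.1)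
    have h1 : (Multiplicative.toAdd (a * b)).val = ((Multiplicative.toAdd a).val + (Multiplicative.toAdd b).val) % 2 := by
      rw [toAdd_mul, ZMod.val_add]
    rw [h1, ← pow_eq_pow_mod _ hzz, pow_add]
    have h2 : x.1 * z ^ (Multiplicative.toAdd b).val = z ^ (Multiplicative.toAdd b).val * x.1 := by
      have : Commute x.1 z := hzc x.1
      exact (this.pow_right _)
    calc z ^ (Multiplicative.toAdd a).val * z ^ (Multiplicative.toAdd b).val * (x.1 * y.1)
        = z ^ (Multiplicative.toAdd a).val * (z ^ (Multiplicative.toAdd b).val * x.1) * y.1 := by group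
      _ = z ^ (Multiplicative.toAdd a).val * (x.1 * z ^ (Multiplicative.toAdd b).val) * y.1 := by rw [h2]
      _ = _ := by group)
  have hinj : Function.Injective f := by
    rw [injective_iff_map_eq_one]
    rintro ⟨a, x⟩ ha
    have h1 : z ^ (Multiplicative.toAdd a).val * x.1 = 1 := ha
    have h2 : (Multiplicative.toAdd a).val < 2 := ZMod.val_lt _
    have h3 : (Multiplicative.toAdd a).val = 0 ∨ (Multiplicative.toAdd a).val = 1 := by omega
    rcases h3 with h3 | h3
    · rw [h3, pow_zero, one_mul] at h1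
      have h4 : Multiplicative.toAdd a = 0 := (ZMod.val_eq_zero _).1 h3
      refine Prod.ext h4 (Subtype.ext h1)
    · rw [h3, pow_one] at h1
      exfalso
      apply hzN
      have : z = x.1⁻¹ := eq_inv_of_mul_eq_one_left h1
      rw [this]
      exact N.inv_mem x.2
  have hcard : Nat.card (Multiplicative (ZMod 2) × N) = Nat.card G := by
    rw [Nat.card_prod, ← Subgroup.card_mul_index N, hN, mul_comm]
    congr 1
    rw [Nat.card_congr (Multiplicative.toAdd (α := ZMod 2)), Nat.card_zmod]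
  have hbij := (Nat.bijective_iff_injective_and_card f).2 ⟨hinj, hcard⟩
  exact ⟨(MulEquiv.ofBijective f hbij).symm⟩

/-- Case with an odd prime and an even order. -/
theorem clause_four {p n : ℕ} (hp : p.Prime) (hp2 : p ≠ 2) (hpd : p ∣ Nat.card G) (h2d : 2 ∣ Nat.card G)
    (hn : cnt G p = n)
    (hv : ∀ m, 3 ≤ m → cnt G m = 0 ∨ cnt G m = n) (h2v : cnt G 2 = 1 ∨ cnt G 2 = n)
    (hprimes : ∀ r : ℕ, r.Prime → r ∣ Nat.card G → r = 2 ∨ r = p) (hsq : cnt G (p ^ 2) = 0) :
    ∃ (P : Type) (_ : Group P) (_ : Finite P), IsPGroup p P ∧ Monoid.exponent P = p ∧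
        Nonempty (G ≃* Multiplicative (ZMod 2) × P) := by
  classical
  haveI : Fact p.Prime := ⟨hp⟩
  have h3p := three_le_of_odd_prime hp hp2
  have hpe := cnt_even (G := G) h3p
  have hc2 : cnt G 2 = 1 := by
    have h1 := dvd_Fd (G := G) h2d
    rw [Fd_prime Nat.prime_two] at h1
    rcases h2v with h | h
    · exact h
    · exfalso
      rw [h, ← hn] at h1
      obtain ⟨k, hk⟩ := hpe
      omega
  have hnp := cast_cnt_prime (G := G) hpd
  rw [hn] at hnp
  have hnot4 : ¬ 4 ∣ Nat.card G := by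
    intro h4d
    have hF := dvd_Fd (G := G) h4d
    rw [Fd_four, hc2] at hF
    have h4 : cnt G 4 = n := by
      rcases hv 4 (by norm_num) with h | h
      · rw [h] at hF
        omega
      · exact h
    have hodd : Odd p := hp.odd_of_ne_two hp2
    have h2p := cnt_two_mul (G := G) hodd hc2
    have hc4 : Nat.Coprime 4 p := by
      have : Nat.Coprime (2 ^ 2) p := Nat.Coprime.pow_left 2 (Nat.coprime_two_left.2 hodd)
      simpa using this
    have hF' := dvd_Fd (G := G) (d := 4 * p) (hc4.mul_dvd_of_dvd_of_dvd h4d hpd)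
    rw [Fd_four_mul hp hp2, hc2, h4, h2p, hn] at hF'
    have hFp := (ZMod.natCast_eq_zero_iff _ p).2 ((Nat.dvd_mul_left p 4).trans hF')
    push_cast at hFp
    rw [hnp] at hFp
    have hY : ((cnt G (4 * p) : ℕ) : ZMod p) = 1 := by
      linear_combination hFp
    rcases hv (4 * p) (by have := hp.pos; omega) with h5 | h5
    · rw [h5] at hY
      push_cast at hY
      exact zero_ne_one hY
    · rw [h5, hnp] at hY
      exact one_ne_neg_one_zmod hp2 hY.symm
  obtain ⟨N, hN, hNc⟩ := exists_index_two_of_not_four h2d hnot4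
  have hNodd : ¬ 2 ∣ Nat.card N := by
    intro h
    apply hnot4
    rw [← hNc]
    obtain ⟨k, hk⟩ := h
    rw [hk]
    exact ⟨k, by ring⟩
  obtain ⟨z, hz, hzc, -⟩ := central_of_cnt_two hc2
  have hzN : z ∉ N := by
    intro hz2
    have h1 : orderOf (⟨z, hz2⟩ : N) ∣ Nat.card N := orderOf_dvd_natCard _
    rw [Subgroup.orderOf_mk, hz] at h1
    exact hNodd h1
  have hord : ∀ g : N, g ≠ 1 → orderOf g = p := by
    intro g hg
    have hg1 : (g : G) ≠ 1 := fun h => hg (Subtype.ext h)
    rw [← Subgroup.orderOf_coe]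
    refine order_eq_of_single hp hsq _ hg1 ?_
    intro r hr hrd
    rw [Subgroup.orderOf_coe] at hrd
    have h1 : r ∣ Nat.card N := hrd.trans (orderOf_dvd_natCard g)
    have h2 : r ∣ Nat.card G := by
      rw [← hNc]
      exact h1.trans (Nat.dvd_mul_right _ _)
    rcases hprimes r hr h2 with rfl | h3
    · exact absurd h1 hNodd
    · exact h3
  have hpN : p ∣ Nat.card N := by
    rw [← hNc] at hpd
    rcases (hp.dvd_mul).1 hpd with h | h
    · exact h
    · exact absurd ((Nat.prime_dvd_prime_iff_eq hp Nat.prime_two).1 h) hp2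
  haveI hnt : Nontrivial N := by
    obtain ⟨x, hx⟩ := exists_prime_orderOf_dvd_card' p hpN
    refine ⟨⟨x, 1, ?_⟩⟩
    rintro rfl
    rw [orderOf_one] at hx
    exact hp.one_lt.ne hx
  have hexp : Monoid.exponent N = p := (Monoid.exponent_eq_prime_iff hp).2 hord
  have hPg : IsPGroup p N := by
    rw [IsPGroup.iff_orderOf]
    intro g
    by_cases hg : g = 1
    · exact ⟨0, by rw [hg, orderOf_one, pow_zero]⟩
    · exact ⟨1, by rw [hord g hg, pow_one]⟩
  obtain ⟨P, iP, fP, ⟨e⟩⟩ := exists_type_copy N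
  refine ⟨P, iP, fP, hPg.of_equiv e, ?_, ?_⟩
  · rw [← Monoid.exponent_eq_of_mulEquiv e, hexp]
  · obtain ⟨e2⟩ := prod_decomp N hN z hz hzc hzN
    exact ⟨e2.trans ((MulEquiv.refl _).prodCongr e)⟩

end CfsgLib.FGS.OC
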