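import Cfsg.Agent.Lib.FGS.Basic
import Cfsg.Agent.Lib.Solv.Fit
import Cfsg.Agent.Lib.PLocal.Core
import Cfsg.Prelude.Def_Local

/-! Series characterisation of `PLengthLE` and closure properties. -/

set_option autoImplicit false

namespace CfsgLib.FGS.PLen

open Subgroup Cfsg

universe u

/-- A chain witnessing `p`-length at most `k`. -/
def PCh (p k : ℕ) (G : Type u) [Group G] : Prop :=
  ∃ U : ℕ → Subgroup G, (∀ i, (U i).Normal) ∧ U 0 = ⊥ ∧ U (2 * k + 1) = ⊤ ∧ (∀ i, U i ≤ U (i + 1)) ∧
    (∀ i, ((U (2 * i)).relIndex (U (2 * i + 1))).Coprime p) ∧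
    (∀ i, ∃ m, (U (2 * i + 1)).relIndex (U (2 * i + 2)) = p ^ m)

variable {G : Type u} [Group G] {p : ℕ}

lemma series_odd (k : ℕ) : (upperPSeries p G (2 * k + 1)).1 =
    (pPrimeCore p (G ⧸ (upperPSeries p G (2 * k)).1)).comap (QuotientGroup.mk' _) := by
  rw [upperPSeries, if_pos (even_two_mul k)]

lemma series_even (k : ℕ) : (upperPSeries p G (2 * k + 2)).1 =
    (pCore p (G ⧸ (upperPSeries p G (2 * k + 1)).1)).comap (QuotientGroup.mk' _) := by
  have h : ¬ Even (2 * k + 1) := by
    rw [Nat.not_even_iff_odd]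
    exact odd_two_mul_add_one k
  rw [show 2 * k + 2 = (2 * k + 1) + 1 from rfl, upperPSeries, if_neg h]

theorem card_map_mk (A Y : Subgroup G) [A.Normal] :
    Nat.card (Y.map (QuotientGroup.mk' A)) = A.relIndex Y := by
  have h := Subgroup.relIndex_ker (QuotientGroup.mk' A) (K := Y)
  rw [QuotientGroup.ker_mk'] at h
  exact h.symm

theorem card_map_mk_dvd (X Y A : Subgroup G) [A.Normal] (hXA : X ≤ A) :
    Nat.card (Y.map (QuotientGroup.mk' A)) ∣ X.relIndex Y := by
  rw [card_map_mk]
  exact Subgroup.relIndex_dvd_of_le_left Y hXA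

theorem le_comap_mk' (A : Subgroup G) [A.Normal] (X : Subgroup (G ⧸ A)) :
    A ≤ X.comap (QuotientGroup.mk' A) := by
  intro x hx
  rw [Subgroup.mem_comap]
  have : QuotientGroup.mk' A x = 1 := (QuotientGroup.eq_one_iff x).2 hx
  rw [this]
  exact one_mem _

theorem relIndex_comap_mk (A : Subgroup G) [A.Normal] (X : Subgroup (G ⧸ A)) :
    A.relIndex (X.comap (QuotientGroup.mk' A)) = Nat.card X := by
  rw [← card_map_mk, Subgroup.map_comap_eq_self_of_surjective (QuotientGroup.mk'_surjective A)]

variable [Finite G]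

theorem pch_of_plength [Fact p.Prime] {k : ℕ} (h : PLengthLE p k G) : PCh p k G := by
  refine ⟨fun i => (upperPSeries p G i).1, fun i => (upperPSeries p G i).2, rfl, h, ?_, ?_, ?_⟩
  · intro i
    rcases Nat.even_or_odd' i with ⟨j, rfl | rfl⟩
    · show (upperPSeries p G (2 * j)).1 ≤ (upperPSeries p G (2 * j + 1)).1
      rw [series_odd]
      haveI := (upperPSeries p G (2 * j)).2
      exact le_comap_mk' _ _
    · show (upperPSeries p G (2 * j + 1)).1 ≤ (upperPSeries p G (2 * j + 2)).1
      rw [series_even]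
      haveI := (upperPSeries p G (2 * j + 1)).2
      exact le_comap_mk' _ _
  · intro i
    simp only
    rw [series_odd]
    haveI := (upperPSeries p G (2 * i)).2
    rw [relIndex_comap_mk]
    exact CfsgLib.Solv.pPrimeCore_coprime p
  · intro i
    simp only
    rw [series_even]
    haveI := (upperPSeries p G (2 * i + 1)).2
    rw [relIndex_comap_mk]
    have := CfsgLib.Solv.pCore_isPGroup (G := G ⧸ (upperPSeries p G (2 * i + 1)).1) p
    obtain ⟨m, hm⟩ := IsPGroup.iff_card.1 this
    exact ⟨m, hm⟩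

theorem le_series_of_pch [Fact p.Prime] {U : ℕ → Subgroup G} (hn : ∀ i, (U i).Normal) (h0 : U 0 = ⊥)
    (hc : ∀ i, ((U (2 * i)).relIndex (U (2 * i + 1))).Coprime p)
    (hP : ∀ i, ∃ m, (U (2 * i + 1)).relIndex (U (2 * i + 2)) = p ^ m) :
    ∀ i, U i ≤ (upperPSeries p G i).1 := by
  intro i
  induction i using Nat.strong_induction_on with
  | _ i ih =>
    rcases i with _ | i
    · rw [h0]; exact bot_le
    have hi := ih i (Nat.lt_succ_self i)
    rcases Nat.even_or_odd' i with ⟨j, rfl | rfl⟩
    · rw [series_odd]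
      haveI := (upperPSeries p G (2 * j)).2
      haveI := hn (2 * j + 1)
      set A := (upperPSeries p G (2 * j)).1 with hA
      have hdvd := card_map_mk_dvd (U (2 * j)) (U (2 * j + 1)) A hi
      have hcop : (Nat.card ((U (2 * j + 1)).map (QuotientGroup.mk' A))).Coprime p :=
        Nat.Coprime.coprime_dvd_left hdvd (hc j)
      haveI : ((U (2 * j + 1)).map (QuotientGroup.mk' A)).Normal :=
        (hn (2 * j + 1)).map _ (QuotientGroup.mk'_surjective A)
      have hle := CfsgLib.FGS.le_pPrimeCore _ hcop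
      exact Subgroup.map_le_iff_le_comap.1 hle
    · rw [show 2 * j + 1 + 1 = 2 * j + 2 from rfl, series_even]
      haveI := (upperPSeries p G (2 * j + 1)).2
      haveI := hn (2 * j + 2)
      set A := (upperPSeries p G (2 * j + 1)).1 with hA
      have hdvd := card_map_mk_dvd (U (2 * j + 1)) (U (2 * j + 2)) A hi
      obtain ⟨m, hm⟩ := hP j
      rw [hm] at hdvd
      obtain ⟨a, -, ha⟩ := (Nat.dvd_prime_pow (Fact.out : p.Prime)).1 hdvd
      have hpg : IsPGroup p ((U (2 * j + 2)).map (QuotientGroup.mk' A)) := IsPGroup.of_card ha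
      haveI : ((U (2 * j + 2)).map (QuotientGroup.mk' A)).Normal :=
        (hn (2 * j + 2)).map _ (QuotientGroup.mk'_surjective A)
      have hle := CfsgLib.FGS.le_pCore _ hpg
      exact Subgroup.map_le_iff_le_comap.1 hle

theorem plength_of_pch [Fact p.Prime] {k : ℕ} (h : PCh p k G) : PLengthLE p k G := by
  obtain ⟨U, hn, h0, htop, -, hc, hP⟩ := h
  have := le_series_of_pch hn h0 hc hP (2 * k + 1)
  rw [htop] at this
  exact le_antisymm le_top this

/-- Quotients and other surjective images. -/
theorem pch_of_surjective [Fact p.Prime] {K : Type u} [Group K] (f : G →* K) (hf : Function.Surjective f) {k : ℕ}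
    (h : PCh p k G) : PCh p k K := by
  obtain ⟨U, hn, h0, htop, hle, hc, hP⟩ := h
  have hidx : ∀ i, ((U i).map f).relIndex ((U (i + 1)).map f) ∣ (U i).relIndex (U (i + 1)) := by
    intro i
    have h1 := Subgroup.relIndex_map_map f (U i) (U (i + 1))
    rw [h1]
    haveI := hn i
    haveI : (U i ⊔ f.ker).Normal := Subgroup.sup_normal _ _
    have h2 : U (i + 1) ⊔ f.ker = U (i + 1) ⊔ (U i ⊔ f.ker) := by
      rw [← sup_assoc, sup_eq_left.2 (hle i)]
    rw [h2, Subgroup.relIndex_sup_right]
    exact Subgroup.relIndex_dvd_of_le_left _ le_sup_left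
  refine ⟨fun i => (U i).map f, fun i => ?_, ?_, ?_, fun i => Subgroup.map_mono (hle i), fun i => ?_, fun i => ?_⟩
  · exact (hn i).map f hf
  · simp only [h0, Subgroup.map_bot]
  · simp only [htop]
    rw [← MonoidHom.range_eq_map]
    exact MonoidHom.range_eq_top.2 hf
  · exact Nat.Coprime.coprime_dvd_left (hidx (2 * i)) (hc i)
  · obtain ⟨m, hm⟩ := hP i
    have := hidx (2 * i + 1)
    rw [show 2 * i + 1 + 1 = 2 * i + 2 from rfl, hm] at this
    obtain ⟨a, -, ha⟩ := (Nat.dvd_prime_pow (Fact.out : p.Prime)).1 this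
    exact ⟨a, ha⟩

/-- Subgroups. -/
theorem pch_of_subgroup [Fact p.Prime] (H : Subgroup G) {k : ℕ} (h : PCh p k G) : PCh p k H := by
  obtain ⟨U, hn, h0, htop, hle, hc, hP⟩ := h
  have hidx : ∀ i, ((U i).subgroupOf H).relIndex ((U (i + 1)).subgroupOf H) ∣ (U i).relIndex (U (i + 1)) := by
    intro i
    have h1 : ((U i).subgroupOf H).relIndex ((U (i + 1)).subgroupOf H) =
        (((U i).subgroupOf H).map H.subtype).relIndex (((U (i + 1)).subgroupOf H).map H.subtype) :=
      (Subgroup.relIndex_map_map_of_injective _ _ H.subtype_injective).symm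
    rw [h1, Subgroup.subgroupOf_map_subtype, Subgroup.subgroupOf_map_subtype]
    haveI := hn i
    set X := U i with hX
    set T := U (i + 1) with hT
    -- (X ⊓ H) in (T ⊓ H)
    have h2 : (X ⊓ H).relIndex (T ⊓ H) = X.relIndex (T ⊓ H) := by
      have h3 := Subgroup.relIndex_inf_mul_relIndex (H := X) (K := H) (L := T ⊓ H)
      have h4 : H.relIndex (T ⊓ H) = 1 := Subgroup.relIndex_eq_one.2 inf_le_right
      have h5 : X ⊓ (T ⊓ H) = X ⊓ H := by
        apply le_antisymm
        · exact inf_le_inf le_rfl inf_le_right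
        · exact le_inf inf_le_left (le_inf (inf_le_left.trans (hle i)) inf_le_right)
      have h6 : X.relIndex (H ⊓ (T ⊓ H)) = X.relIndex (T ⊓ H) := by
        congr 1
        exact inf_eq_right.2 inf_le_right
      rw [h4, mul_one, h6] at h3
      exact h3.symm
    rw [h2]
    -- X.relIndex (T ⊓ H) = card of image, divides card of image of T
    rw [← card_map_mk X (T ⊓ H), ← card_map_mk X T]
    exact Subgroup.card_dvd_of_le (Subgroup.map_mono inf_le_left)
  refine ⟨fun i => (U i).subgroupOf H, fun i => ?_, ?_, ?_, fun i => ?_, fun i => ?_, fun i => ?_⟩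
  · haveI := hn i
    infer_instance
  · simp only [h0, Subgroup.bot_subgroupOf]
  · simp only [htop, Subgroup.top_subgroupOf]
  · intro x hx
    exact hle i hx
  · exact Nat.Coprime.coprime_dvd_left (hidx (2 * i)) (hc i)
  · obtain ⟨m, hm⟩ := hP i
    have := hidx (2 * i + 1)
    rw [show 2 * i + 1 + 1 = 2 * i + 2 from rfl, hm] at this
    obtain ⟨a, -, ha⟩ := (Nat.dvd_prime_pow (Fact.out : p.Prime)).1 this
    exact ⟨a, ha⟩

/-- Transport along an isomorphism. -/
theorem plength_of_equiv [Fact p.Prime] {K : Type u} [Group K] (e : G ≃* K) {k : ℕ}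
    (h : PLengthLE p k G) : PLengthLE p k K :=
  haveI : Finite K := Finite.of_equiv G e.toEquiv
  plength_of_pch (pch_of_surjective e.toMonoidHom e.surjective (pch_of_plength h))

theorem plength_quotient [Fact p.Prime] (N : Subgroup G) [N.Normal] {k : ℕ} (h : PLengthLE p k G) :
    PLengthLE p k (G ⧸ N) :=
  plength_of_pch (pch_of_surjective (QuotientGroup.mk' N) (QuotientGroup.mk'_surjective N) (pch_of_plength h))

theorem plength_subgroup [Fact p.Prime] (H : Subgroup G) {k : ℕ} (h : PLengthLE p k G) :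
    PLengthLE p k H :=
  plength_of_pch (pch_of_subgroup H (pch_of_plength h))

theorem plength_mono [Fact p.Prime] {a b : ℕ} (hab : a ≤ b) (h : PLengthLE p a G) : PLengthLE p b G := by
  obtain ⟨U, hn, h0, htop, hle, hc, hP⟩ := pch_of_plength h
  have hmon : Monotone U := monotone_nat_of_le_succ hle
  have hmax : ∀ i, 2 * a + 1 ≤ i → U i = ⊤ := fun i hi => top_unique (htop ▸ hmon hi)
  apply plength_of_pch
  refine ⟨U, hn, h0, hmax _ (by omega), hle, hc, hP⟩

/-- `p'`-groups have `p`-length `0`. -/
theorem plength_of_coprime [Fact p.Prime] (h : (Nat.card G).Coprime p) : PLengthLE p 0 G := by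
  apply plength_of_pch
  refine ⟨fun i => if i = 0 then ⊥ else ⊤, fun i => ?_, by simp, by simp, fun i => ?_, fun i => ?_, fun i => ?_⟩
  · by_cases hi : i = 0 <;> simp only [hi, if_true, if_false] <;> infer_instance
  · by_cases hi : i = 0
    · simp [hi]
    · simp [hi]
  · by_cases hi : i = 0
    · subst hi
      simpa using h
    · have h1 : 2 * i ≠ 0 := by omega
      simp [h1]
  · exact ⟨0, by simp⟩

/-- `p`-groups have `p`-length at most `1`. -/
theorem plength_of_pgroup [Fact p.Prime] (h : IsPGroup p G) : PLengthLE p 1 G := by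
  apply plength_of_pch
  obtain ⟨n, hn⟩ := IsPGroup.iff_card.1 h
  refine ⟨fun i => if i ≤ 1 then ⊥ else ⊤, fun i => ?_, by simp, by simp, fun i => ?_, fun i => ?_, fun i => ?_⟩
  · by_cases hi : i ≤ 1 <;> simp only [hi, if_true, if_false] <;> infer_instance
  · by_cases hi : i ≤ 1
    · simp only [hi, if_true]
      exact bot_le
    · have h2 : ¬ (i + 1 ≤ 1) := by omega
      simp [hi, h2]
  · by_cases hi : i = 0
    · subst hi
      simp
    · have h1 : ¬ 2 * i ≤ 1 := by omega
      have h2 : ¬ 2 * i + 1 ≤ 1 := by omega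
      simp [h1, h2]
  · by_cases hi : i = 0
    · subst hi
      refine ⟨n, ?_⟩
      simp [hn]
    · have h1 : ¬ 2 * i + 1 ≤ 1 := by omega
      have h2 : ¬ 2 * i + 2 ≤ 1 := by omega
      exact ⟨0, by simp [h1, h2]⟩

theorem series_le (i : ℕ) : (upperPSeries p G i).1 ≤ (upperPSeries p G (i + 1)).1 := by
  rcases Nat.even_or_odd' i with ⟨j, rfl | rfl⟩
  · rw [series_odd]
    haveI := (upperPSeries p G (2 * j)).2
    exact le_comap_mk' _ _
  · show (upperPSeries p G (2 * j + 1)).1 ≤ (upperPSeries p G (2 * j + 2)).1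
    rw [series_even]
    haveI := (upperPSeries p G (2 * j + 1)).2
    exact le_comap_mk' _ _

theorem series_coprime [Fact p.Prime] (i : ℕ) :
    ((upperPSeries p G (2 * i)).1.relIndex (upperPSeries p G (2 * i + 1)).1).Coprime p := by
  rw [series_odd]
  haveI := (upperPSeries p G (2 * i)).2
  rw [relIndex_comap_mk]
  exact CfsgLib.Solv.pPrimeCore_coprime p

theorem series_ppow [Fact p.Prime] (i : ℕ) :
    ∃ m, (upperPSeries p G (2 * i + 1)).1.relIndex (upperPSeries p G (2 * i + 2)).1 = p ^ m := by
  rw [series_even]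
  haveI := (upperPSeries p G (2 * i + 1)).2
  rw [relIndex_comap_mk]
  have := CfsgLib.Solv.pCore_isPGroup (G := G ⧸ (upperPSeries p G (2 * i + 1)).1) p
  obtain ⟨m, hm⟩ := IsPGroup.iff_card.1 this
  exact ⟨m, hm⟩

/-- The upper series consists of characteristic subgroups. -/
theorem map_series_le [Fact p.Prime] (α : G ≃* G) (i : ℕ) :
    (upperPSeries p G i).1.map α.toMonoidHom ≤ (upperPSeries p G i).1 := by
  have hidx : ∀ i, (((upperPSeries p G i).1.map α.toMonoidHom).relIndex
      ((upperPSeries p G (i + 1)).1.map α.toMonoidHom)) = (upperPSeries p G i).1.relIndex (upperPSeries p G (i + 1)).1 :=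
    fun i => Subgroup.relIndex_map_map_of_injective _ _ α.injective
  refine le_series_of_pch (U := fun i => (upperPSeries p G i).1.map α.toMonoidHom) (fun i => ?_) ?_ (fun i => ?_) (fun i => ?_) i
  · haveI := (upperPSeries p G i).2
    exact Subgroup.Normal.map inferInstance _ α.surjective
  · show (upperPSeries p G 0).1.map α.toMonoidHom = ⊥
    have : (upperPSeries p G 0).1 = ⊥ := rfl
    rw [this, Subgroup.map_bot]
  · rw [hidx (2 * i)]
    exact series_coprime i
  · have := hidx (2 * i + 1)
    rw [show 2 * i + 1 + 1 = 2 * i + 2 from rfl] at this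
    rw [this]
    exact series_ppow i

theorem relIndex_comap_comap (N : Subgroup G) [N.Normal] (X Y : Subgroup (G ⧸ N)) :
    (X.comap (QuotientGroup.mk' N)).relIndex (Y.comap (QuotientGroup.mk' N)) = X.relIndex Y := by
  rw [Subgroup.relIndex_comap, Subgroup.map_comap_eq_self_of_surjective (QuotientGroup.mk'_surjective N)]

/-- Additivity of `p`-length along a normal subgroup. -/
theorem plength_add [Fact p.Prime] (N : Subgroup G) [hNn : N.Normal] {a b : ℕ} (hN : PLengthLE p a N)
    (hQ : PLengthLE p b (G ⧸ N)) : PLengthLE p (a + b) G := by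
  apply plength_of_pch
  set V : ℕ → Subgroup G := fun i => (upperPSeries p N i).1.map N.subtype with hV
  set W : ℕ → Subgroup G := fun i => (upperPSeries p (G ⧸ N) i).1.comap (QuotientGroup.mk' N) with hW
  have hVn : ∀ i, (V i).Normal := by
    intro i
    refine ⟨fun x hx g => ?_⟩
    obtain ⟨y, hy, rfl⟩ := hx
    have h1 := map_series_le (p := p) (MulAut.conjNormal g : N ≃* N) i
    have h2 : (MulAut.conjNormal g : N ≃* N) y ∈ (upperPSeries p N i).1 :=
      h1 (Subgroup.mem_map_of_mem _ hy)
    refine ⟨_, h2, ?_⟩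
    simp [MulAut.conjNormal_apply]
  have hWn : ∀ i, (W i).Normal := by
    intro i
    haveI := (upperPSeries p (G ⧸ N) i).2
    simp only [hW]
    infer_instance
  have hVle : ∀ i, V i ≤ V (i + 1) := fun i => Subgroup.map_mono (series_le i)
  have hWle : ∀ i, W i ≤ W (i + 1) := fun i => Subgroup.comap_mono (series_le i)
  have hVtop : V (2 * a + 1) = N := by
    simp only [hV]
    have : (upperPSeries p N (2 * a + 1)).1 = ⊤ := hN
    rw [this, ← MonoidHom.range_eq_map, Subgroup.range_subtype]
  have hW0 : W 0 = N := by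
    simp only [hW]
    have : (upperPSeries p (G ⧸ N) 0).1 = ⊥ := rfl
    rw [this]
    ext x
    simp
  have hWtop : W (2 * b + 1) = ⊤ := by
    simp only [hW]
    have : (upperPSeries p (G ⧸ N) (2 * b + 1)).1 = ⊤ := hQ
    rw [this, Subgroup.comap_top]
  have hVidx : ∀ i, (V i).relIndex (V (i + 1)) = (upperPSeries p N i).1.relIndex (upperPSeries p N (i + 1)).1 :=
    fun i => Subgroup.relIndex_map_map_of_injective _ _ N.subtype_injective
  have hWidx : ∀ i, (W i).relIndex (W (i + 1)) =
      (upperPSeries p (G ⧸ N) i).1.relIndex (upperPSeries p (G ⧸ N) (i + 1)).1 :=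
    fun i => relIndex_comap_comap N _ _
  refine ⟨fun i => if i ≤ 2 * a then V i else W (i - 2 * a), fun i => ?_, ?_, ?_, fun i => ?_, fun i => ?_, fun i => ?_⟩
  · by_cases hi : i ≤ 2 * a
    · simp only [hi, if_true]
      exact hVn i
    · simp only [hi, if_false]
      exact hWn _
  · have h0 : (0 : ℕ) ≤ 2 * a := by omega
    simp only [h0, if_true, hV]
    have : (upperPSeries p N 0).1 = ⊥ := rfl
    rw [this, Subgroup.map_bot]
  · have h0 : ¬ (2 * (a + b) + 1 ≤ 2 * a) := by omega
    have h1 : 2 * (a + b) + 1 - 2 * a = 2 * b + 1 := by omega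
    simp only [h0, if_false, h1]
    exact hWtop
  · by_cases hi : i + 1 ≤ 2 * a
    · have hi' : i ≤ 2 * a := by omega
      simp only [hi, hi', if_true]
      exact hVle i
    · by_cases hi2 : i = 2 * a
      · subst hi2
        simp only [le_refl, if_true, hi, if_false]
        have h1 : 2 * a + 1 - 2 * a = 1 := by omega
        rw [h1]
        have h2 : V (2 * a) ≤ N := hVle (2 * a) |>.trans hVtop.le
        have h3 : N ≤ W 1 := hW0 ▸ hWle 0
        exact h2.trans h3
      · have hi' : ¬ i ≤ 2 * a := by omega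
        simp only [hi, hi', if_false]
        have h1 : i + 1 - 2 * a = (i - 2 * a) + 1 := by omega
        rw [h1]
        exact hWle _
  · by_cases hi : i < a
    · have h1 : 2 * i ≤ 2 * a := by omega
      have h2 : 2 * i + 1 ≤ 2 * a := by omega
      simp only [h1, h2, if_true]
      rw [hVidx]
      exact series_coprime i
    · by_cases hi2 : i = a
      · subst hi2
        have h2 : ¬ (2 * i + 1 ≤ 2 * i) := by omega
        simp only [le_refl, if_true, h2, if_false]
        have h1 : 2 * i + 1 - 2 * i = 1 := by omega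
        rw [h1]
        have h3 : V (2 * i) ≤ N := hVle (2 * i) |>.trans hVtop.le
        have h4 : N ≤ W 1 := hW0 ▸ hWle 0
        rw [← Subgroup.relIndex_mul_relIndex _ _ _ h3 h4]
        refine Nat.Coprime.mul_left ?_ ?_
        · have := hVidx (2 * i)
          rw [hVtop] at this
          rw [this]
          exact series_coprime i
        · have := hWidx 0
          simp only [zero_add] at this
          rw [hW0] at this
          rw [this]
          exact series_coprime 0
      · have h1 : ¬ 2 * i ≤ 2 * a := by omega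
        have h2 : ¬ 2 * i + 1 ≤ 2 * a := by omega
        simp only [h1, h2, if_false]
        have h3 : 2 * i - 2 * a = 2 * (i - a) := by omega
        have h4 : 2 * i + 1 - 2 * a = 2 * (i - a) + 1 := by omega
        rw [h3, h4, hWidx]
        exact series_coprime (i - a)
  · by_cases hi : i < a
    · have h1 : 2 * i + 1 ≤ 2 * a := by omega
      have h2 : 2 * i + 2 ≤ 2 * a := by omega
      simp only [h1, h2, if_true]
      have := hVidx (2 * i + 1)
      rw [show 2 * i + 1 + 1 = 2 * i + 2 from rfl] at this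
      rw [this]
      exact series_ppow i
    · have h1 : ¬ 2 * i + 1 ≤ 2 * a := by omega
      have h2 : ¬ 2 * i + 2 ≤ 2 * a := by omega
      simp only [h1, h2, if_false]
      have h3 : 2 * i + 1 - 2 * a = 2 * (i - a) + 1 := by omega
      have h4 : 2 * i + 2 - 2 * a = 2 * (i - a) + 2 := by omega
      rw [h3, h4]
      have := hWidx (2 * (i - a) + 1)
      rw [show 2 * (i - a) + 1 + 1 = 2 * (i - a) + 2 from rfl] at this
      rw [this]
      exact series_ppow (i - a)

/-- Drop the first `p'`- and `p`-layers of a chain. -/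
theorem pch_shift [Fact p.Prime] {n : ℕ} {U : ℕ → Subgroup G} (hn : ∀ i, (U i).Normal)
    (htop : U (2 * (n + 1) + 1) = ⊤) (hle : ∀ i, U i ≤ U (i + 1))
    (hc : ∀ i, ((U (2 * i)).relIndex (U (2 * i + 1))).Coprime p)
    (hP : ∀ i, ∃ m, (U (2 * i + 1)).relIndex (U (2 * i + 2)) = p ^ m)
    (B : Subgroup G) [hB : B.Normal] (hUB : U 2 ≤ B) : PCh p n (G ⧸ B) := by
  set f := QuotientGroup.mk' B with hf
  have hfs : Function.Surjective f := QuotientGroup.mk'_surjective B
  have hidx : ∀ i, ((U i).map f).relIndex ((U (i + 1)).map f) ∣ (U i).relIndex (U (i + 1)) := by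
    intro i
    have h1 := Subgroup.relIndex_map_map f (U i) (U (i + 1))
    rw [h1]
    haveI := hn i
    haveI : (U i ⊔ f.ker).Normal := Subgroup.sup_normal _ _
    have h2 : U (i + 1) ⊔ f.ker = U (i + 1) ⊔ (U i ⊔ f.ker) := by
      rw [← sup_assoc, sup_eq_left.2 (hle i)]
    rw [h2, Subgroup.relIndex_sup_right]
    exact Subgroup.relIndex_dvd_of_le_left _ le_sup_left
  refine ⟨fun i => (U (i + 2)).map f, fun i => (hn _).map f hfs, ?_, ?_, fun i => Subgroup.map_mono (hle _), fun i => ?_, fun i => ?_⟩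
  · simp only [zero_add]
    rw [eq_bot_iff, Subgroup.map_le_iff_le_comap]
    intro x hx
    have h1 : f x = 1 := (QuotientGroup.eq_one_iff x).2 (hUB hx)
    rw [Subgroup.mem_comap, h1]
    exact Subgroup.one_mem _
  · have h1 : 2 * n + 1 + 2 = 2 * (n + 1) + 1 := by ring
    simp only [h1, htop]
    rw [← MonoidHom.range_eq_map]
    exact MonoidHom.range_eq_top.2 hfs
  · have h1 := hidx (2 * (i + 1))
    have h2 := hc (i + 1)
    have h3 : 2 * i + 2 = 2 * (i + 1) := by ring
    have h4 : 2 * i + 1 + 2 = 2 * (i + 1) + 1 := by ring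
    simp only [h3, h4]
    exact Nat.Coprime.coprime_dvd_left h1 h2
  · obtain ⟨m, hm⟩ := hP (i + 1)
    have h1 := hidx (2 * (i + 1) + 1)
    rw [show 2 * (i + 1) + 1 + 1 = 2 * (i + 1) + 2 from rfl, hm] at h1
    obtain ⟨a, -, ha⟩ := (Nat.dvd_prime_pow (Fact.out : p.Prime)).1 h1
    refine ⟨a, ?_⟩
    have h4 : 2 * i + 1 + 2 = 2 * (i + 1) + 1 := by ring
    have h5 : 2 * i + 2 + 2 = 2 * (i + 1) + 2 := by ring
    simp only [h4, h5]
    exact ha

end CfsgLib.FGS.PLen
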