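import Mathlib
import Cfsg.Prelude.Def_KGroupFacts

/-!
Hopf's description of the Schur multiplier, in the language of stem extensions used by
`Cfsg.HasSchurMultiplier`.
-/

set_option autoImplicit false

namespace CfsgLib.FGS.Schur

open Subgroup
open scoped commutatorElement

universe u v w x

section finite_commutator

variable {G : Type*} [Group G]

/-- Central factors do not change commutators. -/
theorem commutator_mul_central {g h z w : G} (hz : z ∈ center G) (hw : w ∈ center G) :
    ⁅g * z, h * w⁆ = ⁅g, h⁆ := by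
  have hz' := mem_center_iff.1 hz
  have hw' := mem_center_iff.1 hw
  have hab : (g * z) * (h * w) = (g * h * g⁻¹ * h⁻¹) * ((h * w) * (g * z)) := by
    calc (g * z) * (h * w) = g * (z * h) * w := by group
      _ = g * (h * z) * w := by rw [hz' h]
      _ = g * h * (z * w) := by group
      _ = g * h * (w * z) := by rw [hz' w]
      _ = g * h * g⁻¹ * (g * w) * z := by group
      _ = g * h * g⁻¹ * (w * g) * z := by rw [hw' g]
      _ = _ := by group
  rw [commutatorElement_def, commutatorElement_def, hab]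
  group

/-- Schur: a central subgroup of finite index forces a finite commutator subgroup. -/
theorem finite_commutator_of_finiteIndex_center [(center G).FiniteIndex] :
    Finite (commutator G) := by
  have hfin : Finite (G ⧸ center G) := inferInstance
  have hset : Finite (commutatorSet G) := by
    have h1 : (commutatorSet G) ⊆ Set.range (fun p : (G ⧸ center G) × (G ⧸ center G) => ⁅p.1.out, p.2.out⁆) := by
      rintro _ ⟨g, h, rfl⟩
      refine ⟨((g : G ⧸ center G), (h : G ⧸ center G)), ?_⟩
      have h2 : ∀ a : G, ∃ z ∈ center G, (a : G ⧸ center G).out = a * z := by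
        intro a
        refine ⟨a⁻¹ * (a : G ⧸ center G).out, ?_, by group⟩
        have := QuotientGroup.eq.1 (QuotientGroup.out_eq' (a : G ⧸ center G)).symm
        exact this
      obtain ⟨z, hz, hza⟩ := h2 g
      obtain ⟨w, hw, hwa⟩ := h2 h
      show ⁅(g : G ⧸ center G).out, (h : G ⧸ center G).out⁆ = ⁅g, h⁆
      rw [hza, hwa]
      exact commutator_mul_central hz hw
    exact Set.Finite.subset (Set.finite_range _) h1 |>.to_subtype
  exact inferInstance

end finite_commutator

section abstract

variable {F : Type u} [Group F] {Q : Type v} [Group Q] (f : F →* Q)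

/-- `[F, N]` with `N` the kernel of `f`. -/
def relComm : Subgroup F := ⁅(⊤ : Subgroup F), f.ker⁆

instance relComm_normal : (relComm f).Normal := by
  unfold relComm; infer_instance

theorem relComm_le_ker : relComm f ≤ f.ker :=
  Subgroup.commutator_le_right _ _

theorem relComm_le_commutator : relComm f ≤ commutator F := by
  rw [commutator_def]
  exact Subgroup.commutator_mono le_rfl le_top

/-- The group `F / [F, N]`. -/
abbrev EE := F ⧸ relComm f

/-- The projection `F / [F, N] → Q`. -/
def pE : EE f →* Q := QuotientGroup.lift (relComm f) f (fun _ hx => relComm_le_ker f hx)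

@[simp] theorem pE_mk (w : F) : pE f (w : EE f) = f w := rfl

theorem pE_surj (hf : Function.Surjective f) : Function.Surjective (pE f) := by
  intro q
  obtain ⟨w, rfl⟩ := hf q
  exact ⟨(w : EE f), rfl⟩

theorem ker_pE_central : (pE f).ker ≤ center (EE f) := by
  intro x hx
  obtain ⟨w, rfl⟩ := QuotientGroup.mk_surjective x
  have hw : w ∈ f.ker := hx
  rw [mem_center_iff]
  intro g
  obtain ⟨s, rfl⟩ := QuotientGroup.mk_surjective g
  have h1 : ⁅s⁻¹, w⁻¹⁆ ∈ relComm f :=
    Subgroup.commutator_mem_commutator (mem_top _) (Subgroup.inv_mem _ hw)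
  rw [← QuotientGroup.mk_mul, ← QuotientGroup.mk_mul]
  apply QuotientGroup.eq.2
  have h2 : (s * w)⁻¹ * (w * s) = ⁅s⁻¹, w⁻¹⁆⁻¹ := by
    rw [commutatorElement_def]; group
  rw [h2]
  exact Subgroup.inv_mem _ h1

/-- The multiplier, Hopf's formula. -/
def Mb : Subgroup (EE f) := commutator (EE f) ⊓ (pE f).ker

theorem Mb_le_commutator : Mb f ≤ commutator (EE f) := inf_le_left

theorem Mb_le_ker : Mb f ≤ (pE f).ker := inf_le_right

noncomputable instance Mb_commGroup : CommGroup (Mb f) :=
  { (inferInstance : Group (Mb f)) with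
    mul_comm := fun a b => Subtype.ext (by
      have h := mem_center_iff.1 (ker_pE_central f (Mb_le_ker f a.2)) (b : EE f)
      exact h.symm) }

/-- Lifting through a surjection from a free group. -/
theorem exists_lift_free [IsFreeGroup F] {Y : Type w} [Group Y] (ξ : Y →* Q)
    (hξ : Function.Surjective ξ) : ∃ φ : F →* Y, ξ.comp φ = f := by
  refine ⟨IsFreeGroup.lift (fun x => Function.surjInv hξ (f (IsFreeGroup.of x))), ?_⟩
  apply IsFreeGroup.ext_hom
  intro a
  simp [Function.surjInv_eq]

/-- The universal property of `F / [F, N]`. -/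
theorem exists_lift [IsFreeGroup F] {Y : Type w} [Group Y] (ξ : Y →* Q)
    (hξ : Function.Surjective ξ) (hc : ξ.ker ≤ center Y) : ∃ φ : EE f →* Y, ξ.comp φ = pE f := by
  obtain ⟨φ₀, hφ₀⟩ := exists_lift_free f ξ hξ
  have hN : ∀ n ∈ f.ker, φ₀ n ∈ center Y := by
    intro n hn
    apply hc
    show ξ (φ₀ n) = 1
    have : ξ (φ₀ n) = f n := by rw [← hφ₀]; rfl
    rw [this]; exact hn
  have hR : relComm f ≤ φ₀.ker := by
    unfold relComm
    rw [Subgroup.commutator_le]
    intro s _ n hn
    show φ₀ ⁅s, n⁆ = 1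
    rw [map_commutatorElement]
    have := hN n hn
    rw [commutatorElement_def, mem_center_iff.1 this (φ₀ s)]
    group
  refine ⟨QuotientGroup.lift (relComm f) φ₀ (fun _ hx => hR hx), ?_⟩
  apply MonoidHom.ext
  intro x
  obtain ⟨w, rfl⟩ := QuotientGroup.mk_surjective x
  show ξ (φ₀ w) = f w
  rw [← hφ₀]; rfl

section image
variable {Y : Type w} [Group Y] (ξ : Y →* Q) (hc : ξ.ker ≤ center Y) (φ : EE f →* Y)
  (hφ : ξ.comp φ = pE f)

include hφ in
theorem pE_eq (x : EE f) : ξ (φ x) = pE f x := by rw [← hφ]; rfl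

include hφ in
/-- Every element of `Y` is an image times an element of the kernel. -/
theorem exists_decomp (hf : Function.Surjective f) (a : Y) :
    ∃ s : EE f, ∃ z ∈ ξ.ker, a = φ s * z := by
  obtain ⟨s, hs⟩ := pE_surj f hf (ξ a)
  refine ⟨s, (φ s)⁻¹ * a, ?_, by group⟩
  show ξ ((φ s)⁻¹ * a) = 1
  rw [map_mul, map_inv, pE_eq f ξ φ hφ, hs]
  group

include hc hφ in
theorem commutator_le_map (hf : Function.Surjective f) :
    commutator Y ≤ (commutator (EE f)).map φ := by
  rw [commutator_def, Subgroup.commutator_le]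
  intro a _ b _
  obtain ⟨s, z, hz, rfl⟩ := exists_decomp f ξ φ hφ hf a
  obtain ⟨t, w, hw, rfl⟩ := exists_decomp f ξ φ hφ hf b
  rw [commutator_mul_central (hc hz) (hc hw), ← map_commutatorElement]
  exact ⟨⁅s, t⁆, Subgroup.commutator_mem_commutator (mem_top s) (mem_top t), rfl⟩

include hc hφ in
theorem commutator_inf_le_map (hf : Function.Surjective f) :
    commutator Y ⊓ ξ.ker ≤ (Mb f).map φ := by
  rintro y ⟨hy, hy2⟩
  obtain ⟨w, hw, rfl⟩ := commutator_le_map f ξ hc φ hφ hf hy
  refine ⟨w, ⟨hw, ?_⟩, rfl⟩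
  show pE f w = 1
  rw [← pE_eq f ξ φ hφ]
  exact hy2

include hφ in
theorem map_Mb_le : (Mb f).map φ ≤ commutator Y ⊓ ξ.ker := by
  rintro _ ⟨w, ⟨hw, hw2⟩, rfl⟩
  refine ⟨?_, ?_⟩
  · have := Subgroup.mem_map_of_mem φ hw
    rw [commutator_def, Subgroup.map_commutator] at this
    exact (Subgroup.commutator_mono le_top le_top) this
  · show ξ (φ w) = 1
    rw [pE_eq f ξ φ hφ]
    exact hw2

include hc hφ in
/-- If the kernel lies in the commutator subgroup the lift is onto. -/
theorem lift_surjective (hf : Function.Surjective f) (hk : ξ.ker ≤ commutator Y) :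
    Function.Surjective φ := by
  intro a
  obtain ⟨s, z, hz, rfl⟩ := exists_decomp f ξ φ hφ hf a
  obtain ⟨w, _, rfl⟩ := commutator_le_map f ξ hc φ hφ hf (hk hz)
  exact ⟨s * w, map_mul _ _ _⟩

end image

section finiteness

variable [Finite Q]

include f in
theorem finite_ker_index (hf : Function.Surjective f) : (center (EE f)).FiniteIndex := by
  have h1 : (pE f).ker.FiniteIndex := by
    constructor
    rw [Subgroup.index_ker, (MonoidHom.range_eq_top.2 (pE_surj f hf))]
    exact Nat.card_ne_zero.2 ⟨⟨1, trivial⟩, inferInstance⟩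
  exact Subgroup.finiteIndex_of_le (ker_pE_central f)

theorem finite_commutator (hf : Function.Surjective f) : Finite (commutator (EE f)) := by
  haveI := finite_ker_index f hf
  exact finite_commutator_of_finiteIndex_center

theorem finite_Mb (hf : Function.Surjective f) : Finite (Mb f) := by
  haveI := finite_commutator f hf
  exact Finite.of_injective (Subgroup.inclusion (Mb_le_commutator f)) (Subgroup.inclusion_injective _)

end finiteness

section complement

/-- `F / [F, N] → Fᵃᵇ`. -/
def abE : EE f →* Abelianization F :=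
  QuotientGroup.lift (relComm f) Abelianization.of (fun x hx => by
    have := relComm_le_commutator f hx
    rw [← Abelianization.ker_of] at this
    exact this)

theorem ker_abE : (abE f).ker = commutator (EE f) := by
  apply le_antisymm
  · intro x hx
    obtain ⟨w, rfl⟩ := QuotientGroup.mk_surjective x
    have h1 : Abelianization.of w = 1 := hx
    have h2 : w ∈ commutator F := by rw [← Abelianization.ker_of]; exact h1
    have h3 := Subgroup.mem_map_of_mem (QuotientGroup.mk' (relComm f)) h2
    rw [commutator_def, Subgroup.map_commutator] at h3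
    exact (Subgroup.commutator_mono le_top le_top) h3
  · rw [commutator_def, Subgroup.commutator_le]
    intro a _ b _
    show abE f ⁅a, b⁆ = 1
    rw [map_commutatorElement, commutatorElement_def, mul_comm (abE f a)]
    simp

/-- Sections over subgroups of the abelianization of a finitely generated free group. -/
theorem exists_section (F : Type u) [Group F] [IsFreeGroup F] [Group.FG F] {A : Type*} [CommGroup A]
    (g : A →* Abelianization F) : ∃ s : g.range →* A, ∀ b : g.range, g (s b) = b := by
  classical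
  haveI hFG : Group.FG (Abelianization F) :=
    Group.fg_of_surjective (f := Abelianization.of) (QuotientGroup.mk_surjective)
  haveI hfin : Module.Finite ℤ (Additive (Abelianization F)) :=
    Module.Finite.iff_addGroup_fg.2 inferInstance
  let e := MulEquiv.abelianizationCongr (IsFreeGroup.toFreeGroup F)
  let j : Additive (Abelianization F) →+ (IsFreeGroup.Generators F →₀ ℤ) :=
    (FreeAbelianGroup.equivFinsupp (IsFreeGroup.Generators F)).toAddMonoidHom.comp
      (MonoidHom.toAdditive e.toMonoidHom)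
  have hj : Function.Injective j := by
    intro a b hab
    have h1 := (FreeAbelianGroup.equivFinsupp (IsFreeGroup.Generators F)).injective hab
    have h2 : e (Additive.toMul a) = e (Additive.toMul b) := h1
    exact e.injective h2
  let i : Additive g.range →+ Additive (Abelianization F) := MonoidHom.toAdditive g.range.subtype
  have hi : Function.Injective i := by
    intro a b hab
    have h1 : ((Additive.toMul a : g.range) : Abelianization F) = (Additive.toMul b : g.range) := hab
    exact Additive.toMul.injective (Subtype.ext h1)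
  haveI h2 : Module.Finite ℤ (Additive g.range) :=
    Module.Finite.of_injective i.toIntLinearMap hi
  haveI h3 : Module.IsTorsionFree ℤ (Additive g.range) :=
    (hj.comp hi).moduleIsTorsionFree _ (fun r m => by simp)
  haveI h4 : Module.Free ℤ (Additive g.range) := inferInstance
  let π : Additive A →+ Additive g.range := MonoidHom.toAdditive g.rangeRestrict
  have hπ : Function.Surjective π := by
    intro b
    obtain ⟨a, ha⟩ := g.rangeRestrict_surjective (Additive.toMul b)
    exact ⟨Additive.ofMul a, congrArg Additive.ofMul ha⟩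
  obtain ⟨h, hh⟩ := Module.projective_lifting_property π.toIntLinearMap LinearMap.id hπ
  refine ⟨MonoidHom.toAdditive.symm h.toAddMonoidHom, fun b => ?_⟩
  have h5 := LinearMap.congr_fun hh (Additive.ofMul b)
  have h6 : g.rangeRestrict (Additive.toMul (h (Additive.ofMul b))) = b := h5
  exact congrArg Subtype.val h6

/-- Complements of the multiplier inside the central kernel. -/
theorem exists_complement [IsFreeGroup F] [Group.FG F] (L : Subgroup (EE f))
    (hL : L ≤ (pE f).ker) (hsup : L ⊔ Mb f = (pE f).ker) :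
    ∃ C : Subgroup (EE f), C ≤ L ∧ C ⊓ Mb f = ⊥ ∧ C ⊔ Mb f = (pE f).ker := by
  classical
  letI : CommGroup L :=
    { (inferInstance : Group L) with
      mul_comm := fun a b => Subtype.ext (by
        have h := mem_center_iff.1 (ker_pE_central f (hL a.2)) (b : EE f)
        exact h.symm) }
  obtain ⟨s, hs⟩ := exists_section F ((abE f).comp L.subtype)
  have hs' : ∀ b, abE f (s b : EE f) = b := hs
  refine ⟨s.range.map L.subtype, ?_, ?_, ?_⟩
  · rintro _ ⟨a, _, rfl⟩
    exact a.2
  · rw [eq_bot_iff]
    rintro x ⟨⟨a, ⟨b, rfl⟩, rfl⟩, hx⟩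
    have h1 : abE f (s b : EE f) = 1 := by
      have : (s b : EE f) ∈ (abE f).ker := by
        rw [ker_abE]; exact Mb_le_commutator f hx
      exact this
    have h2 : b = 1 := by
      apply Subtype.ext
      rw [← hs' b, h1]
      rfl
    rw [h2, map_one]
    exact Subgroup.one_mem _
  · apply le_antisymm
    · apply sup_le
      · rintro _ ⟨a, _, rfl⟩
        exact hL a.2
      · exact Mb_le_ker f
    · rw [← hsup]
      apply sup_le
      · intro l hl
        -- `l = s(g l) * m`
        have hb : abE f l ∈ ((abE f).comp L.subtype).range := ⟨⟨l, hl⟩, rfl⟩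
        obtain ⟨c, hc⟩ : ∃ c : ((abE f).comp L.subtype).range, (c : Abelianization F) = abE f l := ⟨⟨_, hb⟩, rfl⟩
        have h1 : (s c : EE f) ∈ s.range.map L.subtype := ⟨s c, ⟨c, rfl⟩, rfl⟩
        have h2 : (s c : EE f)⁻¹ * l ∈ Mb f := by
          refine ⟨?_, ?_⟩
          · rw [← ker_abE]
            show abE f ((s c : EE f)⁻¹ * l) = 1
            rw [map_mul, map_inv, hs' c, hc]
            simp
          · exact Subgroup.mul_mem _ (Subgroup.inv_mem _ (hL (s c).2)) (hL hl)
        have h3 : l = (s c : EE f) * ((s c : EE f)⁻¹ * l) := by group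
        rw [h3]
        exact Subgroup.mul_mem_sup h1 h2
      · exact le_sup_right

end complement

section cover

variable {F Q' : Type u} [Group F] [Group Q'] (g : F →* Q')

/-- A stem extension built from a complement. -/
theorem exists_cover [Finite Q'] (hg : Function.Surjective g) (C : Subgroup (EE g))
    (hC : C ≤ (pE g).ker) (hinf : C ⊓ Mb g = ⊥) (hsup : C ⊔ Mb g = (pE g).ker) :
    ∃ (Γ : Type u) (_ : Group Γ) (_ : Finite Γ) (σ : Γ →* Q') (β : EE g →* Γ),
      Cfsg.IsStemExtension σ ∧ σ.comp β = pE g ∧ β.ker = C ∧ Function.Surjective β ∧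
      Nonempty (σ.ker ≃* Mb g) := by
  classical
  haveI hCn : C.Normal := by
    constructor
    intro a ha b
    have h1 := mem_center_iff.1 (ker_pE_central g (hC ha)) b
    rw [h1]
    simpa using ha
  let σ : EE g ⧸ C →* Q' := QuotientGroup.lift C (pE g) (fun _ hx => hC hx)
  let β : EE g →* EE g ⧸ C := QuotientGroup.mk' C
  have hσβ : σ.comp β = pE g := by
    apply MonoidHom.ext
    intro x
    rfl
  have hβs : Function.Surjective β := QuotientGroup.mk'_surjective C
  have hσs : Function.Surjective σ := by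
    intro q
    obtain ⟨x, rfl⟩ := pE_surj g hg q
    exact ⟨β x, rfl⟩
  have hker : ∀ y : EE g ⧸ C, σ y = 1 → ∃ m ∈ Mb g, β m = y := by
    intro y hy
    obtain ⟨x, rfl⟩ := hβs y
    have hx : x ∈ (pE g).ker := hy
    rw [← hsup] at hx
    obtain ⟨c, hc, m, hm, rfl⟩ := Subgroup.mem_sup_of_normal_left.1 hx
    refine ⟨m, hm, ?_⟩
    have h1 : β c = 1 := (QuotientGroup.eq_one_iff c).2 hc
    rw [map_mul, h1, one_mul]
  have hcomm : (commutator (EE g)).map β ≤ commutator (EE g ⧸ C) := by
    rw [commutator_def, Subgroup.map_commutator]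
    exact Subgroup.commutator_mono le_top le_top
  have hMbσ : ∀ m ∈ Mb g, σ (β m) = 1 := fun m hm => Mb_le_ker g hm
  let φ : Mb g →* σ.ker := MonoidHom.codRestrict (β.comp (Mb g).subtype) σ.ker (fun m => hMbσ m m.2)
  have hφb : Function.Bijective φ := by
    constructor
    · rw [injective_iff_map_eq_one]
      intro m hm
      have h1 : β (m : EE g) = 1 := congrArg Subtype.val hm
      have h2 : (m : EE g) ∈ C ⊓ Mb g := ⟨(QuotientGroup.eq_one_iff _).1 h1, m.2⟩
      rw [hinf] at h2
      exact Subtype.ext h2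
    · intro y
      obtain ⟨m, hm, hmy⟩ := hker y y.2
      exact ⟨⟨m, hm⟩, Subtype.ext hmy⟩
  haveI : Finite (Mb g) := finite_Mb g hg
  haveI : Finite σ.ker := Finite.of_surjective φ hφb.2
  haveI : Finite ((EE g ⧸ C) ⧸ σ.ker) :=
    Finite.of_equiv _ (QuotientGroup.quotientKerEquivOfSurjective σ hσs).symm.toEquiv
  haveI hfin : Finite (EE g ⧸ C) :=
    Finite.of_equiv _ (Subgroup.groupEquivQuotientProdSubgroup (s := σ.ker)).symm
  refine ⟨EE g ⧸ C, inferInstance, hfin, σ, β, ⟨hσs, ?_, ?_⟩, hσβ, ?_, hβs, ⟨(MulEquiv.ofBijective φ hφb).symm⟩⟩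
  · intro y hy
    obtain ⟨m, hm, rfl⟩ := hker y hy
    rw [mem_center_iff]
    intro y'
    obtain ⟨x, rfl⟩ := hβs y'
    rw [← map_mul, ← map_mul, (mem_center_iff.1 (ker_pE_central g (Mb_le_ker g hm)) x)]
  · intro y hy
    obtain ⟨m, hm, rfl⟩ := hker y hy
    exact hcomm ⟨m, Mb_le_commutator g hm, rfl⟩
  · exact QuotientGroup.ker_mk' C

theorem stem_image [IsFreeGroup F] (hg : Function.Surjective g) {Y : Type w} [Group Y] (ξ : Y →* Q')
    (hξ : Function.Surjective ξ) (hc : ξ.ker ≤ center Y) :
    ∃ φ : EE g →* Y, ξ.comp φ = pE g ∧ ∃ π : Mb g →* ↥(commutator Y ⊓ ξ.ker),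
      Function.Surjective π ∧ ∀ m, (π m : Y) = φ m := by
  obtain ⟨φ, hφ⟩ := exists_lift g ξ hξ hc
  refine ⟨φ, hφ, MonoidHom.codRestrict (φ.comp (Mb g).subtype) _ (fun m => map_Mb_le g ξ φ hφ ⟨m, m.2, rfl⟩), ?_, fun _ => rfl⟩
  intro y
  obtain ⟨m, hm, hmy⟩ := commutator_inf_le_map g ξ hc φ hφ hg y.2
  exact ⟨⟨m, hm⟩, Subtype.ext hmy⟩

theorem hasSchur [IsFreeGroup F] [Group.FG F] [Finite Q'] (hg : Function.Surjective g) :
    Cfsg.HasSchurMultiplier Q' (Mb g) := by
  constructor
  · obtain ⟨C, hC, hinf, hsup⟩ := exists_complement g (pE g).ker le_rfl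
      (sup_eq_left.2 (Mb_le_ker g))
    obtain ⟨Γ, i1, i2, σ, β, h1, _, _, _, h2⟩ := exists_cover g hg C hC hinf hsup
    exact ⟨Γ, i1, i2, σ, h1, h2⟩
  · intro Γ _ _ σ hσ
    obtain ⟨φ, _, π, hπ, hπ2⟩ := stem_image g hg σ hσ.1 hσ.2.1
    have hk : ∀ y : σ.ker, (y : Γ) ∈ commutator Γ ⊓ σ.ker := fun y => ⟨hσ.2.2 y.2, y.2⟩
    refine ⟨MonoidHom.codRestrict ((commutator Γ ⊓ σ.ker).subtype.comp π) σ.ker
      (fun m => (π m).2.2), ?_⟩
    intro y
    obtain ⟨m, hm⟩ := hπ ⟨y, hk y⟩
    refine ⟨m, Subtype.ext ?_⟩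
    have h4 : ((π m : ↥(commutator Γ ⊓ σ.ker)) : Γ) = y := congrArg Subtype.val hm
    exact h4

/-- The multiplier is unique up to isomorphism. -/
theorem mulEquiv_Mb [IsFreeGroup F] [Group.FG F] [Finite Q'] (hg : Function.Surjective g)
    {A : Type*} [CommGroup A] (hA : Cfsg.HasSchurMultiplier Q' A) : Nonempty (A ≃* Mb g) := by
  haveI hMf : Finite (Mb g) := finite_Mb g hg
  obtain ⟨⟨Γ₁, i1, i2, σ₁, hσ₁, ⟨e₁⟩⟩, h2⟩ := hA
  have hB := hasSchur g hg
  obtain ⟨⟨Γ₂, i3, i4, σ₂, hσ₂, ⟨e₂⟩⟩, h3⟩ := hB
  obtain ⟨π₁, hπ₁⟩ := h2 Γ₂ σ₂ hσ₂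
  obtain ⟨π₂, hπ₂⟩ := h3 Γ₁ σ₁ hσ₁
  haveI : Finite A := Finite.of_equiv _ e₁.toEquiv
  let c : A →* Mb g := e₂.toMonoidHom.comp π₁
  have hc : Function.Surjective c := e₂.surjective.comp hπ₁
  let d : Mb g →* A := e₁.toMonoidHom.comp π₂
  have hd : Function.Surjective d := e₁.surjective.comp hπ₂
  have hcard : Nat.card A = Nat.card (Mb g) :=
    le_antisymm (Nat.card_le_card_of_surjective d hd) (Nat.card_le_card_of_surjective c hc)
  exact ⟨MulEquiv.ofBijective c ((Nat.bijective_iff_surjective_and_card c).2 ⟨hc, hcard⟩)⟩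

end cover

end abstract


section concrete

variable (Q : Type u) [Group Q]

/-- The canonical free presentation. -/
noncomputable def fQ : FreeGroup Q →* Q := FreeGroup.lift id

theorem fQ_surj : Function.Surjective (fQ Q) := by
  intro q
  exact ⟨FreeGroup.of q, by simp [fQ]⟩

variable {Q}

/-- Any central extension: its commutators inside the kernel are an image of the multiplier. -/
theorem exists_surj_of_central [Finite Q] {A : Type*} [CommGroup A] (hA : Cfsg.HasSchurMultiplier Q A)
    {Y : Type w} [Group Y] (ξ : Y →* Q) (hξ : Function.Surjective ξ) (hc : ξ.ker ≤ center Y) :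
    ∃ π : A →* ↥(commutator Y ⊓ ξ.ker), Function.Surjective π := by
  obtain ⟨e⟩ := mulEquiv_Mb (fQ Q) (fQ_surj Q) hA
  obtain ⟨φ, _, π, hπ, _⟩ := stem_image (fQ Q) (fQ_surj Q) ξ hξ hc
  exact ⟨π.comp e.toMonoidHom, hπ.comp e.surjective⟩

end concrete

end CfsgLib.FGS.Schur
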