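import Cfsg.Agent.Lib.FGS.Schur

/-!
Further basics on stem extensions.
-/

set_option autoImplicit false

namespace CfsgLib.FGS.Schur

open Subgroup
open scoped commutatorElement

universe u v w x

theorem stem_id (G : Type u) [Group G] : Cfsg.IsStemExtension (MonoidHom.id G) := by
  refine ⟨Function.surjective_id, ?_, ?_⟩
  · intro x hx
    have : x = 1 := hx
    rw [this]
    exact Subgroup.one_mem _
  · intro x hx
    have : x = 1 := hx
    rw [this]
    exact Subgroup.one_mem _

/-- A way to prove triviality of the multiplier. -/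
theorem hasCyclic_one_of {G : Type u} [Group G] [Finite G]
    (h : ∀ (Γ : Type u) [Group Γ] [Finite Γ] (σ : Γ →* G), Cfsg.IsStemExtension σ → σ.ker = ⊥) :
    Cfsg.HasCyclicSchurMultiplier G 1 := by
  constructor
  · refine ⟨G, inferInstance, inferInstance, MonoidHom.id G, stem_id G, ⟨?_⟩⟩
    refine
      { toFun := fun _ => 1
        invFun := fun _ => 1
        left_inv := ?_
        right_inv := ?_
        map_mul' := fun _ _ => by simp }
    · intro x
      apply Subtype.ext
      exact (x.2 : (x : G) = 1).symm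
    · intro x
      have : Subsingleton (Multiplicative (ZMod 1)) := inferInstanceAs (Subsingleton (ZMod 1))
      exact Subsingleton.elim _ _
  · intro Γ _ _ σ hσ
    have hb := h Γ σ hσ
    refine ⟨1, fun x => ⟨1, ?_⟩⟩
    apply Subtype.ext
    have h3 : (x : Γ) ∈ (⊥ : Subgroup Γ) := hb ▸ x.2
    have h4 : (x : Γ) = 1 := h3
    rw [h4]
    rfl

/-- The multiplier is trivial only if all stem extensions are trivial. -/
theorem ker_eq_bot_of_hasCyclic_one {G : Type u} [Group G] (h : Cfsg.HasCyclicSchurMultiplier G 1)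
    (Γ : Type u) [Group Γ] [Finite Γ] (σ : Γ →* G) (hσ : Cfsg.IsStemExtension σ) : σ.ker = ⊥ := by
  obtain ⟨π, hπ⟩ := h.2 Γ σ hσ
  rw [eq_bot_iff]
  intro x hx
  obtain ⟨a, ha⟩ := hπ ⟨x, hx⟩
  have h1 : a = 1 := by
    have : Subsingleton (Multiplicative (ZMod 1)) := inferInstanceAs (Subsingleton (ZMod 1))
    exact Subsingleton.elim _ _
  rw [h1, map_one] at ha
  have h2 := congrArg Subtype.val ha
  simpa using h2.symm

/-- Central extension of a group with trivial multiplier: no kernel in the commutator subgroup. -/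
theorem commutator_inf_ker_eq_bot {G : Type u} [Group G] [Finite G]
    (h : Cfsg.HasCyclicSchurMultiplier G 1) {Y : Type w} [Group Y] (ξ : Y →* G)
    (hξ : Function.Surjective ξ) (hc : ξ.ker ≤ center Y) : commutator Y ⊓ ξ.ker = ⊥ := by
  obtain ⟨π, hπ⟩ := exists_surj_of_central h ξ hξ hc
  rw [eq_bot_iff]
  intro x hx
  obtain ⟨a, ha⟩ := hπ ⟨x, hx⟩
  have h1 : a = 1 := by
    have : Subsingleton (Multiplicative (ZMod 1)) := inferInstanceAs (Subsingleton (ZMod 1))
    exact Subsingleton.elim _ _
  rw [h1, map_one] at ha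
  have h2 := congrArg Subtype.val ha
  simpa using h2.symm

theorem map_commutator_of_surj {Γ : Type*} {G : Type*} [Group Γ] [Group G] (τ : Γ →* G)
    (hτ : Function.Surjective τ) : (commutator Γ).map τ = commutator G := by
  rw [commutator_def, commutator_def, Subgroup.map_commutator]
  rw [← MonoidHom.range_eq_map, MonoidHom.range_eq_top.2 hτ]

end CfsgLib.FGS.Schur
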