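import Cfsg.Agent.Lib.FGS.Schur2

/-!
Twisted products by bilinear maps, and generation lemmas for stem extensions.
-/

set_option autoImplicit false

namespace CfsgLib.FGS.Schur

open Subgroup
open scoped commutatorElement

universe u v w x

/-- Commutators of generators in a normal subgroup: the quotient is abelian. -/
theorem commutator_le_of_gen {Γ : Type*} [Group Γ] (S : Set Γ) (hS : closure S = ⊤)
    (N : Subgroup Γ) [N.Normal] (h : ∀ s ∈ S, ∀ t ∈ S, ⁅s, t⁆ ∈ N) : commutator Γ ≤ N := by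
  have hq : ∀ x y : Γ, ⁅x, y⁆ ∈ N ↔
      QuotientGroup.mk' N x * QuotientGroup.mk' N y = QuotientGroup.mk' N y * QuotientGroup.mk' N x := by
    intro x y
    have h0 : QuotientGroup.mk' N ⁅x, y⁆ = 1 ↔ ⁅x, y⁆ ∈ N := QuotientGroup.eq_one_iff _
    rw [← h0, map_commutatorElement, commutatorElement_eq_one_iff_mul_comm]
  have h1 : ∀ t ∈ S, ∀ x : Γ, ⁅x, t⁆ ∈ N := by
    intro t ht x
    let C : Subgroup Γ := (Subgroup.centralizer {QuotientGroup.mk' N t}).comap (QuotientGroup.mk' N)
    have hC : closure S ≤ C := by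
      rw [closure_le]
      intro s hs
      show QuotientGroup.mk' N s ∈ Subgroup.centralizer {QuotientGroup.mk' N t}
      rw [Subgroup.mem_centralizer_singleton_iff]
      exact (hq _ _).1 (h s hs t ht)
    have hx : x ∈ closure S := by rw [hS]; trivial
    have h2 := hC hx
    have h3 : QuotientGroup.mk' N x ∈ Subgroup.centralizer {QuotientGroup.mk' N t} := h2
    rw [Subgroup.mem_centralizer_singleton_iff] at h3
    exact (hq _ _).2 h3
  have h2 : ∀ x y : Γ, ⁅x, y⁆ ∈ N := by
    intro x y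
    let C : Subgroup Γ := (Subgroup.centralizer {QuotientGroup.mk' N x}).comap (QuotientGroup.mk' N)
    have hC : closure S ≤ C := by
      rw [closure_le]
      intro s hs
      show QuotientGroup.mk' N s ∈ Subgroup.centralizer {QuotientGroup.mk' N x}
      rw [Subgroup.mem_centralizer_singleton_iff]
      exact ((hq _ _).1 (h1 s hs x)).symm
    have hx : y ∈ closure S := by rw [hS]; trivial
    have h3 : QuotientGroup.mk' N y ∈ Subgroup.centralizer {QuotientGroup.mk' N x} := hC hx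
    rw [Subgroup.mem_centralizer_singleton_iff] at h3
    exact (hq _ _).2 h3.symm
  rw [_root_.commutator_def, Subgroup.commutator_le]
  intro a _ b _
  exact h2 a b

/-- Generation lifts through a surjection when the kernel is included. -/
theorem closure_eq_top_of_lift {Γ G : Type*} [Group Γ] [Group G] (τ : Γ →* G)
    (T : Set G) (hT : closure T = ⊤) (S : Set Γ) (h1 : ∀ t ∈ T, ∃ s ∈ S, τ s = t)
    (h2 : ∀ k, τ k = 1 → k ∈ closure S) : closure S = ⊤ := by
  rw [eq_top_iff]
  intro x _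
  have hle : closure T ≤ (closure S).map τ := by
    rw [closure_le]
    intro t ht
    obtain ⟨s, hs, hst⟩ := h1 t ht
    exact ⟨s, subset_closure hs, hst⟩
  have hx : τ x ∈ (closure S).map τ := hle (by rw [hT]; trivial)
  obtain ⟨y, hy, hyx⟩ := hx
  have h3 : y⁻¹ * x ∈ closure S := by
    apply h2
    rw [map_mul, map_inv, hyx]; group
  have h4 : x = y * (y⁻¹ * x) := by group
  rw [h4]
  exact Subgroup.mul_mem _ hy h3

/-- A surjection from a cyclic group given a generator. -/
theorem exists_surj_zmod {K : Type*} [Group K] (d : K) (n : ℕ) [NeZero n] (hd : d ^ n = 1)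
    (h : ∀ k, k ∈ zpowers d) : ∃ π : Multiplicative (ZMod n) →* K, Function.Surjective π := by
  have hmod : ∀ a : ℕ, d ^ (a % n) = d ^ a := by
    intro a
    conv_rhs => rw [← Nat.mod_add_div a n]
    rw [pow_add, pow_mul, hd, one_pow, mul_one]
  refine ⟨{ toFun := fun x => d ^ (Multiplicative.toAdd x).val
            map_one' := ?_
            map_mul' := ?_ }, ?_⟩
  · show d ^ (0 : ZMod n).val = 1
    rw [ZMod.val_zero, pow_zero]
  · intro x y
    show d ^ ((Multiplicative.toAdd x + Multiplicative.toAdd y : ZMod n)).val =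
      d ^ (Multiplicative.toAdd x).val * d ^ (Multiplicative.toAdd y).val
    rw [ZMod.val_add, hmod, pow_add]
  · intro k
    obtain ⟨i, rfl⟩ := h k
    have hnpos : (0 : ℤ) < n := by exact_mod_cast Nat.pos_of_ne_zero (NeZero.ne n)
    have hj : 0 ≤ i % (n : ℤ) := Int.emod_nonneg _ hnpos.ne'
    have hlt : i % (n : ℤ) < n := Int.emod_lt_of_pos _ hnpos
    refine ⟨Multiplicative.ofAdd (((i % (n : ℤ)).toNat : ℕ) : ZMod n), ?_⟩
    show d ^ (((i % (n : ℤ)).toNat : ℕ) : ZMod n).val = d ^ i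
    rw [ZMod.val_natCast, Nat.mod_eq_of_lt (by omega)]
    have h1 : d ^ (i % (n : ℤ)).toNat = d ^ (i % (n : ℤ)) := by
      rw [← zpow_natCast, Int.toNat_of_nonneg hj]
    rw [h1]
    conv_rhs => rw [← Int.emod_add_mul_ediv i n]
    rw [zpow_add, zpow_mul, zpow_natCast, hd, one_zpow, mul_one]

/-- `⁅x, y ^ n⁆ = ⁅x, y⁆ ^ n` when `⁅x, y⁆` is central. -/
theorem commutator_pow_right {Γ : Type*} [Group Γ] (x y : Γ) (h : ⁅x, y⁆ ∈ center Γ) (n : ℕ) :
    ⁅x, y ^ n⁆ = ⁅x, y⁆ ^ n := by
  have hc : x * y * x⁻¹ = ⁅x, y⁆ * y := by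
    rw [commutatorElement_def]; group
  have hcomm : Commute ⁅x, y⁆ y := (mem_center_iff.1 h y).symm
  have h1 : x * y ^ n * x⁻¹ = (x * y * x⁻¹) ^ n := (conj_pow).symm
  rw [commutatorElement_def, h1, hc, hcomm.mul_pow]
  group

/-- `zpowers c` is normal when generators map `c` to `c` or its inverse. -/
theorem zpowers_normal_of {Γ : Type*} [Group Γ] (c : Γ) (S : Set Γ) (hS : closure S = ⊤)
    (h : ∀ x ∈ S, x * c * x⁻¹ = c ∨ x * c * x⁻¹ = c⁻¹) : (zpowers c).Normal := by
  rw [← Subgroup.normalizer_eq_top_iff, eq_top_iff, ← hS, closure_le]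
  intro x hx
  have hfor : ∀ i : ℤ, x * c ^ i * x⁻¹ ∈ zpowers c := by
    intro i
    rw [← conj_zpow]
    rcases h x hx with h1 | h1 <;> rw [h1]
    · exact ⟨i, rfl⟩
    · exact ⟨-i, by simp⟩
  have hfor2 : ∀ i : ℤ, x⁻¹ * c ^ i * x ∈ zpowers c := by
    intro i
    have h2 : x⁻¹ * c * x = c ∨ x⁻¹ * c * x = c⁻¹ := by
      rcases h x hx with h1 | h1
      · left
        calc x⁻¹ * c * x = x⁻¹ * (x * c * x⁻¹) * x := by rw [h1]
          _ = c := by group
      · right
        have h3 : c = (x * c * x⁻¹)⁻¹ := by rw [h1]; group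
        calc x⁻¹ * c * x = x⁻¹ * (x * c * x⁻¹)⁻¹ * x := by rw [← h3]
          _ = c⁻¹ := by group
    have h4 : x⁻¹ * c ^ i * x = (x⁻¹ * c * x) ^ i := by
      have := conj_zpow (a := x⁻¹) (b := c) (i := i)
      simpa using this.symm
    rw [h4]
    rcases h2 with h2 | h2 <;> rw [h2]
    · exact ⟨i, rfl⟩
    · exact ⟨-i, by simp⟩
  show x ∈ normalizer (zpowers c : Set Γ)
  rw [Subgroup.mem_normalizer_iff]
  intro y
  constructor
  · rintro ⟨i, rfl⟩
    exact hfor i
  · rintro ⟨i, hi⟩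
    have h5 : y = x⁻¹ * c ^ i * x := by
      have : c ^ i = x * y * x⁻¹ := hi
      rw [this]; group
    rw [h5]
    exact hfor2 i

/-- Core calculation for dihedral and dicyclic groups. -/
theorem dih_core {Γ G : Type*} [Group Γ] [Group G] (τ : Γ →* G) (hτ : Cfsg.IsStemExtension τ)
    (r s : Γ) (hgen : closure ({τ r, τ s} : Set G) = ⊤) (hrel : τ (s * r * s⁻¹) = (τ r)⁻¹)
    (n : ℕ) (hn : s * r ^ n = r ^ n * s) :
    ∃ c : Γ, τ c = ((τ r)⁻¹) ^ 2 ∧ c ^ n = 1 ∧ τ.ker ≤ zpowers c := by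
  obtain ⟨w, hw⟩ : ∃ w, w = r * (s * r * s⁻¹) := ⟨_, rfl⟩
  have hwK : τ w = 1 := by rw [hw, map_mul, hrel]; group
  have hwc : w ∈ center Γ := hτ.2.1 hwK
  have hsr : s * r * s⁻¹ = r⁻¹ * w := by rw [hw]; group
  have hcomm : ∀ y : Γ, Commute y w := fun y => (mem_center_iff.1 hwc y)
  obtain ⟨c, hc⟩ : ∃ c, c = r⁻¹ * r⁻¹ * w := ⟨_, rfl⟩
  refine ⟨c, ?_, ?_, ?_⟩
  · rw [hc, map_mul, map_mul, map_inv, hwK]; group
  · have h1 : s * r ^ n * s⁻¹ = (r⁻¹ * w) ^ n := by rw [← hsr, conj_pow]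
    have h2 : s * r ^ n * s⁻¹ = r ^ n := by rw [hn]; group
    have h3 : (r⁻¹ * w) ^ n = r ^ n := by rw [← h1, h2]
    rw [hc]
    have h4 : (r⁻¹ * r⁻¹ * w) ^ n = (r⁻¹) ^ n * (r⁻¹ * w) ^ n := by
      rw [mul_assoc]
      exact (Commute.mul_pow (Commute.mul_right (Commute.refl _) (hcomm r⁻¹)) n)
    rw [h4, h3, inv_pow]; group
  · -- the generating set
    have hS : closure ({r, s} ∪ (τ.ker : Set Γ)) = ⊤ := by
      apply closure_eq_top_of_lift τ _ hgen
      · rintro t (rfl | rfl)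
        · exact ⟨r, Or.inl (Or.inl rfl), rfl⟩
        · exact ⟨s, Or.inl (Or.inr rfl), rfl⟩
      · intro k hk
        exact subset_closure (Or.inr hk)
    have hrc : r * c = c * r := by
      rw [hc]
      calc r * (r⁻¹ * r⁻¹ * w) = r⁻¹ * w := by group
        _ = r⁻¹ * r⁻¹ * (r * w) := by group
        _ = r⁻¹ * r⁻¹ * (w * r) := by rw [(hcomm r).eq]
        _ = r⁻¹ * r⁻¹ * w * r := by group
    have hsc : s * c * s⁻¹ = c⁻¹ := by
      have h1 : s * c * s⁻¹ = (s * r * s⁻¹)⁻¹ * (s * r * s⁻¹)⁻¹ * (s * w * s⁻¹) := by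
        rw [hc]; group
      have h2 : s * w * s⁻¹ = w := by rw [(hcomm s).eq]; group
      rw [h1, h2, hsr, hc]
      have h3 : (r⁻¹ * w)⁻¹ = w⁻¹ * r := by group
      rw [h3]
      have h4 : Commute r w⁻¹ := (hcomm r).inv_right
      calc w⁻¹ * r * (w⁻¹ * r) * w = w⁻¹ * (r * w⁻¹) * r * w := by group
        _ = w⁻¹ * (w⁻¹ * r) * r * w := by rw [h4.eq]
        _ = w⁻¹ * w⁻¹ * (r * r * w) := by group
        _ = w⁻¹ * w⁻¹ * (r * (r * w)) := by group
        _ = w⁻¹ * w⁻¹ * (r * (w * r)) := by rw [(hcomm r).eq]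
        _ = w⁻¹ * w⁻¹ * ((r * w) * r) := by group
        _ = w⁻¹ * w⁻¹ * ((w * r) * r) := by rw [(hcomm r).eq]
        _ = (r⁻¹ * r⁻¹ * w)⁻¹ := by simp [mul_assoc]
    haveI hN : (zpowers c).Normal := by
      apply zpowers_normal_of c _ hS
      rintro x ((rfl | rfl) | hx)
      · left
        rw [hrc]; group
      · right; exact hsc
      · left
        have : x * c = c * x := (mem_center_iff.1 (hτ.2.1 hx) c).symm
        rw [this]; group
    have hle : commutator Γ ≤ zpowers c := by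
      apply commutator_le_of_gen _ hS
      have hsr2 : ⁅s, r⁆ = c := by
        rw [commutatorElement_def, hsr, hc]
        calc r⁻¹ * w * r⁻¹ = r⁻¹ * (w * r⁻¹) := by group
          _ = r⁻¹ * (r⁻¹ * w) := by rw [(hcomm r⁻¹).eq]
          _ = r⁻¹ * r⁻¹ * w := by group
      have hz1 : ∀ a b : Γ, b ∈ τ.ker → ⁅a, b⁆ ∈ zpowers c := by
        intro a b hb
        rw [commutatorElement_eq_one_iff_mul_comm.2 (mem_center_iff.1 (hτ.2.1 hb) a)]
        exact Subgroup.one_mem _
      have hz2 : ∀ a b : Γ, a ∈ τ.ker → ⁅a, b⁆ ∈ zpowers c := by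
        intro a b ha
        rw [commutatorElement_eq_one_iff_mul_comm.2 (mem_center_iff.1 (hτ.2.1 ha) b).symm]
        exact Subgroup.one_mem _
      rintro a ((rfl | rfl) | ha) b ((rfl | rfl) | hb)
      · rw [commutatorElement_self]; exact Subgroup.one_mem _
      · rw [← commutatorElement_inv, hsr2]; exact Subgroup.inv_mem _ (mem_zpowers c)
      · exact hz1 _ _ hb
      · rw [hsr2]; exact mem_zpowers c
      · rw [commutatorElement_self]; exact Subgroup.one_mem _
      · exact hz1 _ _ hb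
      · exact hz2 _ _ ha
      · exact hz2 _ _ ha
      · exact hz2 _ _ ha
    exact hτ.2.2.trans hle

/-- Finishing lemma for the dihedral-type calculation. -/
theorem dih_finish {Γ G : Type*} [Group Γ] [Group G] (τ : Γ →* G) (c : Γ) (ρ : G)
    (hc : τ c = (ρ⁻¹) ^ 2) (m : ℕ) (h : ∀ i : ℤ, ρ ^ (2 * i) = 1 → (m : ℤ) ∣ i) (k : Γ)
    (hk : τ k = 1) (hkc : k ∈ zpowers c) : k ∈ zpowers (c ^ m) := by
  obtain ⟨i, rfl⟩ := hkc
  have h1 : τ c ^ i = 1 := by
    rw [← map_zpow]; exact hk
  have h2 : ρ ^ (2 * i) = 1 := by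
    rw [hc] at h1
    have h3 : ((ρ⁻¹) ^ 2) ^ i = (ρ ^ (2 * i))⁻¹ := by
      rw [inv_pow, inv_zpow, ← zpow_natCast, ← zpow_mul]
      norm_num
    rw [h3] at h1
    exact inv_eq_one.1 h1
  obtain ⟨j, rfl⟩ := h i h2
  exact ⟨j, by simp [zpow_mul]⟩

/-! ### The twisted product by a bilinear map -/

section Heis

variable {H : Type u} {T : Type v} [Group H] [CommGroup T]

/-- The central extension `T × H` with multiplication twisted by a bilinear map. -/
def Heis (_β : H →* (H →* T)) : Type (max u v) := T × H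

variable (β : H →* (H →* T))

theorem beta_one_left (h : H) : β 1 h = 1 := by simp
theorem beta_one_right (h : H) : β h 1 = 1 := by simp

instance Heis.instMul : Mul (Heis β) := ⟨fun x y => (x.1 * y.1 * β x.2 y.2, x.2 * y.2)⟩
instance Heis.instOne : One (Heis β) := ⟨((1 : T), (1 : H))⟩
instance Heis.instInv : Inv (Heis β) := ⟨fun x => (x.1⁻¹ * (β x.2⁻¹ x.2)⁻¹, x.2⁻¹)⟩

instance Heis.instGroup : Group (Heis β) :=
  Group.ofLeftAxioms
    (fun x y z => by
      apply Prod.ext
      · show x.1 * y.1 * β x.2 y.2 * z.1 * β (x.2 * y.2) z.2 =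
          x.1 * (y.1 * z.1 * β y.2 z.2) * β x.2 (y.2 * z.2)
        rw [map_mul, map_mul]
        simp only [MonoidHom.mul_apply]
        simp only [mul_assoc, mul_comm, mul_left_comm]
      · exact mul_assoc _ _ _)
    (fun x => by
      apply Prod.ext
      · show (1 : T) * x.1 * β 1 x.2 = x.1
        simp
      · exact one_mul _)
    (fun x => by
      apply Prod.ext
      · show x.1⁻¹ * (β x.2⁻¹ x.2)⁻¹ * x.1 * β x.2⁻¹ x.2 = 1
        simp only [mul_assoc, mul_comm, mul_left_comm]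
        simp
      · exact inv_mul_cancel _)

instance [Finite H] [Finite T] : Finite (Heis β) := inferInstanceAs (Finite (T × H))

theorem Heis.mul_def (x y : Heis β) : x * y = ((x.1 * y.1 * β x.2 y.2, x.2 * y.2) : T × H) := rfl

theorem Heis.one_def : (1 : Heis β) = (((1 : T), (1 : H)) : T × H) := rfl

/-- Projection to the base. -/
def Heis.pr : Heis β →* H where
  toFun := fun x => x.2
  map_one' := rfl
  map_mul' := fun _ _ => rfl

theorem Heis.pr_surj : Function.Surjective (Heis.pr β) := fun h => ⟨((1 : T), h), rfl⟩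

/-- Inclusion of the kernel. -/
def Heis.inc : T →* Heis β where
  toFun := fun t => (t, (1 : H))
  map_one' := rfl
  map_mul' := fun s t => by
    apply Prod.ext
    · show s * t = s * t * β 1 1
      simp
    · show (1 : H) = 1 * 1
      simp

theorem Heis.inc_inj : Function.Injective (Heis.inc β) := fun s t h => congrArg Prod.fst h

theorem Heis.inc_central (t : T) : Heis.inc β t ∈ center (Heis β) := by
  rw [mem_center_iff]
  intro g
  apply Prod.ext
  · show g.1 * t * β g.2 1 = t * g.1 * β 1 g.2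
    simp [mul_comm]
  · show g.2 * 1 = 1 * g.2
    simp

theorem Heis.mem_ker_iff (x : Heis β) : x ∈ (Heis.pr β).ker ↔ ∃ t, Heis.inc β t = x := by
  constructor
  · intro hx
    refine ⟨x.1, ?_⟩
    apply Prod.ext
    · rfl
    · exact (show x.2 = 1 from hx).symm
  · rintro ⟨t, rfl⟩
    rfl

theorem Heis.ker_central : (Heis.pr β).ker ≤ center (Heis β) := by
  intro x hx
  obtain ⟨t, rfl⟩ := (Heis.mem_ker_iff β x).1 hx
  exact Heis.inc_central β t

/-- The kernel is a copy of `T`. -/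
noncomputable def Heis.kerEquiv : T ≃* (Heis.pr β).ker :=
  MulEquiv.ofBijective
    (MonoidHom.codRestrict (Heis.inc β) _ (fun t => (Heis.mem_ker_iff β _).2 ⟨t, rfl⟩))
    ⟨fun s t h => Heis.inc_inj β (congrArg Subtype.val h), fun x => by
      obtain ⟨t, ht⟩ := (Heis.mem_ker_iff β x.1).1 x.2
      exact ⟨t, Subtype.ext ht⟩⟩

/-- Section of the projection (not a hom). -/
def Heis.sec (h : H) : Heis β := ((1 : T), h)

theorem Heis.pr_sec (h : H) : Heis.pr β (Heis.sec β h) = h := rfl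

/-- Commutator of two sections of commuting elements. -/
theorem Heis.commutator_sec (g h : H) (hgh : g * h = h * g) :
    ⁅Heis.sec β g, Heis.sec β h⁆ = Heis.inc β (β g h * (β h g)⁻¹) := by
  have h1 : Heis.sec β g * Heis.sec β h =
      Heis.inc β (β g h * (β h g)⁻¹) * (Heis.sec β h * Heis.sec β g) := by
    apply Prod.ext
    · show 1 * 1 * β g h =
        (β g h * (β h g)⁻¹) * (1 * 1 * β h g) * β 1 (h * g)
      simp
    · show g * h = 1 * (h * g)
      rw [hgh, one_mul]
  rw [commutatorElement_def, h1]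
  group

/-- Lifting a commutator from the base when the form vanishes: two sections whose form
values agree. -/
theorem Heis.commutator_sec' (g h : H) (hgh : β g h = β h g) (hh : β ⁅g, h⁆ (h * g) = 1) :
    ⁅Heis.sec β g, Heis.sec β h⁆ = Heis.sec β ⁅g, h⁆ := by
  have h1 : Heis.sec β g * Heis.sec β h = Heis.sec β ⁅g, h⁆ * (Heis.sec β h * Heis.sec β g) := by
    apply Prod.ext
    · show 1 * 1 * β g h = 1 * (1 * 1 * β h g) * β ⁅g, h⁆ (h * g)
      rw [hh, hgh]; simp
    · show g * h = ⁅g, h⁆ * (h * g)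
      rw [commutatorElement_def]; group
  rw [commutatorElement_def, h1]
  group

end Heis

end CfsgLib.FGS.Schur
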