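import Cfsg.Agent.Lib.FGS.SchurProd
import Cfsg.Agent.Lib.Char.UniqueSing

/-!
The exponent of the multiplier.
-/

set_option autoImplicit false

namespace CfsgLib.FGS.Schur

open Subgroup Cfsg CfsgLib.Char
open scoped commutatorElement Pointwise

universe u v w

variable {Γ : Type u} [Group Γ] [Fintype Γ]

/-- The central character of an irreducible character. -/
theorem central_char (ψ : IrrCharacter Γ) (K : Subgroup Γ) (hK : K ≤ center Γ) :
    ∃ ω : K →* ℂˣ, (∀ k : K, (ψ : Γ → ℂ) k = (ψ : Γ → ℂ) 1 * (ω k : ℂ)) ∧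
      ∀ k : K, (k : Γ) ∈ commutator Γ → (ω k) ^ (charDegree (ψ : Γ → ℂ)) = 1 := by
  classical
  obtain ⟨n, ρ, hirr, hchar⟩ := ψ.2
  haveI := hirr
  have hn : 0 < n := by
    have h1 : Nontrivial (Fin n → ℂ) := ((isIrreducible_iff ρ).mp inferInstance).1
    by_contra h
    have h0 : n = 0 := by omega
    subst h0
    exact not_subsingleton _ (inferInstance : Subsingleton (Fin 0 → ℂ))
  have hone : (ψ : Γ → ℂ) 1 = n := by
    rw [← hchar]
    simp [Representation.character]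
  have hdeg : charDegree (ψ : Γ → ℂ) = n := charDegree_eq hone
  have hn' : (n : ℂ) ≠ 0 := by exact_mod_cast hn.ne'
  have hsc : ∀ k : K, ∃ c : ℂ, ρ k = c • LinearMap.id := by
    intro k
    apply schur_scalar ρ
    intro g v
    have h1 : (k : Γ) * g = g * k := (mem_center_iff.1 (hK k.2) g).symm
    show (ρ k) (ρ g v) = (ρ g) (ρ k v)
    rw [← Module.End.mul_apply, ← Module.End.mul_apply, ← map_mul, ← map_mul, h1]
  choose c hc using hsc
  have hval : ∀ k : K, (ψ : Γ → ℂ) k = c k * n := by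
    intro k
    rw [← hchar]
    show LinearMap.trace ℂ _ (ρ k) = _
    rw [hc k, map_smul, LinearMap.trace_id]
    simp
  have hc1 : ∀ k : K, c k = (ψ : Γ → ℂ) k / (ψ : Γ → ℂ) 1 := by
    intro k
    rw [hval, hone]
    field_simp
  have hcone : c 1 = 1 := by
    rw [hc1]
    have : (((1 : K)) : Γ) = 1 := rfl
    rw [this, hone]
    exact div_self hn'
  have hcmul : ∀ a b : K, c (a * b) = c a * c b := by
    intro a b
    have h1 : (c (a * b)) • (LinearMap.id : (Fin n → ℂ) →ₗ[ℂ] (Fin n → ℂ)) = (c a * c b) • LinearMap.id := by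
      rw [← hc (a * b)]
      have h2 : ρ ((a * b : K) : Γ) = ρ a * ρ b := by
        rw [← map_mul]
        rfl
      rw [h2, hc a, hc b]
      ext v i
      simp [mul_smul]
      ring
    have h3 := congrArg (LinearMap.trace ℂ (Fin n → ℂ)) h1
    simp only [map_smul, LinearMap.trace_id, Module.finrank_fin_fun, smul_eq_mul] at h3
    exact mul_right_cancel₀ hn' h3
  let ω₀ : K →* ℂ := { toFun := c, map_one' := hcone, map_mul' := hcmul }
  refine ⟨ω₀.toHomUnits, ?_, ?_⟩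
  · intro k
    show (ψ : Γ → ℂ) k = (ψ : Γ → ℂ) 1 * c k
    rw [hval, hone]
    ring
  · intro k hk
    -- determinant
    let D : Γ →* ℂ := (LinearMap.det : ((Fin n → ℂ) →ₗ[ℂ] (Fin n → ℂ)) →* ℂ).comp ρ
    have h1 : D.toHomUnits k = 1 := Abelianization.commutator_subset_ker D.toHomUnits hk
    have h2 : D k = 1 := by
      have := congrArg Units.val h1
      exact this
    have h3 : D k = (c k) ^ n := by
      show LinearMap.det (ρ k) = _
      rw [hc k, LinearMap.det_smul, LinearMap.det_id, mul_one, Module.finrank_fin_fun]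
    rw [hdeg]
    apply Units.ext
    show (c k) ^ n = 1
    rw [← h3, h2]

/-- The sum of squares of degrees over a central character. -/
theorem sum_sq_over_char (K : Subgroup Γ) (hK : K ≤ center Γ) [Fintype K] (lam : K →* ℂˣ)
    (ω : IrrCharacter Γ → (K →* ℂˣ))
    (hω : ∀ ψ : IrrCharacter Γ, ∀ k : K, (ψ : Γ → ℂ) k = (ψ : Γ → ℂ) 1 * (ω ψ k : ℂ)) [DecidableEq (K →* ℂˣ)] :
    (∑ ψ ∈ Finset.univ.filter (fun ψ : IrrCharacter Γ => ω ψ = lam), (charDegree (ψ : Γ → ℂ)) ^ 2) * Nat.card K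
      = Nat.card Γ := by
  classical
  have hreg := regFn_eq_sum (G := Γ)
  have h1 : ∀ k : K, regFn Γ (k : Γ) = ∑ ψ : IrrCharacter Γ, (charDegree (ψ : Γ → ℂ) : ℂ) ^ 2 * (ω ψ k : ℂ) := by
    intro k
    rw [hreg, Finset.sum_apply]
    refine Finset.sum_congr rfl (fun ψ _ => ?_)
    show (ψ : Γ → ℂ) 1 * (ψ : Γ → ℂ) k = _
    rw [hω ψ k, irr_one_eq_charDegree]
    ring
  have h2 : ∑ k : K, ((lam k)⁻¹ : ℂˣ) * regFn Γ (k : Γ) = (Nat.card Γ : ℂ) := by
    rw [Finset.sum_eq_single (1 : K)]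
    · simp [regFn]
    · intro k _ hk
      have hk' : (k : Γ) ≠ 1 := fun h => hk (Subtype.ext h)
      simp [regFn, hk']
    · intro h
      exact absurd (Finset.mem_univ _) h
  have h3 : ∀ ψ : IrrCharacter Γ, ∑ k : K, (((lam k)⁻¹ : ℂˣ) : ℂ) * (ω ψ k : ℂ) =
      if ω ψ = lam then (Nat.card K : ℂ) else 0 := by
    intro ψ
    have hf : ∑ k : K, (((ω ψ * lam⁻¹) k : ℂˣ) : ℂ) = if ω ψ * lam⁻¹ = 1 then (Nat.card K : ℂ) else 0 := by
      split_ifs with h
      · simp [h]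
      · let f : K →* ℂ := (Units.coeHom ℂ).comp (ω ψ * lam⁻¹)
        have hf1 : f ≠ 1 := by
          intro h5
          apply h
          ext k
          have := DFunLike.congr_fun h5 k
          simpa [f] using this
        exact sum_hom_units_eq_zero f hf1
    have h4 : (ω ψ * lam⁻¹ = 1) ↔ ω ψ = lam := by
      constructor
      · intro h
        ext k
        have h5 := DFunLike.congr_fun h k
        have h6 : ω ψ k * (lam k)⁻¹ = 1 := h5
        rw [mul_inv_eq_one.1 h6]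
      · rintro h
        rw [h]
        ext k
        show ((lam k * (lam k)⁻¹ : ℂˣ) : ℂ) = 1
        simp
    simp only [h4] at hf
    rw [← hf]
    refine Finset.sum_congr rfl (fun k _ => ?_)
    show _ = (((ω ψ k * (lam k)⁻¹ : ℂˣ)) : ℂ)
    push_cast
    ring
  have h5 : ((∑ ψ ∈ Finset.univ.filter (fun ψ : IrrCharacter Γ => ω ψ = lam), (charDegree (ψ : Γ → ℂ)) ^ 2) * Nat.card K : ℕ)
      = (Nat.card Γ : ℂ) := by
    rw [← h2]
    have h7 : ∀ ψ : IrrCharacter Γ, ∑ k : K, (((lam k)⁻¹ : ℂˣ) : ℂ) * ((charDegree (ψ : Γ → ℂ) : ℂ) ^ 2 * (ω ψ k : ℂ)) =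
        (charDegree (ψ : Γ → ℂ) : ℂ) ^ 2 * ∑ k : K, (((lam k)⁻¹ : ℂˣ) : ℂ) * (ω ψ k : ℂ) := by
      intro ψ
      rw [Finset.mul_sum]
      refine Finset.sum_congr rfl (fun k _ => ?_)
      ring
    calc ((((∑ ψ ∈ Finset.univ.filter (fun ψ : IrrCharacter Γ => ω ψ = lam), (charDegree (ψ : Γ → ℂ)) ^ 2) * Nat.card K : ℕ)) : ℂ)
        = ∑ ψ : IrrCharacter Γ, ∑ k : K, (((lam k)⁻¹ : ℂˣ) : ℂ) * ((charDegree (ψ : Γ → ℂ) : ℂ) ^ 2 * (ω ψ k : ℂ)) := by
          have hL : (((∑ ψ ∈ Finset.univ.filter (fun ψ : IrrCharacter Γ => ω ψ = lam), (charDegree (ψ : Γ → ℂ)) ^ 2) * Nat.card K : ℕ) : ℂ)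
              = ∑ ψ : IrrCharacter Γ, (if ω ψ = lam then (charDegree (ψ : Γ → ℂ) : ℂ) ^ 2 else 0) * (Nat.card K : ℂ) := by
            push_cast
            rw [Finset.sum_filter, Finset.sum_mul]
          rw [hL]
          refine Finset.sum_congr rfl (fun ψ _ => ?_)
          rw [h7 ψ, h3 ψ]
          split_ifs <;> simp
      _ = ∑ k : K, ∑ ψ : IrrCharacter Γ, (((lam k)⁻¹ : ℂˣ) : ℂ) * ((charDegree (ψ : Γ → ℂ) : ℂ) ^ 2 * (ω ψ k : ℂ)) :=
          Finset.sum_comm
      _ = _ := by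
          refine Finset.sum_congr rfl (fun k _ => ?_)
          rw [h1 k, Finset.mul_sum]
  exact_mod_cast h5

/-- Schur: the square of the exponent of the multiplier divides the order. -/
theorem exponent_sq_dvd {Q : Type u} [Group Q] [Finite Q] {A : Type*} [CommGroup A]
    (hA : Cfsg.HasSchurMultiplier Q A) : Monoid.exponent A ^ 2 ∣ Nat.card Q := by
  classical
  obtain ⟨⟨Γ', i1, i2, σ, hσ, ⟨e⟩⟩, -⟩ := hA
  letI : Fintype Γ' := Fintype.ofFinite _
  letI : CommGroup σ.ker :=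
    { (inferInstance : Group σ.ker) with
      mul_comm := fun a b => Subtype.ext ((mem_center_iff.1 (hσ.2.1 a.2) b.1).symm) }
  letI : Fintype σ.ker := Fintype.ofFinite _
  haveI : Finite A := Finite.of_equiv _ e.toEquiv
  have hexp : Monoid.exponent A = Monoid.exponent σ.ker := Monoid.exponent_eq_of_mulEquiv e.symm
  obtain ⟨a, ha⟩ := Monoid.exists_orderOf_eq_exponent (Monoid.ExponentExists.of_finite (G := σ.ker))
  obtain ⟨E⟩ := CommGroup.monoidHom_mulEquiv_of_hasEnoughRootsOfUnity σ.ker ℂ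
  let lam := E.symm a
  have hlam : orderOf lam = Monoid.exponent σ.ker := by
    rw [← ha]
    exact E.symm.orderOf_eq a
  have hch := fun ψ : IrrCharacter Γ' => central_char ψ σ.ker hσ.2.1
  choose ω hω hω2 using hch
  have hsum := sum_sq_over_char σ.ker hσ.2.1 lam ω hω
  have hcardΓ : Nat.card Γ' = Nat.card Q * Nat.card σ.ker := by
    rw [← Nat.card_congr (QuotientGroup.quotientKerEquivOfSurjective σ hσ.1).toEquiv,
      ← Subgroup.card_eq_card_quotient_mul_card_subgroup]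
  rw [hcardΓ] at hsum
  have hS : ∑ ψ ∈ Finset.univ.filter (fun ψ : IrrCharacter Γ' => ω ψ = lam), (charDegree (ψ : Γ' → ℂ)) ^ 2 = Nat.card Q :=
    Nat.eq_of_mul_eq_mul_right Nat.card_pos hsum
  rw [← hS, hexp]
  apply Finset.dvd_sum
  intro ψ hψ
  apply pow_dvd_pow_of_dvd
  rw [← hlam]
  apply orderOf_dvd_of_pow_eq_one
  ext k
  have h1 := hω2 ψ k (hσ.2.2 k.2)
  rw [(Finset.mem_filter.1 hψ).2] at h1
  show (((lam ^ charDegree (ψ : Γ' → ℂ)) k : ℂˣ) : ℂ) = 1
  rw [MonoidHom.pow_apply, h1]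
  rfl

end CfsgLib.FGS.Schur
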