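import Cfsg.Agent.Lib.FGS.Schur3
import Mathlib

/-!
The multiplier of a direct product.
-/

set_option autoImplicit false

namespace CfsgLib.FGS.Schur

open Subgroup
open scoped commutatorElement TensorProduct

universe u v w x

section Tensor

/-- The tensor product of the commutator quotients, written multiplicatively. -/
abbrev TT (Q₁ : Type u) (Q₂ : Type v) [Group Q₁] [Group Q₂] : Type (max u v) :=
  Multiplicative (TensorProduct ℤ (Additive (Abelianization Q₁)) (Additive (Abelianization Q₂)))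

variable {Q₁ : Type u} {Q₂ : Type v} [Group Q₁] [Group Q₂]

/-- Pure tensors. -/
def ttOf (x : Q₁) (y : Q₂) : TT Q₁ Q₂ :=
  Multiplicative.ofAdd ((Additive.ofMul (Abelianization.of x)) ⊗ₜ[ℤ] (Additive.ofMul (Abelianization.of y)))

theorem ttOf_mul_left (x x' : Q₁) (y : Q₂) : ttOf (x * x') y = ttOf x y * ttOf x' y := by
  show Multiplicative.ofAdd (Additive.ofMul (Abelianization.of (x * x')) ⊗ₜ[ℤ] _) = Multiplicative.ofAdd (_ + _)
  rw [map_mul, ofMul_mul, TensorProduct.add_tmul]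
  rfl

theorem ttOf_mul_right (x : Q₁) (y y' : Q₂) : ttOf x (y * y') = ttOf x y * ttOf x y' := by
  show Multiplicative.ofAdd (_ ⊗ₜ[ℤ] Additive.ofMul (Abelianization.of (y * y'))) = Multiplicative.ofAdd (_ + _)
  rw [map_mul, ofMul_mul, TensorProduct.tmul_add]
  rfl

theorem ttOf_one_left (y : Q₂) : ttOf (1 : Q₁) y = 1 := by
  show Multiplicative.ofAdd (Additive.ofMul (Abelianization.of (1 : Q₁)) ⊗ₜ[ℤ] _) = 1
  rw [map_one, ofMul_one, TensorProduct.zero_tmul]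
  rfl

theorem ttOf_one_right (x : Q₁) : ttOf x (1 : Q₂) = 1 := by
  show Multiplicative.ofAdd (_ ⊗ₜ[ℤ] Additive.ofMul (Abelianization.of (1 : Q₂))) = 1
  rw [map_one, ofMul_one, TensorProduct.tmul_zero]
  rfl

theorem of_surj (Q : Type*) [Group Q] : Function.Surjective (Abelianization.of : Q →* Abelianization Q) :=
  QuotientGroup.mk'_surjective _

theorem tt_closure (W : Subgroup (TT Q₁ Q₂)) (h : ∀ x y, ttOf x y ∈ W) (t : TT Q₁ Q₂) : t ∈ W := by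
  have h1 : ∀ z : TensorProduct ℤ (Additive (Abelianization Q₁)) (Additive (Abelianization Q₂)),
      Multiplicative.ofAdd z ∈ W := by
    intro z
    induction z using TensorProduct.induction_on with
    | zero => exact W.one_mem
    | tmul a b =>
      obtain ⟨x, hx⟩ := of_surj Q₁ (Additive.toMul a)
      obtain ⟨y, hy⟩ := of_surj Q₂ (Additive.toMul b)
      have := h x y
      rw [ttOf, hx, hy] at this
      exact this
    | add a b ha hb => exact W.mul_mem ha hb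
  exact h1 (Multiplicative.toAdd t)

theorem tt_lift {C : Type x} [CommGroup C] (c : Q₁ → Q₂ → C)
    (h1 : ∀ x x' y, c (x * x') y = c x y * c x' y) (h2 : ∀ x y y', c x (y * y') = c x y * c x y') :
    ∃ L : TT Q₁ Q₂ →* C, ∀ x y, L (ttOf x y) = c x y := by
  let B₁' : Q₁ → (Q₂ →* C) := fun x => MonoidHom.mk' (c x) (h2 x)
  let B₁ : Q₁ →* (Abelianization Q₂ →* C) :=
    MonoidHom.mk' (fun x => Abelianization.lift (B₁' x)) (by
      intro x x'
      apply Abelianization.hom_ext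
      ext y
      show Abelianization.lift (B₁' (x * x')) (Abelianization.of y) =
        Abelianization.lift (B₁' x) (Abelianization.of y) * Abelianization.lift (B₁' x') (Abelianization.of y)
      rw [Abelianization.lift_apply_of, Abelianization.lift_apply_of, Abelianization.lift_apply_of]
      exact h1 x x' y)
  let B₂ : Abelianization Q₁ →* (Abelianization Q₂ →* C) := Abelianization.lift B₁
  let bil : Additive (Abelianization Q₁) →ₗ[ℤ] Additive (Abelianization Q₂) →ₗ[ℤ] Additive C :=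
    LinearMap.mk₂ ℤ (fun m n => Additive.ofMul (B₂ (Additive.toMul m) (Additive.toMul n)))
      (fun m m' n => by
        rw [toMul_add, map_mul, MonoidHom.mul_apply, ofMul_mul])
      (fun k m n => by
        rw [toMul_zsmul, map_zpow, MonoidHom.zpow_apply, ofMul_zpow])
      (fun m n n' => by
        rw [toMul_add, map_mul, ofMul_mul])
      (fun k m n => by
        rw [toMul_zsmul, map_zpow, ofMul_zpow])
  let l := TensorProduct.lift bil
  refine ⟨AddMonoidHom.toMultiplicativeLeft l.toAddMonoidHom, ?_⟩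
  intro x y
  show Additive.toMul (l ((Additive.ofMul (Abelianization.of x)) ⊗ₜ[ℤ] (Additive.ofMul (Abelianization.of y)))) = c x y
  rw [TensorProduct.lift.tmul]
  show B₂ (Abelianization.of x) (Abelianization.of y) = c x y
  rw [Abelianization.lift_apply_of]
  show Abelianization.lift (B₁' x) (Abelianization.of y) = c x y
  rw [Abelianization.lift_apply_of]
  rfl

instance tt_finite [Finite Q₁] [Finite Q₂] : Finite (TT Q₁ Q₂) := by
  classical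
  haveI : Finite (Abelianization Q₁) := inferInstanceAs (Finite (Q₁ ⧸ commutator Q₁))
  haveI : Finite (Abelianization Q₂) := inferInstanceAs (Finite (Q₂ ⧸ commutator Q₂))
  haveI : Finite (Additive (Abelianization Q₁)) := inferInstanceAs (Finite (Abelianization Q₁))
  haveI : Finite (Additive (Abelianization Q₂)) := inferInstanceAs (Finite (Abelianization Q₂))
  haveI : Module.Finite ℤ (Additive (Abelianization Q₁)) := Module.Finite.of_finite
  haveI : Module.Finite ℤ (Additive (Abelianization Q₂)) := Module.Finite.of_finite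
  have hfin : Finite (TensorProduct ℤ (Additive (Abelianization Q₁)) (Additive (Abelianization Q₂))) := by
    refine @Module.finite_of_fg_torsion _ _ TensorProduct.leftModule (Module.Finite.tensorProduct _ _ _) ?_
    intro z
    have hcard : (Nat.card (Additive (Abelianization Q₁)) : ℤ) ≠ 0 := by
      exact_mod_cast (Nat.card_pos).ne'
    refine ⟨⟨(Nat.card (Additive (Abelianization Q₁)) : ℤ), mem_nonZeroDivisors_of_ne_zero hcard⟩, ?_⟩
    show (Nat.card (Additive (Abelianization Q₁)) : ℤ) • z = 0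
    induction z using TensorProduct.induction_on with
    | zero => simp
    | tmul a b =>
      rw [TensorProduct.smul_tmul', natCast_zsmul, card_nsmul_eq_zero', TensorProduct.zero_tmul]
    | add a b ha hb => rw [smul_add, ha, hb, add_zero]
  exact inferInstanceAs (Finite (TensorProduct ℤ (Additive (Abelianization Q₁)) (Additive (Abelianization Q₂))))

/-- Coprime orders kill the tensor product. -/
theorem tt_subsingleton [Finite Q₁] [Finite Q₂]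
    (hcop : Nat.Coprime (Nat.card (Abelianization Q₁)) (Nat.card (Abelianization Q₂))) :
    Subsingleton (TT Q₁ Q₂) := by
  classical
  haveI : Finite (Abelianization Q₁) := inferInstanceAs (Finite (Q₁ ⧸ commutator Q₁))
  haveI : Finite (Abelianization Q₂) := inferInstanceAs (Finite (Q₂ ⧸ commutator Q₂))
  have h1 : ∀ t : TT Q₁ Q₂, t = 1 := by
    intro t
    have hW : t ∈ (⊥ : Subgroup (TT Q₁ Q₂)) := by
      apply tt_closure
      intro x y
      rw [Subgroup.mem_bot]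
      have h3 : (ttOf x y) ^ Nat.card (Abelianization Q₁) = 1 := by
        have : (Abelianization.of x : Abelianization Q₁) ^ Nat.card (Abelianization Q₁) = 1 := pow_card_eq_one'
        have h4 : ttOf (x ^ Nat.card (Abelianization Q₁)) y = (ttOf x y) ^ Nat.card (Abelianization Q₁) := by
          induction Nat.card (Abelianization Q₁) with
          | zero => simp [ttOf_one_left]
          | succ n ih => rw [pow_succ, ttOf_mul_left, ih, pow_succ]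
        rw [← h4]
        show Multiplicative.ofAdd ((Additive.ofMul (Abelianization.of _)) ⊗ₜ[ℤ] _) = 1
        rw [map_pow, this, ofMul_one, TensorProduct.zero_tmul]
        rfl
      have h5 : (ttOf x y) ^ Nat.card (Abelianization Q₂) = 1 := by
        have : (Abelianization.of y : Abelianization Q₂) ^ Nat.card (Abelianization Q₂) = 1 := pow_card_eq_one'
        have h4 : ttOf x (y ^ Nat.card (Abelianization Q₂)) = (ttOf x y) ^ Nat.card (Abelianization Q₂) := by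
          induction Nat.card (Abelianization Q₂) with
          | zero => simp [ttOf_one_right]
          | succ n ih => rw [pow_succ, ttOf_mul_right, ih, pow_succ]
        rw [← h4]
        show Multiplicative.ofAdd (_ ⊗ₜ[ℤ] (Additive.ofMul (Abelianization.of _))) = 1
        rw [map_pow, this, ofMul_one, TensorProduct.tmul_zero]
        rfl
      have h6 := pow_gcd_eq_one.2 ⟨h3, h5⟩
      rw [Nat.Coprime.gcd_eq_one hcop, pow_one] at h6
      exact h6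
    exact hW
  exact ⟨fun a b => by rw [h1 a, h1 b]⟩

end Tensor

section Product

variable {Q₁ : Type u} {Q₂ : Type v} [Group Q₁] [Group Q₂]

/-- The bilinear form from pure tensors. -/
def betaOf {H : Type x} [Group H] (p₁ : H →* Q₁) (p₂ : H →* Q₂) : H →* (H →* TT Q₁ Q₂) :=
  MonoidHom.mk' (fun x => MonoidHom.mk' (fun y => ttOf (p₁ x) (p₂ y)) (by
    intro y y'
    rw [map_mul, ttOf_mul_right])) (by
    intro x x'
    ext y
    show ttOf (p₁ (x * x')) (p₂ y) = ttOf (p₁ x) (p₂ y) * ttOf (p₁ x') (p₂ y)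
    rw [map_mul, ttOf_mul_left])

theorem betaOf_apply {H : Type x} [Group H] (p₁ : H →* Q₁) (p₂ : H →* Q₂) (x y : H) :
    betaOf p₁ p₂ x y = ttOf (p₁ x) (p₂ y) := rfl

theorem prod_exists {Γ₁ : Type u} {Γ₂ : Type v} [Group Γ₁] [Group Γ₂] [Finite Γ₁] [Finite Γ₂]
    [Finite Q₁] [Finite Q₂]
    (σ₁ : Γ₁ →* Q₁) (σ₂ : Γ₂ →* Q₂) (h₁ : Cfsg.IsStemExtension σ₁) (h₂ : Cfsg.IsStemExtension σ₂) :
    ∃ (Γ : Type (max u v)) (_ : Group Γ) (_ : Finite Γ) (σ : Γ →* Q₁ × Q₂),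
      Cfsg.IsStemExtension σ ∧ Nonempty (σ.ker ≃* (σ₁.ker × σ₂.ker × TT Q₁ Q₂)) := by
  classical
  let p₁ : Γ₁ × Γ₂ →* Q₁ := σ₁.comp (MonoidHom.fst _ _)
  let p₂ : Γ₁ × Γ₂ →* Q₂ := σ₂.comp (MonoidHom.snd _ _)
  let β : Γ₁ × Γ₂ →* (Γ₁ × Γ₂ →* TT Q₁ Q₂) := betaOf p₁ p₂
  have hβ : ∀ x y, β x y = ttOf (σ₁ x.1) (σ₂ y.2) := fun _ _ => rfl
  let ρ : Heis β →* Q₁ × Q₂ := (σ₁.prodMap σ₂).comp (Heis.pr β)
  have hρ : ∀ x : Heis β, ρ x = (σ₁ x.2.1, σ₂ x.2.2) := fun _ => rfl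
  have hker : ∀ x : Heis β, x ∈ ρ.ker ↔ σ₁ x.2.1 = 1 ∧ σ₂ x.2.2 = 1 := by
    intro x
    rw [MonoidHom.mem_ker, hρ, Prod.mk_eq_one]
  have hmul : ∀ x y : Heis β, (x * y).1 = x.1 * y.1 * β x.2 y.2 := fun _ _ => rfl
  have hmul2 : ∀ x y : Heis β, (x * y).2 = x.2 * y.2 := fun _ _ => rfl
  refine ⟨Heis β, inferInstance, inferInstance, ρ, ⟨?_, ?_, ?_⟩, ?_⟩
  · intro q
    obtain ⟨a, ha⟩ := h₁.1 q.1
    obtain ⟨b, hb⟩ := h₂.1 q.2
    refine ⟨(((1 : TT Q₁ Q₂), (a, b)) : TT Q₁ Q₂ × Γ₁ × Γ₂), ?_⟩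
    exact Prod.ext ha hb
  · intro x hx
    obtain ⟨hx1, hx2⟩ := (hker x).1 hx
    rw [mem_center_iff]
    intro g
    apply Prod.ext
    · rw [hmul, hmul, hβ, hβ, hx1, hx2, ttOf_one_left, ttOf_one_right, mul_one, mul_one, mul_comm]
    · rw [hmul2, hmul2]
      apply Prod.ext
      · exact mem_center_iff.1 (h₁.2.1 hx1) _
      · exact mem_center_iff.1 (h₂.2.1 hx2) _
  · -- the kernel lies in the commutator subgroup
    let i₁ : Γ₁ →* Heis β := MonoidHom.mk' (fun a => (((1 : TT Q₁ Q₂), (a, (1 : Γ₂))) : Heis β)) (by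
      intro a b
      apply Prod.ext
      · show (1 : TT Q₁ Q₂) = 1 * 1 * β (a, 1) (b, 1)
        rw [hβ, map_one, ttOf_one_right, one_mul, one_mul]
      · show (a * b, (1 : Γ₂)) = (a * b, 1 * 1)
        rw [one_mul])
    let i₂ : Γ₂ →* Heis β := MonoidHom.mk' (fun a => (((1 : TT Q₁ Q₂), ((1 : Γ₁), a)) : Heis β)) (by
      intro a b
      apply Prod.ext
      · show (1 : TT Q₁ Q₂) = 1 * 1 * β (1, a) (1, b)
        rw [hβ, map_one, ttOf_one_left, one_mul, one_mul]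
      · show ((1 : Γ₁), a * b) = (1 * 1, a * b)
        rw [one_mul])
    have hi₁ : ∀ k ∈ commutator Γ₁, i₁ k ∈ commutator (Heis β) := by
      intro k hk
      have h1 : i₁ k ∈ (commutator Γ₁).map i₁ := ⟨k, hk, rfl⟩
      rw [_root_.commutator_def, Subgroup.map_commutator] at h1
      rw [_root_.commutator_def]
      exact Subgroup.commutator_mono le_top le_top h1
    have hi₂ : ∀ k ∈ commutator Γ₂, i₂ k ∈ commutator (Heis β) := by
      intro k hk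
      have h1 : i₂ k ∈ (commutator Γ₂).map i₂ := ⟨k, hk, rfl⟩
      rw [_root_.commutator_def, Subgroup.map_commutator] at h1
      rw [_root_.commutator_def]
      exact Subgroup.commutator_mono le_top le_top h1
    have hinc : ∀ t : TT Q₁ Q₂, Heis.inc β t ∈ commutator (Heis β) := by
      intro t
      have := tt_closure ((commutator (Heis β)).comap (Heis.inc β)) (by
        intro x y
        obtain ⟨a, ha⟩ := h₁.1 x
        obtain ⟨b, hb⟩ := h₂.1 y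
        have h5 := Heis.commutator_sec β ((a, (1 : Γ₂))) (((1 : Γ₁), b)) (by
          apply Prod.ext
          · show a * 1 = 1 * a
            simp
          · show 1 * b = b * 1
            simp)
        have h6 : β (a, (1 : Γ₂)) ((1 : Γ₁), b) * (β ((1 : Γ₁), b) (a, (1 : Γ₂)))⁻¹ = ttOf x y := by
          rw [hβ, hβ, ha, hb]
          show ttOf x y * (ttOf (σ₁ 1) (σ₂ 1))⁻¹ = _
          rw [map_one, ttOf_one_left, inv_one, mul_one]
        rw [h6] at h5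
        show Heis.inc β (ttOf x y) ∈ commutator (Heis β)
        rw [← h5]
        exact Subgroup.commutator_mem_commutator (Subgroup.mem_top _) (Subgroup.mem_top _)) t
      exact this
    intro x hx
    obtain ⟨hx1, hx2⟩ := (hker x).1 hx
    have hdec : x = Heis.inc β x.1 * i₁ x.2.1 * i₂ x.2.2 := by
      apply Prod.ext
      · rw [hmul, hmul]
        show x.1 = x.1 * 1 * β (1 : Γ₁ × Γ₂) (x.2.1, 1) * 1 * β ((1 : Γ₁ × Γ₂) * (x.2.1, 1)) (1, x.2.2)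
        rw [hβ, hβ]
        simp [hx1, hx2, ttOf_one_left, ttOf_one_right]
      · rw [hmul2, hmul2]
        show x.2 = ((1 : Γ₁ × Γ₂) * (x.2.1, 1)) * (1, x.2.2)
        simp
    rw [hdec]
    exact Subgroup.mul_mem _ (Subgroup.mul_mem _ (hinc _) (hi₁ _ (h₁.2.2 hx1))) (hi₂ _ (h₂.2.2 hx2))
  · refine ⟨{ toFun := fun x => (⟨x.1.2.1, ((hker x.1).1 x.2).1⟩, ⟨x.1.2.2, ((hker x.1).1 x.2).2⟩, x.1.1)
              invFun := fun y => ⟨((y.2.2, (y.1.1, y.2.1.1)) : Heis β), (hker _).2 ⟨y.1.2, y.2.1.2⟩⟩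
              left_inv := fun x => rfl
              right_inv := fun y => rfl
              map_mul' := ?_ }⟩
    intro x y
    apply Prod.ext
    · rfl
    apply Prod.ext
    · rfl
    · show x.1.1 * y.1.1 * β x.1.2 y.1.2 = x.1.1 * y.1.1
      rw [hβ, ((hker x.1).1 x.2).1, ttOf_one_left, mul_one]

/-- `⁅g * g', h⁆` splits when the commutators are central. -/
theorem comm_mul_left' {Γ : Type*} [Group Γ] (g g' h : Γ) (hc : ⁅g', h⁆ ∈ center Γ) :
    ⁅g * g', h⁆ = ⁅g, h⁆ * ⁅g', h⁆ := by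
  have h1 : ⁅g * g', h⁆ = g * ⁅g', h⁆ * g⁻¹ * ⁅g, h⁆ := by
    simp only [commutatorElement_def]; group
  rw [h1, (mem_center_iff.1 hc g)]
  have h2 : ⁅g', h⁆ * g * g⁻¹ * ⁅g, h⁆ = ⁅g', h⁆ * ⁅g, h⁆ := by group
  rw [h2]
  exact (mem_center_iff.1 hc _).symm

/-- The centre as a commutative group. -/
@[reducible] def centerCommGroup (Γ : Type*) [Group Γ] : CommGroup (center Γ) :=
  { (inferInstance : Group (center Γ)) with
    mul_comm := fun a b => Subtype.ext (mem_center_iff.1 a.2 b.1).symm }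

theorem comm_mul_right' {Γ : Type*} [Group Γ] (g h h' : Γ) (hc : ⁅g, h'⁆ ∈ center Γ) :
    ⁅g, h * h'⁆ = ⁅g, h⁆ * ⁅g, h'⁆ := by
  have h1 : ⁅g, h * h'⁆ = ⁅g, h⁆ * (h * ⁅g, h'⁆ * h⁻¹) := by
    simp only [commutatorElement_def]; group
  rw [h1, (mem_center_iff.1 hc h)]
  group

theorem prod_bound {A B : Type w} [CommGroup A] [CommGroup B] [Finite Q₁] [Finite Q₂]
    (hA : Cfsg.HasSchurMultiplier Q₁ A) (hB : Cfsg.HasSchurMultiplier Q₂ B)
    {Γ : Type x} [Group Γ] (σ : Γ →* Q₁ × Q₂) (hσ : Cfsg.IsStemExtension σ) :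
    ∃ π : A × B × TT Q₁ Q₂ →* σ.ker, Function.Surjective π := by
  classical
  letI := centerCommGroup Γ
  obtain ⟨Δ₁, hΔ₁⟩ : ∃ Δ : Subgroup Γ, ∀ x, x ∈ Δ ↔ (σ x).2 = 1 :=
    ⟨(MonoidHom.snd Q₁ Q₂).ker.comap σ, fun x => MonoidHom.mem_ker⟩
  obtain ⟨Δ₂, hΔ₂⟩ : ∃ Δ : Subgroup Γ, ∀ x, x ∈ Δ ↔ (σ x).1 = 1 :=
    ⟨(MonoidHom.fst Q₁ Q₂).ker.comap σ, fun x => MonoidHom.mem_ker⟩
  have hΔ₁n : Δ₁.Normal := by
    constructor
    intro n hn g
    rw [hΔ₁] at hn ⊢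
    simp [hn]
  have hΔ₂n : Δ₂.Normal := by
    constructor
    intro n hn g
    rw [hΔ₂] at hn ⊢
    simp [hn]
  have hK₁ : ∀ k, k ∈ σ.ker → k ∈ Δ₁ := by
    intro k hk
    rw [hΔ₁, show σ k = 1 from hk]; rfl
  have hK₂ : ∀ k, k ∈ σ.ker → k ∈ Δ₂ := by
    intro k hk
    rw [hΔ₂, show σ k = 1 from hk]; rfl
  let ξ₁ : Δ₁ →* Q₁ := (MonoidHom.fst Q₁ Q₂).comp (σ.comp Δ₁.subtype)
  let ξ₂ : Δ₂ →* Q₂ := (MonoidHom.snd Q₁ Q₂).comp (σ.comp Δ₂.subtype)
  have hξ₁s : Function.Surjective ξ₁ := by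
    intro x
    obtain ⟨g, hg⟩ := hσ.1 (x, 1)
    exact ⟨⟨g, (hΔ₁ g).2 (by rw [hg])⟩, by show (σ g).1 = x; rw [hg]⟩
  have hξ₂s : Function.Surjective ξ₂ := by
    intro x
    obtain ⟨g, hg⟩ := hσ.1 (1, x)
    exact ⟨⟨g, (hΔ₂ g).2 (by rw [hg])⟩, by show (σ g).2 = x; rw [hg]⟩
  have hξ₁K : ∀ x : Δ₁, ξ₁ x = 1 → (x : Γ) ∈ σ.ker := by
    intro x hx
    apply Prod.ext
    · exact hx
    · exact (hΔ₁ x.1).1 x.2
  have hξ₂K : ∀ x : Δ₂, ξ₂ x = 1 → (x : Γ) ∈ σ.ker := by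
    intro x hx
    apply Prod.ext
    · exact (hΔ₂ x.1).1 x.2
    · exact hx
  have hξ₁c : ξ₁.ker ≤ center Δ₁ := by
    intro x hx
    rw [mem_center_iff]
    intro g
    exact Subtype.ext (mem_center_iff.1 (hσ.2.1 (hξ₁K x hx)) g.1)
  have hξ₂c : ξ₂.ker ≤ center Δ₂ := by
    intro x hx
    rw [mem_center_iff]
    intro g
    exact Subtype.ext (mem_center_iff.1 (hσ.2.1 (hξ₂K x hx)) g.1)
  obtain ⟨π₁, hπ₁⟩ := exists_surj_of_central hA ξ₁ hξ₁s hξ₁c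
  obtain ⟨π₂, hπ₂⟩ := exists_surj_of_central hB ξ₂ hξ₂s hξ₂c
  have hπ₁K : ∀ a, ((π₁ a).1 : Γ) ∈ σ.ker := fun a => hξ₁K _ (π₁ a).2.2
  have hπ₂K : ∀ a, ((π₂ a).1 : Γ) ∈ σ.ker := fun a => hξ₂K _ (π₂ a).2.2
  let α₁ : A →* center Γ := MonoidHom.mk' (fun a => ⟨((π₁ a).1 : Γ), hσ.2.1 (hπ₁K a)⟩) (by
    intro a b
    apply Subtype.ext
    show ((π₁ (a * b)).1 : Γ) = ((π₁ a).1 : Γ) * ((π₁ b).1 : Γ)
    rw [map_mul]
    rfl)
  let α₂ : B →* center Γ := MonoidHom.mk' (fun a => ⟨((π₂ a).1 : Γ), hσ.2.1 (hπ₂K a)⟩) (by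
    intro a b
    apply Subtype.ext
    show ((π₂ (a * b)).1 : Γ) = ((π₂ a).1 : Γ) * ((π₂ b).1 : Γ)
    rw [map_mul]
    rfl)
  -- the pairing
  have hcK : ∀ g ∈ Δ₁, ∀ h ∈ Δ₂, ⁅g, h⁆ ∈ σ.ker := by
    intro g hg h hh
    rw [hΔ₁] at hg
    rw [hΔ₂] at hh
    show σ ⁅g, h⁆ = 1
    rw [map_commutatorElement, commutatorElement_eq_one_iff_mul_comm]
    apply Prod.ext
    · show (σ g).1 * (σ h).1 = (σ h).1 * (σ g).1
      rw [hh]; simp
    · show (σ g).2 * (σ h).2 = (σ h).2 * (σ g).2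
      rw [hg]; simp
  let l₁ : Q₁ → Γ := fun x => Function.surjInv hσ.1 (x, 1)
  let l₂ : Q₂ → Γ := fun y => Function.surjInv hσ.1 (1, y)
  have hl₁ : ∀ x, σ (l₁ x) = (x, 1) := fun x => Function.surjInv_eq hσ.1 _
  have hl₂ : ∀ y, σ (l₂ y) = (1, y) := fun y => Function.surjInv_eq hσ.1 _
  have hl₁Δ : ∀ x, l₁ x ∈ Δ₁ := fun x => (hΔ₁ _).2 (by rw [hl₁])
  have hl₂Δ : ∀ y, l₂ y ∈ Δ₂ := fun y => (hΔ₂ _).2 (by rw [hl₂])
  have hccen : ∀ x y, ⁅l₁ x, l₂ y⁆ ∈ center Γ := fun x y => hσ.2.1 (hcK _ (hl₁Δ x) _ (hl₂Δ y))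
  obtain ⟨L, hL⟩ := tt_lift (C := center Γ) (fun x y => (⟨⁅l₁ x, l₂ y⁆, hccen x y⟩ : center Γ))
    (by
      intro x x' y
      apply Subtype.ext
      show ⁅l₁ (x * x'), l₂ y⁆ = ⁅l₁ x, l₂ y⁆ * ⁅l₁ x', l₂ y⁆
      have hz : (l₁ x * l₁ x')⁻¹ * l₁ (x * x') ∈ center Γ := by
        apply hσ.2.1
        show σ _ = 1
        rw [map_mul, map_inv, map_mul, hl₁, hl₁, hl₁]
        simp
      have h1 : l₁ (x * x') = (l₁ x * l₁ x') * ((l₁ x * l₁ x')⁻¹ * l₁ (x * x')) := by group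
      have h2 : l₂ y = l₂ y * 1 := by simp
      rw [h1]
      conv_lhs => rw [h2]
      rw [commutator_mul_central hz (Subgroup.one_mem _)]
      exact comm_mul_left' _ _ _ (hccen x' y))
    (by
      intro x y y'
      apply Subtype.ext
      show ⁅l₁ x, l₂ (y * y')⁆ = ⁅l₁ x, l₂ y⁆ * ⁅l₁ x, l₂ y'⁆
      have hz : (l₂ y * l₂ y')⁻¹ * l₂ (y * y') ∈ center Γ := by
        apply hσ.2.1
        show σ _ = 1
        rw [map_mul, map_inv, map_mul, hl₂, hl₂, hl₂]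
        simp
      have h1 : l₂ (y * y') = (l₂ y * l₂ y') * ((l₂ y * l₂ y')⁻¹ * l₂ (y * y')) := by group
      have h2 : l₁ x = l₁ x * 1 := by simp
      rw [h1]
      conv_lhs => rw [h2]
      rw [commutator_mul_central (Subgroup.one_mem _) hz]
      exact comm_mul_right' _ _ _ (hccen x y'))
  have hLK : ∀ t, ((L t : center Γ) : Γ) ∈ σ.ker := by
    intro t
    have := tt_closure (((σ.ker).comap (center Γ).subtype).comap L) (by
      intro x y
      show ((L (ttOf x y) : center Γ) : Γ) ∈ σ.ker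
      rw [hL]
      exact hcK _ (hl₁Δ x) _ (hl₂Δ y)) t
    exact this
  let α : A × B × TT Q₁ Q₂ →* center Γ := α₁.coprod (α₂.coprod L)
  have hαv : ∀ p : A × B × TT Q₁ Q₂, ((α p : center Γ) : Γ) = ((π₁ p.1).1 : Γ) * (((π₂ p.2.1).1 : Γ) * (L p.2.2 : center Γ)) := fun _ => rfl
  have hαK : ∀ p, ((α p : center Γ) : Γ) ∈ σ.ker := by
    intro p
    rw [hαv]
    exact Subgroup.mul_mem _ (hπ₁K _) (Subgroup.mul_mem _ (hπ₂K _) (hLK _))
  refine ⟨MonoidHom.codRestrict ((center Γ).subtype.comp α) σ.ker hαK, ?_⟩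
  -- surjectivity
  intro k
  haveI := hΔ₁n
  haveI := hΔ₂n
  have hclo : closure ((Δ₁ : Set Γ) ∪ Δ₂) = ⊤ := by
    rw [eq_top_iff]
    intro x _
    have hm : ∀ y ∈ Δ₁, y ∈ closure ((Δ₁ : Set Γ) ∪ Δ₂) := fun y hy => subset_closure (Or.inl hy)
    have hm2 : ∀ y ∈ Δ₂, y ∈ closure ((Δ₁ : Set Γ) ∪ Δ₂) := fun y hy => subset_closure (Or.inr hy)
    have h1 : (l₁ (σ x).1 * l₂ (σ x).2)⁻¹ * x ∈ σ.ker := by
      show σ _ = 1
      rw [map_mul, map_inv, map_mul, hl₁, hl₂]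
      simp
    have h2 : x = l₁ (σ x).1 * l₂ (σ x).2 * ((l₁ (σ x).1 * l₂ (σ x).2)⁻¹ * x) := by group
    rw [h2]
    exact Subgroup.mul_mem _ (Subgroup.mul_mem _ (hm _ (hl₁Δ _)) (hm2 _ (hl₂Δ _))) (hm _ (hK₁ _ h1))
  have hN : commutator Γ ≤ (⁅Δ₁, Δ₁⁆ ⊔ ⁅Δ₂, Δ₂⁆) ⊔ ⁅Δ₁, Δ₂⁆ := by
    apply commutator_le_of_gen _ hclo
    rintro s (hs | hs) t (ht | ht)
    · have h1 : ⁅Δ₁, Δ₁⁆ ≤ (⁅Δ₁, Δ₁⁆ ⊔ ⁅Δ₂, Δ₂⁆) ⊔ ⁅Δ₁, Δ₂⁆ := le_sup_of_le_left le_sup_left
      exact h1 (Subgroup.commutator_mem_commutator hs ht)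
    · exact (le_sup_right (a := ⁅Δ₁, Δ₁⁆ ⊔ ⁅Δ₂, Δ₂⁆)) (Subgroup.commutator_mem_commutator hs ht)
    · rw [← commutatorElement_inv]
      exact Subgroup.inv_mem _ ((le_sup_right (a := ⁅Δ₁, Δ₁⁆ ⊔ ⁅Δ₂, Δ₂⁆)) (Subgroup.commutator_mem_commutator ht hs))
    · have h1 : ⁅Δ₂, Δ₂⁆ ≤ (⁅Δ₁, Δ₁⁆ ⊔ ⁅Δ₂, Δ₂⁆) ⊔ ⁅Δ₁, Δ₂⁆ := le_sup_of_le_left le_sup_right
      exact h1 (Subgroup.commutator_mem_commutator hs ht)
  have hkN := hN (hσ.2.2 k.2)
  obtain ⟨u, hu, e, he, hue⟩ := Subgroup.mem_sup_of_normal_right.1 hkN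
  obtain ⟨d₁, hd₁, d₂, hd₂, hdd⟩ := Subgroup.mem_sup_of_normal_right.1 hu
  -- `e` comes from the tensor product
  have hE : ⁅Δ₁, Δ₂⁆ ≤ L.range.map (center Γ).subtype := by
    rw [Subgroup.commutator_le]
    intro g hg h hh
    have hz : (l₁ (σ g).1)⁻¹ * g ∈ center Γ := by
      apply hσ.2.1
      show σ _ = 1
      rw [map_mul, map_inv, hl₁]
      have h2 := (hΔ₁ g).1 hg
      apply Prod.ext
      · simp
      · simp [h2]
    have hw : (l₂ (σ h).2)⁻¹ * h ∈ center Γ := by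
      apply hσ.2.1
      show σ _ = 1
      rw [map_mul, map_inv, hl₂]
      have h2 := (hΔ₂ h).1 hh
      apply Prod.ext
      · simp [h2]
      · simp
    have h1 : ⁅g, h⁆ = ⁅l₁ (σ g).1, l₂ (σ h).2⁆ := by
      have h2 : g = l₁ (σ g).1 * ((l₁ (σ g).1)⁻¹ * g) := by group
      have h3 : h = l₂ (σ h).2 * ((l₂ (σ h).2)⁻¹ * h) := by group
      conv_lhs => rw [h2, h3]
      exact commutator_mul_central hz hw
    rw [h1]
    exact ⟨L (ttOf (σ g).1 (σ h).2), ⟨_, rfl⟩, by rw [hL]; rfl⟩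
  obtain ⟨_, ⟨t, rfl⟩, het⟩ := hE he
  have heK : e ∈ σ.ker := by
    rw [← het]; exact hLK t
  have hddK : d₁ * d₂ ∈ σ.ker := by
    have h1 : d₁ * d₂ = (k : Γ) * e⁻¹ := by rw [hdd, ← hue]; group
    rw [h1]
    exact Subgroup.mul_mem _ k.2 (Subgroup.inv_mem _ heK)
  have hd₁Δ : d₁ ∈ Δ₁ := (Subgroup.commutator_le_right Δ₁ Δ₁) hd₁
  have hd₂Δ : d₂ ∈ Δ₂ := (Subgroup.commutator_le_right Δ₂ Δ₂) hd₂
  have hdd1 : (σ (d₁ * d₂)) = 1 := hddK
  rw [map_mul] at hdd1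
  have hd₁1 : (σ d₁).1 = 1 := by
    have h1 := congrArg Prod.fst hdd1
    have h2 : (σ d₁).1 * (σ d₂).1 = 1 := h1
    rw [(hΔ₂ d₂).1 hd₂Δ, mul_one] at h2
    exact h2
  have hd₂1 : (σ d₂).2 = 1 := by
    have h1 := congrArg Prod.snd hdd1
    have h2 : (σ d₁).2 * (σ d₂).2 = 1 := h1
    rw [(hΔ₁ d₁).1 hd₁Δ, one_mul] at h2
    exact h2
  have hm₁ : d₁ ∈ (commutator Δ₁).map Δ₁.subtype := by
    rw [Subgroup.map_subtype_commutator]; exact hd₁
  have hm₂ : d₂ ∈ (commutator Δ₂).map Δ₂.subtype := by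
    rw [Subgroup.map_subtype_commutator]; exact hd₂
  obtain ⟨d₁', hd₁', hd₁e⟩ := hm₁
  obtain ⟨d₂', hd₂', hd₂e⟩ := hm₂
  have hd₁2 : d₁' ∈ commutator Δ₁ ⊓ ξ₁.ker := ⟨hd₁', by
    show (σ (d₁' : Γ)).1 = 1
    have : (d₁' : Γ) = d₁ := hd₁e
    rw [this, hd₁1]⟩
  have hd₂2 : d₂' ∈ commutator Δ₂ ⊓ ξ₂.ker := ⟨hd₂', by
    show (σ (d₂' : Γ)).2 = 1
    have : (d₂' : Γ) = d₂ := hd₂e
    rw [this, hd₂1]⟩
  obtain ⟨a, ha⟩ := hπ₁ ⟨d₁', hd₁2⟩
  obtain ⟨b, hb⟩ := hπ₂ ⟨d₂', hd₂2⟩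
  refine ⟨(a, b, t), ?_⟩
  apply Subtype.ext
  show ((α (a, b, t) : center Γ) : Γ) = (k : Γ)
  rw [hαv]
  have h1 : ((π₁ a).1 : Γ) = d₁ := by
    rw [ha]; exact hd₁e
  have h2 : ((π₂ b).1 : Γ) = d₂ := by
    rw [hb]; exact hd₂e
  show ((π₁ a).1 : Γ) * (((π₂ b).1 : Γ) * (L t : center Γ)) = k
  rw [h1, h2, ← mul_assoc]
  have h3 : ((L t : center Γ) : Γ) = e := het
  rw [h3, hdd, hue]

/-- The multiplier of a direct product. -/
theorem hasSchur_prod {A B : Type w} [CommGroup A] [CommGroup B] [Finite Q₁] [Finite Q₂]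
    (hA : Cfsg.HasSchurMultiplier Q₁ A) (hB : Cfsg.HasSchurMultiplier Q₂ B) :
    Cfsg.HasSchurMultiplier (Q₁ × Q₂) (A × B × TT Q₁ Q₂) := by
  obtain ⟨⟨Γ₁, _, _, σ₁, h₁, ⟨e₁⟩⟩, _⟩ := hA
  obtain ⟨⟨Γ₂, _, _, σ₂, h₂, ⟨e₂⟩⟩, _⟩ := hB
  constructor
  · obtain ⟨Γ, i1, i2, σ, hσ, ⟨E⟩⟩ := prod_exists σ₁ σ₂ h₁ h₂
    exact ⟨Γ, i1, i2, σ, hσ, ⟨E.trans (MulEquiv.prodCongr e₁ (MulEquiv.prodCongr e₂ (MulEquiv.refl _)))⟩⟩
  · intro Γ _ _ σ hσ
    exact prod_bound ⟨⟨Γ₁, inferInstance, inferInstance, σ₁, h₁, ⟨e₁⟩⟩, by assumption⟩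
      ⟨⟨Γ₂, inferInstance, inferInstance, σ₂, h₂, ⟨e₂⟩⟩, by assumption⟩ σ hσ

/-- Transport along an isomorphism. -/
theorem hasSchur_of_equiv {Q : Type u} [Group Q] {A : Type v} {A' : Type w} [CommGroup A] [CommGroup A']
    (h : Cfsg.HasSchurMultiplier Q A) (e : A ≃* A') : Cfsg.HasSchurMultiplier Q A' := by
  obtain ⟨⟨Γ, i1, i2, σ, hσ, ⟨E⟩⟩, h2⟩ := h
  refine ⟨⟨Γ, i1, i2, σ, hσ, ⟨E.trans e⟩⟩, ?_⟩
  intro Γ' _ _ σ' hσ'
  obtain ⟨π, hπ⟩ := h2 Γ' σ' hσ'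
  exact ⟨π.comp e.symm.toMonoidHom, hπ.comp e.symm.surjective⟩

end Product

end CfsgLib.FGS.Schur
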