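import Cfsg.Agent.Lib.FGS.SchurTr

/-!
Projective representations and covers.
-/

set_option autoImplicit false

namespace CfsgLib.FGS.Schur

open Subgroup
open scoped commutatorElement Pointwise

universe u v w

/-- Every homomorphism to `H / Z(H)` lifts on `F / [F, N]`. -/
theorem exists_proj_lift {Q : Type u} [Group Q] {H : Type*} [Group H] (γ : Q →* (H ⧸ center H)) :
    ∃ φ : EE (fQ Q) →* H, ∀ x, QuotientGroup.mk' (center H) (φ x) = γ (pE (fQ Q) x) := by
  let Y : Subgroup (Q × H) :=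
    { carrier := {a | γ a.1 = QuotientGroup.mk' (center H) a.2}
      mul_mem' := by
        intro a b ha hb
        show γ (a.1 * b.1) = QuotientGroup.mk' (center H) (a.2 * b.2)
        rw [map_mul, map_mul, show γ a.1 = _ from ha, show γ b.1 = _ from hb]
      one_mem' := by
        show γ 1 = QuotientGroup.mk' (center H) 1
        simp
      inv_mem' := by
        intro a ha
        show γ a.1⁻¹ = QuotientGroup.mk' (center H) a.2⁻¹
        rw [map_inv, map_inv, show γ a.1 = _ from ha] }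
  let ξ : Y →* Q := (MonoidHom.fst Q H).comp Y.subtype
  have hξ : Function.Surjective ξ := by
    intro q
    obtain ⟨g, hg⟩ := QuotientGroup.mk_surjective (γ q)
    exact ⟨⟨(q, g), hg.symm⟩, rfl⟩
  have hc : ξ.ker ≤ center Y := by
    intro y hy
    have h1 : (y : Q × H).1 = 1 := hy
    have h2 : QuotientGroup.mk' (center H) (y : Q × H).2 = 1 := by
      have h3 : γ (y : Q × H).1 = _ := y.2
      rw [← h3, h1, map_one]
    have h4 : (y : Q × H).2 ∈ center H := (QuotientGroup.eq_one_iff _).1 h2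
    rw [mem_center_iff]
    intro g
    apply Subtype.ext
    apply Prod.ext
    · show (g : Q × H).1 * (y : Q × H).1 = (y : Q × H).1 * (g : Q × H).1
      rw [h1]; simp
    · exact mem_center_iff.1 h4 _
  obtain ⟨φ₀, hφ₀⟩ := exists_lift (fQ Q) ξ hξ hc
  refine ⟨(MonoidHom.snd Q H).comp (Y.subtype.comp φ₀), fun x => ?_⟩
  have h1 : γ (φ₀ x : Q × H).1 = QuotientGroup.mk' (center H) (φ₀ x : Q × H).2 := (φ₀ x).2
  have h2 : ξ (φ₀ x) = pE (fQ Q) x := pE_eq (fQ Q) ξ φ₀ hφ₀ x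
  have h3 : (φ₀ x : Q × H).1 = pE (fQ Q) x := h2
  rw [← h3, h1]
  rfl

/-- Extension of a homomorphism from a subgroup meeting the commutator subgroup trivially, into a
divisible abelian group. -/
theorem exists_ext_central {E C : Type*} [Group E] [CommGroup C]
    (hdiv : ∀ (z : C) (k : ℤ), k ≠ 0 → ∃ w, w ^ k = z) (L : Subgroup E)
    (hL : L ⊓ commutator E = ⊥) (lam : L →* C) : ∃ μ : E →* C, ∀ x : L, μ x = lam x := by
  classical
  let j : L →* Abelianization E := Abelianization.of.comp L.subtype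
  have hj : Function.Injective j := by
    rw [injective_iff_map_eq_one]
    intro x hx
    have h1 : (x : E) ∈ commutator E := by
      rw [← Abelianization.ker_of]
      exact hx
    have h2 : (x : E) ∈ L ⊓ commutator E := ⟨x.2, h1⟩
    rw [hL] at h2
    exact Subtype.ext h2
  let e := MonoidHom.ofInjective hj
  let g : Additive j.range →+ Additive C := MonoidHom.toAdditive (lam.comp e.symm.toMonoidHom)
  let i : Additive j.range →+ Additive (Abelianization E) := MonoidHom.toAdditive (j.range.subtype)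
  have hi : Function.Injective i := fun a b hab => by
    apply Additive.toMul.injective
    exact Subtype.ext hab
  haveI : DivisibleBy (Additive C) ℤ := divisibleByOfSMulRightSurj _ _ (by
    intro n hn a
    obtain ⟨w, hw⟩ := hdiv (Additive.toMul a) n hn
    exact ⟨Additive.ofMul w, by
      show Additive.ofMul (w ^ n) = a
      rw [hw]; rfl⟩)
  obtain ⟨h, hh⟩ := (Module.Baer.of_divisible (Additive C)).extension_property_addMonoidHom i hi g
  refine ⟨MonoidHom.mk' (fun x => Additive.toMul (h (Additive.ofMul (Abelianization.of x)))) (by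
    intro a b
    rw [map_mul, ofMul_mul, map_add, toMul_add]), fun x => ?_⟩
  show Additive.toMul (h (Additive.ofMul (Abelianization.of (x : E)))) = lam x
  have h1 := congrArg (fun k => Additive.toMul (k (Additive.ofMul (e x)))) hh
  have h2 : e.symm (e x) = x := e.symm_apply_apply x
  simp only [AddMonoidHom.comp_apply] at h1
  refine h1.trans ?_
  show lam (e.symm (e x)) = lam x
  rw [h2]

/-- Homomorphisms from `Q` to `H / Z(H)` lift to any Schur cover, when `Z(H)` is divisible. -/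
theorem proj_lift_cover {Q : Type u} [Group Q] [Finite Q] {A : Type*} [CommGroup A]
    (hA : Cfsg.HasSchurMultiplier Q A) {Γ : Type*} [Group Γ] [Finite Γ] (σ : Γ →* Q)
    (hσ : Cfsg.IsStemExtension σ) (hk : Nonempty (σ.ker ≃* A)) {H : Type*} [Group H]
    (hdiv : ∀ (z : center H) (k : ℤ), k ≠ 0 → ∃ w : center H, w ^ k = z)
    (γ : Q →* (H ⧸ center H)) :
    ∃ ρ : Γ →* H, (QuotientGroup.mk' (center H)).comp ρ = γ.comp σ := by
  classical
  letI := centerCommGroup H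
  obtain ⟨φ₂, hφ₂⟩ := exists_proj_lift γ
  obtain ⟨ψ, hψ, π, hπ, hπ2⟩ := stem_image (fQ Q) (fQ_surj Q) σ hσ.1 hσ.2.1
  have hψs : Function.Surjective ψ := lift_surjective _ σ hσ.2.1 ψ hψ (fQ_surj Q) hσ.2.2
  have hσp : ∀ x, σ (ψ x) = pE (fQ Q) x := pE_eq _ σ ψ hψ
  -- `π` is injective
  obtain ⟨e₁⟩ := hk
  obtain ⟨e₂⟩ := mulEquiv_Mb (fQ Q) (fQ_surj Q) hA
  have hk2 : ∀ y : σ.ker, (y : Γ) ∈ commutator Γ ⊓ σ.ker := fun y => ⟨hσ.2.2 y.2, y.2⟩
  let r : σ.ker →* ↥(commutator Γ ⊓ σ.ker) := MonoidHom.codRestrict σ.ker.subtype _ hk2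
  have hr : Function.Bijective r :=
    ⟨fun a b h => Subtype.ext (congrArg (fun y : ↥(commutator Γ ⊓ σ.ker) => (y : Γ)) h), fun y => ⟨⟨y, y.2.2⟩, rfl⟩⟩
  haveI : Finite (Mb (fQ Q)) := finite_Mb _ (fQ_surj Q)
  have hinj : Function.Injective π := by
    have hcard : Nat.card (Mb (fQ Q)) = Nat.card ↥(commutator Γ ⊓ σ.ker) := by
      rw [← Nat.card_congr (MulEquiv.ofBijective r hr).toEquiv, Nat.card_congr e₁.toEquiv,
        Nat.card_congr e₂.toEquiv]
    exact ((Nat.bijective_iff_surjective_and_card π).2 ⟨hπ, hcard⟩).1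
  have hL : ψ.ker ⊓ commutator (EE (fQ Q)) = ⊥ := by
    rw [eq_bot_iff]
    rintro x ⟨hx1, hx2⟩
    have h1 : pE (fQ Q) x = 1 := by
      rw [← hσp, show ψ x = 1 from hx1, map_one]
    have h2 : π ⟨x, hx2, h1⟩ = 1 := by
      apply Subtype.ext
      rw [hπ2]
      exact hx1
    have h3 := hinj (h2.trans (map_one π).symm)
    exact congrArg Subtype.val h3
  have hcen : ∀ x : ψ.ker, φ₂ x ∈ center H := by
    intro x
    have h1 : pE (fQ Q) x = 1 := by
      rw [← hσp, show ψ (x : EE (fQ Q)) = 1 from x.2, map_one]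
    have h2 := hφ₂ x
    rw [h1, map_one] at h2
    exact (QuotientGroup.eq_one_iff _).1 h2
  let lam : ψ.ker →* center H := MonoidHom.mk' (fun x => ⟨φ₂ x, hcen x⟩) (by
    intro a b
    apply Subtype.ext
    show φ₂ ((a : EE (fQ Q)) * b) = φ₂ a * φ₂ b
    rw [map_mul])
  obtain ⟨μ, hμ⟩ := exists_ext_central hdiv ψ.ker hL lam
  let φ₃ : EE (fQ Q) →* H := MonoidHom.mk' (fun x => φ₂ x * ((μ x : center H) : H)⁻¹) (by
    intro a b
    rw [map_mul, map_mul]
    have h1 : ((μ a * μ b : center H) : H) = (μ a : H) * (μ b : H) := rfl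
    rw [h1]
    have hc := (mem_center_iff.1 (μ a).2 (φ₂ b)).symm
    have hc2 : Commute (φ₂ b) (((μ a : center H) : H)⁻¹) := Commute.inv_right (mem_center_iff.1 (μ a).2 (φ₂ b))
    have hcomm : ((μ b : center H) : H)⁻¹ * ((μ a : center H) : H)⁻¹ = ((μ a : center H) : H)⁻¹ * ((μ b : center H) : H)⁻¹ :=
      (Commute.inv_inv (mem_center_iff.1 (μ a).2 (μ b : H))).eq
    calc φ₂ a * φ₂ b * ((μ a : H) * (μ b : H))⁻¹ = φ₂ a * φ₂ b * ((μ b : H)⁻¹ * (μ a : H)⁻¹) := by group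
      _ = φ₂ a * φ₂ b * ((μ a : H)⁻¹ * (μ b : H)⁻¹) := by rw [hcomm]
      _ = φ₂ a * (φ₂ b * (μ a : H)⁻¹) * (μ b : H)⁻¹ := by group
      _ = φ₂ a * ((μ a : H)⁻¹ * φ₂ b) * (μ b : H)⁻¹ := by rw [hc2.eq]
      _ = _ := by group)
  have hle : ψ.ker ≤ φ₃.ker := by
    intro x hx
    show φ₂ x * ((μ x : center H) : H)⁻¹ = 1
    have h1 := hμ ⟨x, hx⟩
    have h2 : ((μ x : center H) : H) = φ₂ x := congrArg Subtype.val h1
    rw [h2]
    group
  refine ⟨(MonoidHom.liftOfSurjective ψ hψs) ⟨φ₃, hle⟩, ?_⟩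
  apply MonoidHom.ext
  intro g
  obtain ⟨x, rfl⟩ := hψs g
  show QuotientGroup.mk' (center H) ((MonoidHom.liftOfSurjective ψ hψs) ⟨φ₃, hle⟩ (ψ x)) = γ (σ (ψ x))
  have h1 : (MonoidHom.liftOfSurjective ψ hψs) ⟨φ₃, hle⟩ (ψ x) = φ₃ x :=
    MonoidHom.liftOfRightInverse_comp_apply _ _ _ _ _
  rw [h1, hσp, ← hφ₂]
  show QuotientGroup.mk' (center H) (φ₂ x * ((μ x : center H) : H)⁻¹) = _
  rw [map_mul, map_inv]
  have h2 : QuotientGroup.mk' (center H) ((μ x : center H) : H) = 1 :=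
    (QuotientGroup.eq_one_iff _).2 (μ x).2
  rw [h2]
  simp

/-- The centre of `GL n ℂ` is divisible. -/
theorem center_GL_divisible (n : ℕ) (z : center (GL (Fin n) ℂ)) (k : ℤ) (hk : k ≠ 0) :
    ∃ w : center (GL (Fin n) ℂ), w ^ k = z := by
  obtain ⟨z, hz⟩ := z
  have hz2 := hz
  rw [Matrix.GeneralLinearGroup.center_eq_range_scalar] at hz2
  obtain ⟨a, rfl⟩ := hz2
  -- a root of the unit
  obtain ⟨b, hb⟩ : ∃ b : ℂˣ, b ^ k = a := by
    have hk' : k.natAbs ≠ 0 := Int.natAbs_ne_zero.2 hk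
    obtain ⟨c, hc⟩ := IsAlgClosed.exists_pow_nat_eq ((a : ℂ)) (Nat.pos_of_ne_zero hk')
    have hc0 : c ≠ 0 := by
      intro h
      rw [h, zero_pow hk'] at hc
      exact a.ne_zero hc.symm
    rcases Int.natAbs_eq k with h | h
    · refine ⟨Units.mk0 c hc0, ?_⟩
      rw [h, zpow_natCast]
      apply Units.ext
      simpa using hc
    · refine ⟨(Units.mk0 c hc0)⁻¹, ?_⟩
      rw [h, zpow_neg, zpow_natCast, inv_pow, inv_inv]
      apply Units.ext
      simpa using hc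
  refine ⟨⟨Matrix.GeneralLinearGroup.scalar (Fin n) b, ?_⟩, ?_⟩
  · rw [Matrix.GeneralLinearGroup.center_eq_range_scalar]
    exact ⟨b, rfl⟩
  · apply Subtype.ext
    show (Matrix.GeneralLinearGroup.scalar (Fin n) b) ^ k = _
    rw [← map_zpow, hb]

/-- A representation in which a central subgroup acts by scalars, but a chosen element does not act
trivially. -/
theorem exists_scalar_rep {Δ : Type*} [Group Δ] [Finite Δ] (K : Subgroup Δ) (hK : K ≤ center Δ) (k : Δ)
    (hk : k ∈ K) (hne : k ≠ 1) :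
    ∃ (N : ℕ) (ϱ : Δ →* GL (Fin N) ℂ), (∀ x ∈ K, ϱ x ∈ center (GL (Fin N) ℂ)) ∧ ϱ k ≠ 1 := by
  classical
  letI : CommGroup K :=
    { (inferInstance : Group K) with
      mul_comm := fun a b => Subtype.ext ((mem_center_iff.1 (hK a.2) b.1).symm) }
  obtain ⟨lam, hlam⟩ := CommGroup.exists_apply_ne_one_of_hasEnoughRootsOfUnity K ℂ (a := ⟨k, hk⟩)
    (fun h => hne (congrArg Subtype.val h))
  let V : Submodule ℂ (Δ → ℂ) :=
    { carrier := {f | ∀ (c : K) (x : Δ), f (c * x) = (lam c : ℂ) * f x}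
      add_mem' := by
        intro a b ha hb c x
        show a (c * x) + b (c * x) = (lam c : ℂ) * (a x + b x)
        rw [ha c x, hb c x]; ring
      zero_mem' := by
        intro c x
        show (0 : ℂ) = (lam c : ℂ) * 0
        simp
      smul_mem' := by
        intro r a ha c x
        show r * a (c * x) = (lam c : ℂ) * (r * a x)
        rw [ha c x]; ring }
  have hVmem : ∀ f : Δ → ℂ, f ∈ V ↔ ∀ (c : K) (x : Δ), f (c * x) = (lam c : ℂ) * f x := fun _ => Iff.rfl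
  let act : Δ →* Module.End ℂ V :=
    { toFun := fun d =>
        { toFun := fun f => ⟨fun x => f.1 (x * d), fun c x => by
            show f.1 ((c : Δ) * x * d) = (lam c : ℂ) * f.1 (x * d)
            rw [mul_assoc]
            exact f.2 c (x * d)⟩
          map_add' := fun a b => rfl
          map_smul' := fun r a => rfl }
      map_one' := by
        ext f x
        simp
      map_mul' := by
        intro a b
        ext f x
        simp [mul_assoc] }
  have hact : ∀ (d : Δ) (f : V) (x : Δ), (act d f).1 x = f.1 (x * d) := fun _ _ _ => rfl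
  let b := Module.finBasis ℂ V
  let ϱ₁ : Δ →* Matrix (Fin (Module.finrank ℂ V)) (Fin (Module.finrank ℂ V)) ℂ :=
    ((LinearMap.toMatrixAlgEquiv b).toMulEquiv.toMonoidHom).comp act
  refine ⟨Module.finrank ℂ V, ϱ₁.toHomUnits, ?_, ?_⟩
  · intro x hx
    have h1 : act x = (lam ⟨x, hx⟩ : ℂ) • 1 := by
      ext f y
      rw [hact]
      have h2 : y * x = x * y := (mem_center_iff.1 (hK hx) y)
      rw [h2]
      exact f.2 ⟨x, hx⟩ y
    have h2 : ϱ₁ x = (lam ⟨x, hx⟩ : ℂ) • 1 := by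
      show LinearMap.toMatrixAlgEquiv b (act x) = _
      rw [h1, map_smul, map_one]
    rw [mem_center_iff]
    intro g
    apply Units.ext
    show g.val * ϱ₁ x = ϱ₁ x * g.val
    rw [h2]
    simp
  · intro h1
    have h2 : ϱ₁ k = 1 := by
      have := congrArg Units.val h1
      exact this
    have h3 : act k = 1 := by
      have h4 : LinearMap.toMatrixAlgEquiv b (act k) = LinearMap.toMatrixAlgEquiv b 1 := by
        rw [map_one]
        exact h2
      exact (LinearMap.toMatrixAlgEquiv b).injective h4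
    -- the test function
    let f₀ : Δ → ℂ := fun d => if h : d ∈ K then ((lam ⟨d, h⟩ : ℂˣ) : ℂ) else 0
    have hf₀ : f₀ ∈ V := by
      intro c x
      by_cases hx : x ∈ K
      · have hcx : (c : Δ) * x ∈ K := K.mul_mem c.2 hx
        simp only [f₀, dif_pos hx, dif_pos hcx]
        have h5 : (⟨(c : Δ) * x, hcx⟩ : K) = c * ⟨x, hx⟩ := rfl
        rw [h5, map_mul]
        rfl
      · have hcx : (c : Δ) * x ∉ K := fun h => hx (by
          have h6 : x = (c : Δ)⁻¹ * ((c : Δ) * x) := by group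
          rw [h6]
          exact K.mul_mem (K.inv_mem c.2) h)
        simp only [f₀, dif_neg hx, dif_neg hcx, mul_zero]
    have h7 := congrArg (fun A : Module.End ℂ V => (A ⟨f₀, hf₀⟩).1 1) h3
    have h8 : f₀ (1 * k) = f₀ 1 := h7
    have h9 : f₀ (1 * k) = (lam ⟨k, hk⟩ : ℂ) * f₀ 1 := by
      rw [one_mul]
      have h := (hVmem f₀).1 hf₀ ⟨k, hk⟩ 1
      simpa only [mul_one] using h
    have h10 : f₀ 1 = 1 := by
      simp only [f₀, dif_pos (K.one_mem)]
      have h11 : (⟨1, K.one_mem⟩ : K) = 1 := rfl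
      rw [h11, map_one]
      rfl
    rw [h8, h10, mul_one] at h9
    apply hlam
    apply Units.ext
    exact h9.symm

/-- The lifting property forces the multiplier bound. -/
theorem proj_bound {Q : Type u} [Group Q] [Finite Q] {Γ : Type v} [Group Γ] [Finite Γ] (σ : Γ →* Q)
    (hσ : Cfsg.IsStemExtension σ)
    (hlift : ∀ (n : ℕ) (γ : Q →* (GL (Fin n) ℂ ⧸ center (GL (Fin n) ℂ))),
      ∃ ρ : Γ →* GL (Fin n) ℂ, (QuotientGroup.mk' (center (GL (Fin n) ℂ))).comp ρ = γ.comp σ)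
    (Δ : Type u) [Group Δ] [Finite Δ] (τ : Δ →* Q) (hτ : Cfsg.IsStemExtension τ) :
    ∃ π : σ.ker →* τ.ker, Function.Surjective π := by
  classical
  obtain ⟨ψ, hψ, π₁, hπ₁, hπ₁2⟩ := stem_image (fQ Q) (fQ_surj Q) σ hσ.1 hσ.2.1
  obtain ⟨φ, hφ, π₂, hπ₂, hπ₂2⟩ := stem_image (fQ Q) (fQ_surj Q) τ hτ.1 hτ.2.1
  have hσp : ∀ x, σ (ψ x) = pE (fQ Q) x := pE_eq _ σ ψ hψ
  have hτp : ∀ x, τ (φ x) = pE (fQ Q) x := pE_eq _ τ φ hφ
  have hclaim : ∀ c : Mb (fQ Q), ψ c = 1 → φ c = 1 := by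
    intro c hc
    by_contra hne
    have hkK : φ c ∈ τ.ker := by
      show τ (φ c) = 1
      rw [hτp]
      exact Mb_le_ker _ c.2
    obtain ⟨N, ϱ, hϱc, hϱk⟩ := exists_scalar_rep τ.ker hτ.2.1 (φ c) hkK hne
    letI := centerCommGroup (GL (Fin N) ℂ)
    have hle' : τ.ker ≤ ((QuotientGroup.mk' (center (GL (Fin N) ℂ))).comp ϱ).ker := by
      intro x hx
      show QuotientGroup.mk' (center (GL (Fin N) ℂ)) (ϱ x) = 1
      exact (QuotientGroup.eq_one_iff _).2 (hϱc x hx)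
    let γ : Q →* (GL (Fin N) ℂ ⧸ center (GL (Fin N) ℂ)) :=
      (MonoidHom.liftOfSurjective τ hτ.1) ⟨_, hle'⟩
    have hγ : ∀ d, γ (τ d) = QuotientGroup.mk' (center (GL (Fin N) ℂ)) (ϱ d) :=
      fun d => MonoidHom.liftOfRightInverse_comp_apply _ _ _ _ _
    obtain ⟨ρ, hρ⟩ := hlift N γ
    have hρ' : ∀ g, QuotientGroup.mk' (center (GL (Fin N) ℂ)) (ρ g) = γ (σ g) :=
      fun g => DFunLike.congr_fun hρ g
    have hcen : ∀ x, ρ (ψ x) * (ϱ (φ x))⁻¹ ∈ center (GL (Fin N) ℂ) := by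
      intro x
      apply (QuotientGroup.eq_one_iff _).1
      show QuotientGroup.mk' (center (GL (Fin N) ℂ)) _ = 1
      rw [map_mul, map_inv, hρ', hσp, ← hτp, hγ]
      group
    let μ : EE (fQ Q) →* center (GL (Fin N) ℂ) :=
      MonoidHom.mk' (fun x => ⟨ρ (ψ x) * (ϱ (φ x))⁻¹, hcen x⟩) (by
        intro a b
        apply Subtype.ext
        show ρ (ψ (a * b)) * (ϱ (φ (a * b)))⁻¹ = (ρ (ψ a) * (ϱ (φ a))⁻¹) * (ρ (ψ b) * (ϱ (φ b))⁻¹)
        rw [map_mul, map_mul, map_mul, map_mul]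
        have hb := mem_center_iff.1 (hcen b) (ϱ (φ a))⁻¹
        calc ρ (ψ a) * ρ (ψ b) * (ϱ (φ a) * ϱ (φ b))⁻¹
            = ρ (ψ a) * ((ρ (ψ b) * (ϱ (φ b))⁻¹) * (ϱ (φ a))⁻¹) := by group
          _ = ρ (ψ a) * ((ϱ (φ a))⁻¹ * (ρ (ψ b) * (ϱ (φ b))⁻¹)) := by rw [hb]
          _ = _ := by group)
    have hμc : μ (c : EE (fQ Q)) = 1 :=
      Abelianization.commutator_subset_ker μ (Mb_le_commutator _ c.2)
    have h1 : ρ (ψ c) * (ϱ (φ c))⁻¹ = 1 := congrArg Subtype.val hμc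
    rw [hc, map_one, one_mul, inv_eq_one] at h1
    exact hϱk h1
  -- the maps
  let r₁ : Mb (fQ Q) →* σ.ker :=
    MonoidHom.codRestrict ((commutator Γ ⊓ σ.ker).subtype.comp π₁) σ.ker (fun m => (π₁ m).2.2)
  let r₂ : Mb (fQ Q) →* τ.ker :=
    MonoidHom.codRestrict ((commutator Δ ⊓ τ.ker).subtype.comp π₂) τ.ker (fun m => (π₂ m).2.2)
  have hr₁ : Function.Surjective r₁ := by
    intro y
    obtain ⟨m, hm⟩ := hπ₁ ⟨y.1, hσ.2.2 y.2, y.2⟩
    exact ⟨m, Subtype.ext (congrArg (fun z : ↥(commutator Γ ⊓ σ.ker) => (z : Γ)) hm)⟩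
  have hr₂ : Function.Surjective r₂ := by
    intro y
    obtain ⟨m, hm⟩ := hπ₂ ⟨y.1, hτ.2.2 y.2, y.2⟩
    exact ⟨m, Subtype.ext (congrArg (fun z : ↥(commutator Δ ⊓ τ.ker) => (z : Δ)) hm)⟩
  have hle : r₁.ker ≤ r₂.ker := by
    intro m hm
    have h1 : ψ m = 1 := by
      rw [← hπ₁2]
      exact congrArg Subtype.val hm
    have h2 := hclaim m h1
    apply Subtype.ext
    show ((π₂ m).1 : Δ) = 1
    rw [hπ₂2]
    exact h2
  refine ⟨(MonoidHom.liftOfSurjective r₁ hr₁) ⟨r₂, hle⟩, ?_⟩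
  intro y
  obtain ⟨m, rfl⟩ := hr₂ y
  exact ⟨r₁ m, MonoidHom.liftOfRightInverse_comp_apply _ _ _ _ _⟩

end CfsgLib.FGS.Schur
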