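import Cfsg.Agent.Lib.FGS.SchurUniq

/-!
The number of generators of the multiplier.
-/

set_option autoImplicit false

namespace CfsgLib.FGS.Schur

open Subgroup
open scoped commutatorElement Pointwise

universe u v w

theorem module_rank_lemma {R : Type*} [CommRing R] [IsDomain R] [IsPrincipalIdealRing R]
    {ι : Type*} [Fintype ι] {Z W M : Type*} [AddCommGroup Z] [AddCommGroup W]
    [AddCommGroup M] [Module R Z] [Module R W] [Module R M] [Module.Free R W] [Module.Finite R W]
    (a : (ι →₀ R) →ₗ[R] Z) (ha : Function.Surjective a) (h : Z →ₗ[R] W) (i : M →ₗ[R] Z)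
    (hi : ∀ z, h z = 0 ↔ ∃ m, i m = z) (hinj : Function.Injective i)
    (htors : ∀ w : W, ∃ c : R, c ≠ 0 ∧ ∃ z, h z = c • w) :
    ∃ T : Finset M, T.card ≤ Fintype.card ι - Module.finrank R W ∧ Submodule.span R (T : Set M) = ⊤ := by
  classical
  let b : (ι →₀ R) →ₗ[R] W := h.comp a
  let K := LinearMap.ker b
  have hrange : LinearMap.range b = LinearMap.range h := by
    rw [LinearMap.range_comp, LinearMap.range_eq_top.2 ha, Submodule.map_top]
  -- the range has full rank
  have hq : Module.finrank R (W ⧸ LinearMap.range h) = 0 := by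
    apply Module.finrank_eq_zero_of_rank_eq_zero
    rw [rank_eq_zero_iff]
    intro x
    obtain ⟨w, rfl⟩ := Submodule.Quotient.mk_surjective _ x
    obtain ⟨c, hc, z, hz⟩ := htors w
    refine ⟨c, hc, ?_⟩
    rw [← Submodule.Quotient.mk_smul, ← hz, Submodule.Quotient.mk_eq_zero]
    exact ⟨z, rfl⟩
  have h1 := (LinearMap.range h).finrank_quotient_add_finrank
  rw [hq, zero_add] at h1
  have h2 := K.finrank_quotient_add_finrank
  have h3 : Module.finrank R ((ι →₀ R) ⧸ K) = Module.finrank R (LinearMap.range b) :=
    (LinearMap.quotKerEquivRange b).finrank_eq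
  rw [h3, hrange, h1, Module.finrank_finsupp_self] at h2
  have hKrank : Module.finrank R K = Fintype.card ι - Module.finrank R W := by omega
  haveI hKfin : Module.Finite R K := inferInstance
  haveI hKfree : Module.Free R K := by
    obtain ⟨n, ⟨bb⟩⟩ := Submodule.nonempty_basis_of_pid (Finsupp.basisSingleOne (R := R) (ι := ι)) K
    exact Module.Free.of_basis bb
  let B := Module.finBasis R K
  have hc₀ : ∀ j, ∃ m, i m = a (B j : ι →₀ R) := by
    intro j
    apply (hi _).1
    exact (B j).2
  choose c₀ hc₀ using hc₀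
  refine ⟨Finset.univ.image c₀, ?_, ?_⟩
  · refine Finset.card_image_le.trans ?_
    rw [Finset.card_univ, Fintype.card_fin, hKrank]
  · rw [eq_top_iff]
    intro m _
    obtain ⟨v, hv⟩ := ha (i m)
    have hvK : v ∈ K := by
      show h (a v) = 0
      rw [hv]
      exact (hi _).2 ⟨m, rfl⟩
    have h6 : v = ∑ j, B.repr ⟨v, hvK⟩ j • (B j : ι →₀ R) := by
      have h5 : ((∑ j, B.repr ⟨v, hvK⟩ j • B j : K) : ι →₀ R) = v := congrArg Subtype.val (B.sum_repr ⟨v, hvK⟩)
      simp only [Submodule.coe_sum, Submodule.coe_smul] at h5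
      exact h5.symm
    have h7 : i m = i (∑ j, B.repr ⟨v, hvK⟩ j • c₀ j) := by
      rw [← hv]
      conv_lhs => rw [h6]
      rw [map_sum, map_sum]
      refine Finset.sum_congr rfl (fun j _ => ?_)
      rw [map_smul, map_smul, hc₀]
    rw [hinj h7]
    refine Submodule.sum_mem _ (fun j _ => Submodule.smul_mem _ _ (Submodule.subset_span ?_))
    exact Finset.mem_coe.2 (Finset.mem_image_of_mem _ (Finset.mem_univ _))

/-- Generators for the multiplier from a finite presentation. -/
theorem rank_le_of_presentation (n : ℕ) (rels : Finset (FreeGroup (Fin n)))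
    [Finite (PresentedGroup (rels : Set (FreeGroup (Fin n))))] {A : Type*} [CommGroup A] [Finite A]
    (hA : Cfsg.HasSchurMultiplier (PresentedGroup (rels : Set (FreeGroup (Fin n)))) A) :
    Group.rank A ≤ rels.card - n := by
  classical
  let f : FreeGroup (Fin n) →* PresentedGroup (rels : Set (FreeGroup (Fin n))) := PresentedGroup.mk _
  have hf : Function.Surjective f := QuotientGroup.mk'_surjective _
  have hfk : ∀ r ∈ rels, f r = 1 := by
    intro r hr
    exact (QuotientGroup.eq_one_iff _).2 (Subgroup.subset_normalClosure hr)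
  letI := kerCG f
  obtain ⟨eA⟩ := mulEquiv_Mb f hf hA
  -- the vectors
  have hvmem : ∀ r : {r // r ∈ rels}, ((r : FreeGroup (Fin n)) : EE f) ∈ (pE f).ker := by
    intro r
    exact hfk r.1 r.2
  let v : {r // r ∈ rels} → Additive (pE f).ker := fun r => Additive.ofMul ⟨_, hvmem r⟩
  let a : ({r // r ∈ rels} →₀ ℤ) →ₗ[ℤ] Additive (pE f).ker := Finsupp.linearCombination ℤ v
  have ha : Function.Surjective a := by
    rw [← LinearMap.range_eq_top, Finsupp.range_linearCombination, eq_top_iff]
    intro x _
    -- the subgroup spanned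
    let S₁ : Subgroup (pE f).ker :=
      { carrier := {z | Additive.ofMul z ∈ Submodule.span ℤ (Set.range v)}
        mul_mem' := fun {a b} ha hb => by
          have ha' : Additive.ofMul a ∈ Submodule.span ℤ (Set.range v) := ha
          have hb' : Additive.ofMul b ∈ Submodule.span ℤ (Set.range v) := hb
          show Additive.ofMul (a * b) ∈ Submodule.span ℤ (Set.range v)
          rw [ofMul_mul]
          exact Submodule.add_mem _ ha' hb'
        one_mem' := by
          show Additive.ofMul (1 : (pE f).ker) ∈ Submodule.span ℤ (Set.range v)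
          rw [ofMul_one]
          exact Submodule.zero_mem _
        inv_mem' := fun {a} ha => by
          have ha' : Additive.ofMul a ∈ Submodule.span ℤ (Set.range v) := ha
          show Additive.ofMul a⁻¹ ∈ Submodule.span ℤ (Set.range v)
          rw [ofMul_inv]
          exact Submodule.neg_mem _ ha' }
    let C₁ : Subgroup (EE f) := S₁.map (pE f).ker.subtype
    let H : Subgroup (FreeGroup (Fin n)) := C₁.comap (QuotientGroup.mk' (relComm f))
    have hC₁ : C₁ ≤ (pE f).ker := by
      rintro _ ⟨z, _, rfl⟩
      exact z.2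
    haveI hHn : H.Normal := by
      constructor
      intro w hw g
      show ((g * w * g⁻¹ : FreeGroup (Fin n)) : EE f) ∈ C₁
      have h1 := mem_center_iff.1 (ker_pE_central f (hC₁ hw)) (g : EE f)
      rw [QuotientGroup.mk_mul, QuotientGroup.mk_mul, QuotientGroup.mk_inv]
      have h2 : (g : EE f) * (w : EE f) = (w : EE f) * (g : EE f) := h1
      rw [h2]
      have h3 : (w : EE f) ∈ C₁ := hw
      simpa using h3
    have hle : Subgroup.normalClosure (rels : Set (FreeGroup (Fin n))) ≤ H := by
      apply Subgroup.normalClosure_le_normal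
      intro r hr
      refine ⟨⟨_, hvmem ⟨r, Finset.mem_coe.1 hr⟩⟩, ?_, rfl⟩
      show Additive.ofMul _ ∈ Submodule.span ℤ (Set.range v)
      exact Submodule.subset_span ⟨⟨r, Finset.mem_coe.1 hr⟩, rfl⟩
    obtain ⟨w, hw⟩ := QuotientGroup.mk_surjective (Additive.toMul x : (pE f).ker).1
    have hwN : w ∈ Subgroup.normalClosure (rels : Set (FreeGroup (Fin n))) := by
      have h1 : f w = 1 := by
        have h2 := (Additive.toMul x : (pE f).ker).2
        rw [← hw] at h2
        exact h2
      exact (QuotientGroup.eq_one_iff _).1 h1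
    obtain ⟨z, hz, hzw⟩ := hle hwN
    have h3 : z = Additive.toMul x := Subtype.ext (hzw.trans hw)
    rw [h3] at hz
    exact hz
  -- the module `W`
  let eW : Additive (Abelianization (FreeGroup (Fin n))) ≃ₗ[ℤ] (Fin n →₀ ℤ) :=
    (FreeAbelianGroup.equivFinsupp (Fin n)).toIntLinearEquiv
  haveI hWfree : Module.Free ℤ (Additive (Abelianization (FreeGroup (Fin n)))) := Module.Free.of_equiv eW.symm
  haveI hWfin : Module.Finite ℤ (Additive (Abelianization (FreeGroup (Fin n)))) := Module.Finite.equiv eW.symm
  have hWrank : Module.finrank ℤ (Additive (Abelianization (FreeGroup (Fin n)))) = n := by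
    rw [eW.finrank_eq, Module.finrank_finsupp_self, Fintype.card_fin]
  let h₀ : (pE f).ker →* Abelianization (FreeGroup (Fin n)) := (abE f).comp (pE f).ker.subtype
  let h : Additive (pE f).ker →ₗ[ℤ] Additive (Abelianization (FreeGroup (Fin n))) :=
    (MonoidHom.toAdditive h₀).toIntLinearMap
  let i₀ : Mb f →* (pE f).ker := Subgroup.inclusion (Mb_le_ker f)
  let i : Additive (Mb f) →ₗ[ℤ] Additive (pE f).ker := (MonoidHom.toAdditive i₀).toIntLinearMap
  have hi : ∀ z, h z = 0 ↔ ∃ m, i m = z := by
    intro z
    constructor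
    · intro hz
      have h1 : abE f (Additive.toMul z : (pE f).ker).1 = 1 := hz
      have h2 : (Additive.toMul z : (pE f).ker).1 ∈ commutator (EE f) := by
        rw [← ker_abE]
        exact h1
      exact ⟨Additive.ofMul ⟨_, h2, (Additive.toMul z : (pE f).ker).2⟩, rfl⟩
    · rintro ⟨m, rfl⟩
      have h1 : (Additive.toMul m : Mb f).1 ∈ (abE f).ker := by
        rw [ker_abE]
        exact Mb_le_commutator f (Additive.toMul m : Mb f).2
      exact h1
  have hinj : Function.Injective i := by
    intro x y hxy
    have h1 : (Additive.toMul x : Mb f).1 = (Additive.toMul y : Mb f).1 :=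
      congrArg (fun z : Additive (pE f).ker => (Additive.toMul z : (pE f).ker).1) hxy
    exact Additive.toMul.injective (Subtype.ext h1)
  have htors : ∀ w : Additive (Abelianization (FreeGroup (Fin n))), ∃ c : ℤ, c ≠ 0 ∧ ∃ z, h z = c • w := by
    intro w
    obtain ⟨u, hu⟩ := of_surj _ (Additive.toMul w)
    have hcard : Nat.card (PresentedGroup (rels : Set (FreeGroup (Fin n)))) ≠ 0 := Nat.card_pos.ne'
    refine ⟨(Nat.card (PresentedGroup (rels : Set (FreeGroup (Fin n)))) : ℤ), by exact_mod_cast hcard, ?_⟩
    have hm : (((u ^ Nat.card (PresentedGroup (rels : Set (FreeGroup (Fin n)))) : FreeGroup (Fin n))) : EE f) ∈ (pE f).ker := by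
      show f (u ^ _) = 1
      rw [map_pow]
      exact pow_card_eq_one'
    refine ⟨Additive.ofMul ⟨_, hm⟩, ?_⟩
    rw [natCast_zsmul]
    show Additive.ofMul (Abelianization.of (u ^ _)) = _
    rw [map_pow, hu, ofMul_pow]
    rfl
  obtain ⟨T, hTcard, hTspan⟩ := module_rank_lemma a ha h i hi hinj htors
  rw [hWrank] at hTcard
  have hιcard : Fintype.card {r // r ∈ rels} = rels.card := Fintype.card_coe rels
  rw [hιcard] at hTcard
  -- transfer to `A`
  let S : Finset A := T.image (fun t => eA.symm (Additive.toMul t))
  have hS : Subgroup.closure (S : Set A) = ⊤ := by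
    rw [eq_top_iff]
    intro x _
    have h1 : Additive.ofMul (eA x) ∈ Submodule.span ℤ (T : Set (Additive (Mb f))) := by
      rw [hTspan]; trivial
    have h2 : ∀ t ∈ Submodule.span ℤ (T : Set (Additive (Mb f))), eA.symm (Additive.toMul t) ∈ Subgroup.closure (S : Set A) := by
      intro t ht
      induction ht using Submodule.span_induction with
      | mem t ht =>
        exact Subgroup.subset_closure (Finset.mem_coe.2 (Finset.mem_image_of_mem _ (Finset.mem_coe.1 ht)))
      | zero =>
        have : eA.symm (Additive.toMul (0 : Additive (Mb f))) = 1 := map_one eA.symm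
        rw [this]
        exact Subgroup.one_mem _
      | add a b _ _ ha hb =>
        have : eA.symm (Additive.toMul (a + b)) = eA.symm (Additive.toMul a) * eA.symm (Additive.toMul b) := map_mul eA.symm _ _
        rw [this]
        exact Subgroup.mul_mem _ ha hb
      | smul c a _ ha =>
        have : eA.symm (Additive.toMul (c • a)) = (eA.symm (Additive.toMul a)) ^ c := map_zpow eA.symm _ _
        rw [this]
        exact Subgroup.zpow_mem _ ha _
    have h3 := h2 _ h1
    have h4 : eA.symm (Additive.toMul (Additive.ofMul (eA x))) = x := eA.symm_apply_apply x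
    rwa [h4] at h3
  exact (Group.rank_le hS).trans (Finset.card_image_le.trans hTcard)

end CfsgLib.FGS.Schur
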