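import Cfsg.Agent.Lib.FGS.SchurProd

/-!
The transfer on the multiplier.
-/

set_option autoImplicit false

namespace CfsgLib.FGS.Schur

open Subgroup
open scoped commutatorElement Pointwise

universe u v w

/-- The transfer at an element of a normal subgroup contained in the subgroup. -/
theorem transfer_normal {G : Type*} [Group G] {H : Subgroup G} [H.FiniteIndex] {A : Type*} [CommGroup A]
    (ϕ : H →* A) [hF : Fintype (G ⧸ H)] (N : Subgroup G) [hN : N.Normal] (hNH : N ≤ H) (n : G) (hn : n ∈ N)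
    (hmem : ∀ q : G ⧸ H, q.out⁻¹ * n * q.out ∈ H) :
    MonoidHom.transfer ϕ n = ∏ q : G ⧸ H, ϕ ⟨q.out⁻¹ * n * q.out, hmem q⟩ := by
  classical
  have hinst : hF = H.fintypeQuotientOfFiniteIndex := Subsingleton.elim _ _
  subst hinst
  rw [MonoidHom.transfer_def ϕ (default : H.LeftTransversal) n]
  refine Finset.prod_congr rfl (fun q _ => ?_)
  congr 1
  apply Subtype.ext
  show (((default : H.LeftTransversal).2.leftQuotientEquiv q : G))⁻¹ *
      ((n • (default : H.LeftTransversal)).2.leftQuotientEquiv q : G) = q.out⁻¹ * n * q.out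
  have h1 : ((default : H.LeftTransversal).2.leftQuotientEquiv q : G) = q.out :=
    Subgroup.IsComplement.leftQuotientEquiv_apply (f := Quotient.out) Quotient.out_eq' q
  have h2 : ((n • (default : H.LeftTransversal)).2.leftQuotientEquiv q : G) =
      n * ((default : H.LeftTransversal).2.leftQuotientEquiv (n⁻¹ • q) : G) := by
    have := Subgroup.smul_apply_eq_smul_apply_inv_smul n (default : H.LeftTransversal) q
    simpa using this
  have h3 : n⁻¹ • q = q := by
    obtain ⟨u, rfl⟩ := QuotientGroup.mk_surjective q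
    show ((n⁻¹ * u : G) : G ⧸ H) = u
    apply QuotientGroup.eq.2
    have h4 : (n⁻¹ * u)⁻¹ * u = u⁻¹ * n * (u⁻¹)⁻¹ := by group
    rw [h4]
    exact hNH (hN.conj_mem n hn u⁻¹)
  rw [h1, h2, h3, h1]
  group

section Transfer

variable {F : Type u} [Group F] {Q : Type v} [Group Q] (f : F →* Q) (U : Subgroup Q)

/-- The restriction of `f` to the preimage of `U`. -/
def fU : U.comap f →* U :=
  MonoidHom.codRestrict (f.comp (U.comap f).subtype) U (fun x => x.2)

theorem fU_surj (hf : Function.Surjective f) : Function.Surjective (fU f U) := by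
  intro u
  obtain ⟨w, hw⟩ := hf u
  refine ⟨⟨w, ?_⟩, Subtype.ext hw⟩
  show f w ∈ U
  rw [hw]
  exact u.2

theorem mem_ker_fU (x : U.comap f) : x ∈ (fU f U).ker ↔ (x : F) ∈ f.ker := by
  constructor
  · intro h
    exact congrArg Subtype.val h
  · intro h
    exact Subtype.ext h

/-- The kernel of `pE` is commutative. -/
@[reducible] noncomputable def kerCG (g : F →* Q) : CommGroup (pE g).ker :=
  { (inferInstance : Group (pE g).ker) with
    mul_comm := fun a b => Subtype.ext (by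
      have h := mem_center_iff.1 (ker_pE_central g a.2) (b : EE g)
      exact h.symm) }

/-- The natural map on `F / [F, N]`. -/
noncomputable def nuE : EE (fU f U) →* EE f :=
  QuotientGroup.map _ _ (U.comap f).subtype (by
    unfold relComm
    rw [Subgroup.commutator_le]
    intro a _ b hb
    show (⁅(a : F), (b : F)⁆ : F) ∈ ⁅(⊤ : Subgroup F), f.ker⁆
    exact Subgroup.commutator_mem_commutator (mem_top _) ((mem_ker_fU f U b).1 hb))

theorem nuE_mk (x : U.comap f) : nuE f U (x : EE (fU f U)) = ((x : F) : EE f) := rfl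

theorem pE_nuE (x : EE (fU f U)) : pE f (nuE f U x) = (pE (fU f U) x : Q) := by
  obtain ⟨w, rfl⟩ := QuotientGroup.mk_surjective x
  rfl

/-- The natural map on kernels. -/
noncomputable def nuZ : (pE (fU f U)).ker →* (pE f).ker :=
  MonoidHom.codRestrict ((nuE f U).comp (pE (fU f U)).ker.subtype) _ (fun x => by
    show pE f (nuE f U x.1) = 1
    rw [pE_nuE, show pE (fU f U) x.1 = 1 from x.2]
    rfl)

/-- The conjugate of a relator into the subgroup. -/
noncomputable def yy (n : f.ker) (q : F ⧸ U.comap f) : U.comap f :=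
  ⟨q.out⁻¹ * n * q.out, by
    show f (q.out⁻¹ * n * q.out) ∈ U
    rw [map_mul, map_mul, show f (n : F) = 1 from n.2, mul_one, map_inv, inv_mul_cancel]
    exact U.one_mem⟩

theorem yy_ker (n : f.ker) (q : F ⧸ U.comap f) : yy f U n q ∈ (fU f U).ker := by
  rw [mem_ker_fU]
  show f (q.out⁻¹ * n * q.out) = 1
  rw [map_mul, map_mul, show f (n : F) = 1 from n.2, mul_one, map_inv, inv_mul_cancel]

/-- The value of a summand. -/
noncomputable def vv (n : f.ker) (q : F ⧸ U.comap f) : (pE (fU f U)).ker :=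
  ⟨(yy f U n q : EE (fU f U)), by
    show (fU f U (yy f U n q)) = 1
    exact yy_ker f U n q⟩

theorem vv_mul (a b : f.ker) (q : F ⧸ U.comap f) : vv f U (a * b) q = vv f U a q * vv f U b q := by
  apply Subtype.ext
  show ((yy f U (a * b) q : U.comap f) : EE (fU f U)) = ((yy f U a q * yy f U b q : U.comap f) : EE (fU f U))
  congr 1
  apply Subtype.ext
  show q.out⁻¹ * ((a : F) * b) * q.out = (q.out⁻¹ * a * q.out) * (q.out⁻¹ * b * q.out)
  group

variable [hfi : (U.comap f).FiniteIndex]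

/-- The transfer on relators. -/
noncomputable def Tz : f.ker →* (pE (fU f U)).ker :=
  letI := kerCG (fU f U)
  letI := (U.comap f).fintypeQuotientOfFiniteIndex
  MonoidHom.mk' (fun n => ∏ q : F ⧸ U.comap f, vv f U n q) (by
    intro a b
    rw [← Finset.prod_mul_distrib]
    exact Finset.prod_congr rfl (fun q _ => vv_mul f U a b q))

theorem map_Tz {C : Type*} [CommGroup C] (ψ : (pE (fU f U)).ker →* C) (n : f.ker) :
    ψ (Tz f U n) =
      letI := (U.comap f).fintypeQuotientOfFiniteIndex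
      ∏ q : F ⧸ U.comap f, ψ (vv f U n q) := by
  letI := kerCG (fU f U)
  letI := (U.comap f).fintypeQuotientOfFiniteIndex
  show ψ (∏ q : F ⧸ U.comap f, vv f U n q) = _
  rw [map_prod]

theorem Tz_conj (x : F) (n : f.ker) (hm : x * n * x⁻¹ ∈ f.ker) :
    Tz f U ⟨x * n * x⁻¹, hm⟩ = Tz f U n := by
  letI := kerCG (fU f U)
  letI := (U.comap f).fintypeQuotientOfFiniteIndex
  show ∏ q : F ⧸ U.comap f, vv f U ⟨x * n * x⁻¹, hm⟩ q = ∏ q : F ⧸ U.comap f, vv f U n q
  refine Fintype.prod_equiv (MulAction.toPerm x⁻¹) _ _ (fun q => ?_)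
  apply Subtype.ext
  show ((yy f U ⟨x * n * x⁻¹, hm⟩ q : U.comap f) : EE (fU f U)) = ((yy f U n (x⁻¹ • q) : U.comap f) : EE (fU f U))
  have hq : (((x⁻¹ • q).out : F) : F ⧸ U.comap f) = ((x⁻¹ * q.out : F) : F ⧸ U.comap f) := by
    rw [QuotientGroup.out_eq']
    conv_lhs => rw [← QuotientGroup.out_eq' q]
    rfl
  have hr : ((x⁻¹ • q).out)⁻¹ * (x⁻¹ * q.out) ∈ U.comap f := QuotientGroup.eq.1 hq
  have h1 : yy f U ⟨x * n * x⁻¹, hm⟩ q =
      (⟨_, hr⟩ : U.comap f)⁻¹ * yy f U n (x⁻¹ • q) * (⟨_, hr⟩ : U.comap f) := by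
    apply Subtype.ext
    show q.out⁻¹ * (x * n * x⁻¹) * q.out =
      (((x⁻¹ • q).out)⁻¹ * (x⁻¹ * q.out))⁻¹ * (((x⁻¹ • q).out)⁻¹ * n * (x⁻¹ • q).out) *
        (((x⁻¹ • q).out)⁻¹ * (x⁻¹ * q.out))
    group
  rw [h1, QuotientGroup.mk_mul, QuotientGroup.mk_mul, QuotientGroup.mk_inv]
  have hc := mem_center_iff.1 (ker_pE_central (fU f U) (vv f U n (x⁻¹ • q)).2)
    (((⟨_, hr⟩ : U.comap f) : EE (fU f U)))
  have hc2 : ((⟨_, hr⟩ : U.comap f) : EE (fU f U)) * ((yy f U n (x⁻¹ • q) : U.comap f) : EE (fU f U)) =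
      ((yy f U n (x⁻¹ • q) : U.comap f) : EE (fU f U)) * ((⟨_, hr⟩ : U.comap f) : EE (fU f U)) := hc
  rw [mul_assoc, ← hc2]
  group

theorem Tz_relComm (n : f.ker) (hn : (n : F) ∈ relComm f) : Tz f U n = 1 := by
  have hle : relComm f ≤ (Tz f U).ker.map f.ker.subtype := by
    unfold relComm
    rw [Subgroup.commutator_le]
    intro a _ b hb
    have hm : a * b * a⁻¹ ∈ f.ker := (inferInstance : f.ker.Normal).conj_mem b hb a
    have hm2 : ⁅a, b⁆ ∈ f.ker := Subgroup.mul_mem _ hm (Subgroup.inv_mem _ hb)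
    refine ⟨⟨⁅a, b⁆, hm2⟩, ?_, rfl⟩
    show Tz f U ⟨⁅a, b⁆, hm2⟩ = 1
    have h : (⟨⁅a, b⁆, hm2⟩ : f.ker) = ⟨a * b * a⁻¹, hm⟩ * (⟨b, hb⟩ : f.ker)⁻¹ := rfl
    rw [h, map_mul, map_inv, Tz_conj f U a ⟨b, hb⟩ hm, mul_inv_cancel]
  obtain ⟨m, hm, hmn⟩ := hle hn
  have h1 : m = n := Subtype.ext hmn
  rw [← h1]
  exact hm

/-- The map from relators to the kernel of `pE`. -/
noncomputable def gK : f.ker →* (pE f).ker :=
  MonoidHom.codRestrict ((QuotientGroup.mk' (relComm f)).comp f.ker.subtype) _ (fun n => n.2)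

theorem gK_surj : Function.Surjective (gK f) := by
  intro x
  obtain ⟨w, hw⟩ := QuotientGroup.mk_surjective x.1
  have h1 : w ∈ f.ker := by
    have := x.2
    rw [← hw] at this
    exact this
  exact ⟨⟨w, h1⟩, Subtype.ext hw⟩

theorem exists_T1 : ∃ T₁ : (pE f).ker →* (pE (fU f U)).ker, ∀ n, T₁ (gK f n) = Tz f U n := by
  have hle : (gK f).ker ≤ (Tz f U).ker := by
    intro n hn
    apply Tz_relComm
    have h1 : ((n : F) : EE f) = 1 := congrArg Subtype.val hn
    exact (QuotientGroup.eq_one_iff _).1 h1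
  refine ⟨(MonoidHom.liftOfSurjective (gK f) (gK_surj f)) ⟨Tz f U, hle⟩, fun n => ?_⟩
  exact MonoidHom.liftOfRightInverse_comp_apply _ _ _ _ _

theorem nuZ_Tz (n : f.ker) :
    nuZ f U (Tz f U n) = (gK f n) ^ (U.comap f).index := by
  letI := kerCG f
  letI := (U.comap f).fintypeQuotientOfFiniteIndex
  rw [map_Tz]
  have h1 : ∀ q : F ⧸ U.comap f, nuZ f U (vv f U n q) = gK f n := by
    intro q
    apply Subtype.ext
    show ((q.out⁻¹ * n * q.out : F) : EE f) = ((n : F) : EE f)
    rw [QuotientGroup.mk_mul, QuotientGroup.mk_mul, QuotientGroup.mk_inv]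
    have hc := mem_center_iff.1 (ker_pE_central f (gK f n).2) ((q.out : F) : EE f)
    have hc2 : ((q.out : F) : EE f) * ((n : F) : EE f) = ((n : F) : EE f) * ((q.out : F) : EE f) := hc
    rw [mul_assoc, ← hc2]
    group
  show ∏ q : F ⧸ U.comap f, nuZ f U (vv f U n q) = _
  rw [Finset.prod_congr rfl (fun q _ => h1 q), Finset.prod_const, Finset.card_univ,
    Subgroup.index_eq_card, Nat.card_eq_fintype_card]

theorem Tz_comm (n : f.ker) (hn : (n : F) ∈ commutator F) :
    ((Tz f U n).1 : EE (fU f U)) ∈ commutator (EE (fU f U)) := by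
  letI := (U.comap f).fintypeQuotientOfFiniteIndex
  let ϕ : U.comap f →* Abelianization (EE (fU f U)) :=
    Abelianization.of.comp (QuotientGroup.mk' (relComm (fU f U)))
  have h1 : MonoidHom.transfer ϕ (n : F) = 1 := Abelianization.commutator_subset_ker (MonoidHom.transfer ϕ) hn
  have h2 := transfer_normal ϕ f.ker (fun x hx => by
    show f x ∈ U
    rw [show f x = 1 from hx]
    exact U.one_mem) (n : F) n.2 (fun q => (yy f U n q).2)
  let ψ : (pE (fU f U)).ker →* Abelianization (EE (fU f U)) :=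
    Abelianization.of.comp (pE (fU f U)).ker.subtype
  have h3 := map_Tz f U ψ n
  have h4 : ψ (Tz f U n) = 1 := by
    rw [h3, ← h1, h2]
    rfl
  rw [← Abelianization.ker_of]
  exact h4

/-- The transfer and natural maps on multipliers. -/
theorem exists_T_nu (hf : Function.Surjective f) :
    ∃ (T : Mb f →* Mb (fU f U)) (ν : Mb (fU f U) →* Mb f), ∀ x, ν (T x) = x ^ (U.comap f).index := by
  obtain ⟨T₁, hT₁⟩ := exists_T1 f U
  have hval : ∀ x : Mb f, ∃ n : f.ker, gK f n = ⟨x.1, Mb_le_ker f x.2⟩ ∧ (n : F) ∈ commutator F := by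
    intro x
    have h1 : x.1 ∈ (commutator F).map (QuotientGroup.mk' (relComm f)) := by
      rw [map_commutator_of_surj _ (QuotientGroup.mk'_surjective _)]
      exact Mb_le_commutator f x.2
    obtain ⟨c, hc, hcx⟩ := h1
    have h2 : c ∈ f.ker := by
      have h3 : pE f x.1 = 1 := Mb_le_ker f x.2
      rw [← hcx] at h3
      exact h3
    exact ⟨⟨c, h2⟩, Subtype.ext hcx, hc⟩
  have hT₂ : ∀ x : Mb f, ((T₁ ⟨x.1, Mb_le_ker f x.2⟩).1 : EE (fU f U)) ∈ Mb (fU f U) := by
    intro x
    obtain ⟨n, hn, hnc⟩ := hval x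
    rw [← hn, hT₁]
    exact ⟨Tz_comm f U n hnc, (Tz f U n).2⟩
  let inc : Mb f →* (pE f).ker :=
    MonoidHom.codRestrict (Mb f).subtype _ (fun x => Mb_le_ker f x.2)
  refine ⟨MonoidHom.codRestrict ((pE (fU f U)).ker.subtype.comp (T₁.comp inc)) _ hT₂, ?_, ?_⟩
  · refine MonoidHom.codRestrict ((nuE f U).comp (Mb (fU f U)).subtype) _ (fun x => ?_)
    refine ⟨?_, ?_⟩
    · have h1 : x.1 ∈ commutator (EE (fU f U)) := Mb_le_commutator _ x.2
      have h2 : nuE f U x.1 ∈ (commutator (EE (fU f U))).map (nuE f U) := ⟨x.1, h1, rfl⟩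
      rw [_root_.commutator_def, Subgroup.map_commutator] at h2
      rw [_root_.commutator_def]
      exact Subgroup.commutator_mono le_top le_top h2
    · show pE f (nuE f U x.1) = 1
      rw [pE_nuE, show pE (fU f U) x.1 = 1 from Mb_le_ker _ x.2]
      rfl
  · intro x
    obtain ⟨n, hn, -⟩ := hval x
    apply Subtype.ext
    show nuE f U ((T₁ ⟨x.1, Mb_le_ker f x.2⟩).1) = x.1 ^ (U.comap f).index
    rw [← hn, hT₁]
    have h3 := nuZ_Tz f U n
    have h4 := congrArg Subtype.val h3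
    have h5 : (gK f n).1 = x.1 := congrArg Subtype.val hn
    refine h4.trans ?_
    show ((gK f n).1) ^ (U.comap f).index = _
    rw [h5]

end Transfer

/-- Transfer and natural maps between the multipliers of a group and a subgroup. -/
theorem exists_T_nu_of {G : Type u} [Group G] [Finite G] (U : Subgroup G) {A B : Type*} [CommGroup A] [CommGroup B]
    (hA : Cfsg.HasSchurMultiplier G A) (hB : Cfsg.HasSchurMultiplier U B) :
    ∃ (T : A →* B) (ν : B →* A), ∀ a, ν (T a) = a ^ U.index := by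
  classical
  have hf := fQ_surj G
  haveI hfi : (U.comap (fQ G)).FiniteIndex :=
    ⟨by rw [Subgroup.index_comap_of_surjective _ hf]; exact U.index_ne_zero_of_finite⟩
  haveI : Group.FG (U.comap (fQ G)) := Subgroup.fg_of_index_ne_zero _
  haveI : IsFreeGroup (U.comap (fQ G)) := inferInstance
  obtain ⟨eA⟩ := mulEquiv_Mb (fQ G) hf hA
  obtain ⟨eB⟩ := mulEquiv_Mb (fU (fQ G) U) (fU_surj _ U hf) hB
  obtain ⟨T, ν, h⟩ := exists_T_nu (fQ G) U hf
  refine ⟨eB.symm.toMonoidHom.comp (T.comp eA.toMonoidHom), eA.symm.toMonoidHom.comp (ν.comp eB.toMonoidHom), ?_⟩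
  intro a
  show eA.symm (ν (eB (eB.symm (T (eA a))))) = a ^ U.index
  rw [eB.apply_symm_apply, h, Subgroup.index_comap_of_surjective _ hf, map_pow, eA.symm_apply_apply]

/-! ### Subquotients of finite abelian groups -/

/-- A quotient of a finite abelian group embeds in it. -/
theorem embed_of_surj {M Y : Type*} [CommGroup M] [CommGroup Y] [Finite M] (θ : M →* Y)
    (hθ : Function.Surjective θ) : ∃ C : Subgroup M, Nonempty (Y ≃* C) := by
  classical
  haveI : Finite Y := Finite.of_surjective θ hθ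
  haveI hM : HasEnoughRootsOfUnity ℂ (Monoid.exponent M) := inferInstance
  haveI hY : HasEnoughRootsOfUnity ℂ (Monoid.exponent Y) := inferInstance
  obtain ⟨E₁⟩ := CommGroup.monoidHom_mulEquiv_of_hasEnoughRootsOfUnity Y ℂ
  obtain ⟨E₂⟩ := CommGroup.monoidHom_mulEquiv_of_hasEnoughRootsOfUnity M ℂ
  -- the dual map
  let d : (Y →* ℂˣ) →* (M →* ℂˣ) :=
    { toFun := fun χ => χ.comp θ
      map_one' := rfl
      map_mul' := fun _ _ => rfl }
  have hd : Function.Injective d := by
    intro χ χ' h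
    ext y
    obtain ⟨m, rfl⟩ := hθ y
    exact congrArg (fun (k : M →* ℂˣ) => ((k m : ℂˣ) : ℂ)) h
  let j : Y →* M := E₂.toMonoidHom.comp (d.comp E₁.symm.toMonoidHom)
  have hj : Function.Injective j :=
    E₂.injective.comp (hd.comp E₁.symm.injective)
  exact ⟨j.range, ⟨MonoidHom.ofInjective hj⟩⟩

/-- A subquotient of a finite abelian group embeds in it. -/
theorem embed_of_subquotient {B X Y : Type*} [CommGroup B] [Group X] [CommGroup Y] [Finite B]
    (π : B →* X) (hπ : Function.Surjective π) (j : Y →* X) (hj : Function.Injective j) :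
    ∃ C : Subgroup B, Nonempty (Y ≃* C) := by
  classical
  let M : Subgroup B := j.range.comap π
  have hex : ∀ m : M, ∃ y, j y = π m := fun m => m.2
  let θ : M →* Y := MonoidHom.mk' (fun m => Classical.choose (hex m)) (by
    intro a b
    apply hj
    rw [map_mul, Classical.choose_spec (hex (a * b)), Classical.choose_spec (hex a),
      Classical.choose_spec (hex b)]
    rw [show ((a * b : M) : B) = (a : B) * b from rfl, map_mul])
  have hθ : Function.Surjective θ := by
    intro y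
    obtain ⟨b, hb⟩ := hπ (j y)
    refine ⟨⟨b, ⟨y, hb.symm⟩⟩, ?_⟩
    apply hj
    exact (Classical.choose_spec (hex ⟨b, ⟨y, hb.symm⟩⟩)).trans hb
  obtain ⟨C, ⟨e⟩⟩ := embed_of_surj θ hθ
  refine ⟨C.map M.subtype, ⟨e.trans (C.equivMapOfInjective _ M.subtype_injective)⟩⟩

/-- Splitting lemma. -/
theorem direct_factor {A B : Type*} [CommGroup A] [CommGroup B] [Finite A] (p : ℕ) [hp : Fact p.Prime]
    (T : A →* B) (ν : B →* A) (m : ℕ) (hm : Nat.Coprime m p) (h : ∀ a, ν (T a) = a ^ m) :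
    ∃ C D : Subgroup B, C ⊓ D = ⊥ ∧ C ⊔ D = ⊤ ∧ Nonempty (CommGroup.primaryComponent A p ≃* C) := by
  classical
  -- the arithmetic
  have hcpos : 0 < Nat.card A := Nat.card_pos
  obtain ⟨a, n', hn'cop, hcard⟩ : ∃ a n', Nat.Coprime (p ^ (a + 1)) n' ∧ Nat.card A ∣ p ^ (a + 1) * n' ∧ (∀ x : A, x ∈ CommGroup.primaryComponent A p → x ^ (p ^ (a + 1)) = 1) := by
    refine ⟨(Nat.card A).factorization p, ordCompl[p] (Nat.card A), ?_, ?_, ?_⟩
    · exact Nat.Coprime.pow_left _ (Nat.coprime_ordCompl hp.out hcpos.ne')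
    · conv_lhs => rw [← Nat.ordProj_mul_ordCompl_eq_self (Nat.card A) p]
      exact Nat.mul_dvd_mul (pow_dvd_pow _ (Nat.le_succ _)) dvd_rfl
    · intro x hx
      obtain ⟨i, hi⟩ := (CommMonoid.mem_primaryComponent_iff_orderOf).1 hx
      have h1 : p ^ i ∣ Nat.card A := by
        rw [← hi]
        exact orderOf_dvd_natCard x
      have h2 : i ≤ (Nat.card A).factorization p := (hp.out.pow_dvd_iff_le_factorization hcpos.ne').1 h1
      rw [← orderOf_dvd_iff_pow_eq_one, hi]
      exact pow_dvd_pow _ (by omega)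
  obtain ⟨hcard1, hcard2⟩ := hcard
  have hk : 1 < p ^ (a + 1) := Nat.one_lt_pow (by omega) hp.out.one_lt
  obtain ⟨w, hw⟩ := Nat.exists_mul_mod_eq_one_of_coprime (Nat.Coprime.pow_right _ hm) hk
  let v0 := Nat.chineseRemainder hn'cop w 0
  obtain ⟨v, hv1, hv2⟩ := v0
  have hdv : n' ∣ v := (Nat.modEq_zero_iff_dvd).1 hv2
  -- the retraction
  have hr' : ∀ x : A, x ^ v ∈ CommGroup.primaryComponent A p := by
    intro x
    refine (CommMonoid.mem_primaryComponent).2 ⟨a + 1, ?_⟩
    rw [← pow_mul]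
    apply (orderOf_dvd_iff_pow_eq_one).1
    refine (orderOf_dvd_natCard x).trans (hcard1.trans ?_)
    rw [mul_comm]
    exact Nat.mul_dvd_mul_right hdv _
  let r' : A →* CommGroup.primaryComponent A p :=
    MonoidHom.codRestrict (powMonoidHom v) _ hr'
  let s : CommGroup.primaryComponent A p →* B := T.comp (Subgroup.subtype _)
  let r : B →* CommGroup.primaryComponent A p := r'.comp ν
  have hrs : ∀ x, r (s x) = x := by
    intro x
    apply Subtype.ext
    show (ν (T x.1)) ^ v = x.1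
    rw [h, ← pow_mul]
    have h1 := hcard2 x.1 x.2
    have hmod : m * v ≡ 1 [MOD p ^ (a + 1)] := by
      have h2 : m * v ≡ m * w [MOD p ^ (a + 1)] := Nat.ModEq.mul_left _ hv1
      refine h2.trans ?_
      show (m * w) % _ = 1 % _
      rw [hw.2, Nat.mod_eq_of_lt hk]
    have h3 : orderOf x.1 ∣ p ^ (a + 1) := orderOf_dvd_of_pow_eq_one h1
    have h4 : m * v ≡ 1 [MOD orderOf x.1] := hmod.of_dvd h3
    have h5 := pow_eq_pow_iff_modEq.2 h4
    rw [h5, pow_one]
  have hinj : Function.Injective s := fun x y hxy => by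
    have := congrArg r hxy
    rwa [hrs, hrs] at this
  refine ⟨s.range, r.ker, ?_, ?_, ⟨MonoidHom.ofInjective hinj⟩⟩
  · rw [eq_bot_iff]
    rintro b ⟨⟨x, rfl⟩, hb⟩
    have h1 : r (s x) = 1 := hb
    rw [hrs] at h1
    rw [h1, map_one]
    exact Subgroup.one_mem _
  · rw [eq_top_iff]
    intro b _
    have h1 : b = s (r b) * ((s (r b))⁻¹ * b) := by group
    rw [h1]
    refine Subgroup.mul_mem_sup ⟨_, rfl⟩ ?_
    show r ((s (r b))⁻¹ * b) = 1
    rw [map_mul, map_inv, hrs]
    group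

end CfsgLib.FGS.Schur
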