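import Cfsg.Agent.Lib.FGS.SchurProj

/-!
Uniqueness of covering groups.
-/

set_option autoImplicit false

namespace CfsgLib.FGS.Schur

open Subgroup
open scoped commutatorElement Pointwise

universe u v w

/-- Extension of a homomorphism from a subgroup meeting the commutator subgroup trivially when the
index in the abelianization is invertible on the values. -/
theorem exists_ext_coprime {E C : Type*} [Group E] [CommGroup C] (d d' : ℕ) (L : Subgroup E)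
    (hL : L ⊓ commutator E = ⊥) (hd : ∀ x : E, ∃ l ∈ L, ∃ c ∈ commutator E, x ^ d = l * c)
    (lam : L →* C) (hdd : ∀ x : L, (lam x) ^ (d * d') = lam x) :
    ∃ μ : E →* C, ∀ x : L, μ x = lam x := by
  classical
  let j : L →* Abelianization E := Abelianization.of.comp L.subtype
  have hj : Function.Injective j := by
    rw [injective_iff_map_eq_one]
    intro x hx
    have h1 : (x : E) ∈ commutator E := by
      rw [← Abelianization.ker_of]
      exact hx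
    have h2 : (x : E) ∈ L ⊓ commutator E := ⟨x.2, h1⟩
    rw [hL] at h2
    exact Subtype.ext h2
  let e := MonoidHom.ofInjective hj
  let h : Abelianization E →* j.range := MonoidHom.codRestrict (powMonoidHom d) _ (by
    intro w
    obtain ⟨x, rfl⟩ := of_surj E w
    obtain ⟨l, hl, c, hc, hxd⟩ := hd x
    refine ⟨⟨l, hl⟩, ?_⟩
    show Abelianization.of l = (Abelianization.of x) ^ d
    have h0 : Abelianization.of c = 1 := by
      have : c ∈ (Abelianization.of : E →* Abelianization E).ker := by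
        rw [Abelianization.ker_of]; exact hc
      exact this
    rw [← map_pow, hxd, map_mul, h0, mul_one])
  let Θ : Abelianization E →* C :=
    (powMonoidHom d').comp (lam.comp (e.symm.toMonoidHom.comp h))
  refine ⟨Θ.comp Abelianization.of, fun x => ?_⟩
  have h1 : h (Abelianization.of (x : E)) = e (x ^ d) := by
    apply Subtype.ext
    show (Abelianization.of (x : E)) ^ d = Abelianization.of (((x ^ d : L)) : E)
    rw [← map_pow]
    rfl
  show (lam (e.symm (h (Abelianization.of (x : E))))) ^ d' = lam x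
  rw [h1, e.symm_apply_apply, map_pow, ← pow_mul, hdd]

/-- Data of a Schur cover in terms of the canonical presentation. -/
theorem cover_data {Q : Type u} [Group Q] [Finite Q] {A : Type*} [CommGroup A]
    (hA : Cfsg.HasSchurMultiplier Q A) {Γ : Type*} [Group Γ] [Finite Γ] (σ : Γ →* Q)
    (hσ : Cfsg.IsStemExtension σ) (hk : Nonempty (σ.ker ≃* A)) :
    ∃ ψ : EE (fQ Q) →* Γ, σ.comp ψ = pE (fQ Q) ∧ Function.Surjective ψ ∧
      ∃ ρ : (pE (fQ Q)).ker →* Mb (fQ Q), (∀ z : (pE (fQ Q)).ker, ψ (ρ z : EE (fQ Q)) = ψ z) ∧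
        ∀ m : Mb (fQ Q), ψ m = 1 → m = 1 := by
  classical
  obtain ⟨ψ, hψ, π, hπ, hπ2⟩ := stem_image (fQ Q) (fQ_surj Q) σ hσ.1 hσ.2.1
  have hψs : Function.Surjective ψ := lift_surjective _ σ hσ.2.1 ψ hψ (fQ_surj Q) hσ.2.2
  have hσp : ∀ x, σ (ψ x) = pE (fQ Q) x := pE_eq _ σ ψ hψ
  obtain ⟨e₁⟩ := hk
  obtain ⟨e₂⟩ := mulEquiv_Mb (fQ Q) (fQ_surj Q) hA
  have hk2 : ∀ y : σ.ker, (y : Γ) ∈ commutator Γ ⊓ σ.ker := fun y => ⟨hσ.2.2 y.2, y.2⟩
  let r : σ.ker →* ↥(commutator Γ ⊓ σ.ker) := MonoidHom.codRestrict σ.ker.subtype _ hk2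
  have hr : Function.Bijective r :=
    ⟨fun a b h => Subtype.ext (congrArg (fun y : ↥(commutator Γ ⊓ σ.ker) => (y : Γ)) h), fun y => ⟨⟨y, y.2.2⟩, rfl⟩⟩
  haveI : Finite (Mb (fQ Q)) := finite_Mb _ (fQ_surj Q)
  have hinj : Function.Bijective π := by
    have hcard : Nat.card (Mb (fQ Q)) = Nat.card ↥(commutator Γ ⊓ σ.ker) := by
      rw [← Nat.card_congr (MulEquiv.ofBijective r hr).toEquiv, Nat.card_congr e₁.toEquiv,
        Nat.card_congr e₂.toEquiv]
    exact ((Nat.bijective_iff_surjective_and_card π).2 ⟨hπ, hcard⟩)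
  let E := MulEquiv.ofBijective π hinj
  have hZ : ∀ z : (pE (fQ Q)).ker, ψ (z : EE (fQ Q)) ∈ commutator Γ ⊓ σ.ker := by
    intro z
    have h1 : ψ (z : EE (fQ Q)) ∈ σ.ker := by
      show σ (ψ _) = 1
      rw [hσp]
      exact z.2
    exact ⟨hσ.2.2 h1, h1⟩
  let c : (pE (fQ Q)).ker →* ↥(commutator Γ ⊓ σ.ker) :=
    MonoidHom.codRestrict (ψ.comp (pE (fQ Q)).ker.subtype) _ hZ
  refine ⟨ψ, hψ, hψs, E.symm.toMonoidHom.comp c, ?_, ?_⟩
  · intro z
    have h1 : π (E.symm (c z)) = c z := E.apply_symm_apply (c z)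
    rw [← hπ2] at *
    show ((π (E.symm (c z)) : ↥(commutator Γ ⊓ σ.ker)) : Γ) = _
    rw [h1]
    rfl
  · intro m hm
    have h1 : π m = 1 := by
      apply Subtype.ext
      rw [hπ2]
      exact hm
    exact hinj.1 (h1.trans (map_one π).symm)

theorem exists_inv_mod (d e : ℕ) (hc : Nat.Coprime d e) (he : 0 < e) : ∃ d', d * d' ≡ 1 [MOD e] := by
  rcases Nat.lt_or_ge 1 e with h | h
  · obtain ⟨m, hm⟩ := Nat.exists_mul_mod_eq_one_of_coprime hc h
    refine ⟨m, ?_⟩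
    show (d * m) % e = 1 % e
    rw [hm.2, Nat.mod_eq_of_lt h]
  · have : e = 1 := by omega
    subst this
    exact ⟨1, Nat.modEq_one⟩

theorem card_of_cover {Q A Γ : Type*} [Group Q] [Group A] [Group Γ] [Finite Γ] (σ : Γ →* Q)
    (hσ : Cfsg.IsStemExtension σ) (hk : Nonempty (σ.ker ≃* A)) :
    Nat.card Γ = Nat.card Q * Nat.card A := by
  obtain ⟨e⟩ := hk
  rw [← Nat.card_congr e.toEquiv, ← Nat.card_congr (QuotientGroup.quotientKerEquivOfSurjective σ hσ.1).toEquiv,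
    ← Subgroup.card_eq_card_quotient_mul_card_subgroup]

/-- Covering groups are unique when the orders are coprime. -/
theorem cover_unique_of_coprime {Q : Type u} [Group Q] [Finite Q] {A : Type*} [CommGroup A]
    (hA : Cfsg.HasSchurMultiplier Q A)
    (hcop : Nat.Coprime (Nat.card (Abelianization Q)) (Nat.card A))
    {Γ₁ Γ₂ : Type*} [Group Γ₁] [Finite Γ₁] [Group Γ₂] [Finite Γ₂]
    (σ₁ : Γ₁ →* Q) (σ₂ : Γ₂ →* Q) (h₁ : Cfsg.IsStemExtension σ₁) (h₂ : Cfsg.IsStemExtension σ₂)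
    (k₁ : Nonempty (σ₁.ker ≃* A)) (k₂ : Nonempty (σ₂.ker ≃* A)) :
    ∃ e : Γ₁ ≃* Γ₂, σ₂.comp e.toMonoidHom = σ₁ := by
  classical
  obtain ⟨ψ₁, hψ₁, hs₁, ρ₁, hρ₁, hi₁⟩ := cover_data hA σ₁ h₁ k₁
  obtain ⟨ψ₂, hψ₂, hs₂, ρ₂, hρ₂, hi₂⟩ := cover_data hA σ₂ h₂ k₂
  have hσp₁ : ∀ x, σ₁ (ψ₁ x) = pE (fQ Q) x := pE_eq _ σ₁ ψ₁ hψ₁
  have hσp₂ : ∀ x, σ₂ (ψ₂ x) = pE (fQ Q) x := pE_eq _ σ₂ ψ₂ hψ₂
  haveI : Finite (Abelianization Q) := inferInstanceAs (Finite (Q ⧸ commutator Q))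
  haveI hMf : Finite (Mb (fQ Q)) := finite_Mb _ (fQ_surj Q)
  obtain ⟨eA⟩ := mulEquiv_Mb (fQ Q) (fQ_surj Q) hA
  have hcardA : Nat.card A = Nat.card (Mb (fQ Q)) := Nat.card_congr eA.toEquiv
  rw [hcardA] at hcop
  obtain ⟨d', hd'⟩ := exists_inv_mod _ _ hcop Nat.card_pos
  have hker₁ : ψ₁.ker ≤ (pE (fQ Q)).ker := by
    intro x hx
    show pE (fQ Q) x = 1
    rw [← hσp₁, show ψ₁ x = 1 from hx, map_one]
  let lam : ψ₁.ker →* Mb (fQ Q) := (ρ₂.comp (Subgroup.inclusion hker₁))⁻¹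
  have hlam : ∀ x : ψ₁.ker, lam x = (ρ₂ ⟨x.1, hker₁ x.2⟩)⁻¹ := fun x => rfl
  have hL : ψ₁.ker ⊓ commutator (EE (fQ Q)) = ⊥ := by
    rw [eq_bot_iff]
    rintro x ⟨hx1, hx2⟩
    have h1 : x ∈ Mb (fQ Q) := ⟨hx2, hker₁ hx1⟩
    have h2 := hi₁ ⟨x, h1⟩ hx1
    exact congrArg Subtype.val h2
  have hd : ∀ x : EE (fQ Q), ∃ l ∈ ψ₁.ker, ∃ c ∈ commutator (EE (fQ Q)),
      x ^ Nat.card (Abelianization Q) = l * c := by
    intro x
    have h1 : (Abelianization.of (pE (fQ Q) (x ^ Nat.card (Abelianization Q)))) = 1 := by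
      rw [map_pow, map_pow]
      exact pow_card_eq_one'
    have h2 : pE (fQ Q) (x ^ Nat.card (Abelianization Q)) ∈ commutator Q := by
      rw [← Abelianization.ker_of]
      exact h1
    rw [← map_commutator_of_surj (pE (fQ Q)) (pE_surj _ (fQ_surj Q))] at h2
    obtain ⟨c₀, hc₀, hc₀x⟩ := h2
    have hz : x ^ Nat.card (Abelianization Q) * c₀⁻¹ ∈ (pE (fQ Q)).ker := by
      show pE (fQ Q) _ = 1
      rw [map_mul, map_inv, hc₀x]
      group
    let z : (pE (fQ Q)).ker := ⟨_, hz⟩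
    have h3 : (ρ₁ z : EE (fQ Q))⁻¹ * (z : EE (fQ Q)) ∈ ψ₁.ker := by
      show ψ₁ _ = 1
      rw [map_mul, map_inv, hρ₁]
      group
    refine ⟨_, h3, (ρ₁ z : EE (fQ Q)) * c₀, Subgroup.mul_mem _ (Mb_le_commutator _ (ρ₁ z).2) hc₀, ?_⟩
    have hc := mem_center_iff.1 (ker_pE_central _ (Mb_le_ker _ (ρ₁ z).2)) ((ρ₁ z : EE (fQ Q))⁻¹ * (z : EE (fQ Q)))
    have h4 : x ^ Nat.card (Abelianization Q) = (z : EE (fQ Q)) * c₀ := by
      show _ = x ^ Nat.card (Abelianization Q) * c₀⁻¹ * c₀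
      group
    rw [h4, ← mul_assoc, hc]
    group
  obtain ⟨Θ, hΘ⟩ := exists_ext_coprime _ d' ψ₁.ker hL hd lam (by
    intro x
    have h1 : (lam x) ^ Nat.card (Mb (fQ Q)) = 1 := pow_card_eq_one'
    have h2 : orderOf (lam x) ∣ Nat.card (Mb (fQ Q)) := orderOf_dvd_of_pow_eq_one h1
    have h3 := hd'.of_dvd h2
    have h4 := pow_eq_pow_iff_modEq.2 h3
    rw [h4, pow_one])
  have hcen : ∀ x, ψ₂ (Θ x : EE (fQ Q)) ∈ center Γ₂ := by
    intro x
    apply h₂.2.1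
    show σ₂ _ = 1
    rw [hσp₂]
    exact Mb_le_ker _ (Θ x).2
  let ω : EE (fQ Q) →* Γ₂ := MonoidHom.mk' (fun x => ψ₂ x * ψ₂ (Θ x : EE (fQ Q))) (by
    intro a b
    rw [map_mul, map_mul]
    have h1 : ((Θ a * Θ b : Mb (fQ Q)) : EE (fQ Q)) = (Θ a : EE (fQ Q)) * (Θ b : EE (fQ Q)) := rfl
    rw [h1, map_mul]
    have h2 := mem_center_iff.1 (hcen a) (ψ₂ b)
    calc ψ₂ a * ψ₂ b * (ψ₂ (Θ a : EE (fQ Q)) * ψ₂ (Θ b : EE (fQ Q)))
        = ψ₂ a * (ψ₂ b * ψ₂ (Θ a : EE (fQ Q))) * ψ₂ (Θ b : EE (fQ Q)) := by group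
      _ = ψ₂ a * (ψ₂ (Θ a : EE (fQ Q)) * ψ₂ b) * ψ₂ (Θ b : EE (fQ Q)) := by rw [h2]
      _ = _ := by group)
  have hω : σ₂.comp ω = pE (fQ Q) := by
    apply MonoidHom.ext
    intro x
    show σ₂ (ψ₂ x * ψ₂ (Θ x : EE (fQ Q))) = _
    rw [map_mul, hσp₂, hσp₂, show pE (fQ Q) (Θ x : EE (fQ Q)) = 1 from Mb_le_ker _ (Θ x).2, mul_one]
  have hωs : Function.Surjective ω := lift_surjective _ σ₂ h₂.2.1 ω hω (fQ_surj Q) h₂.2.2
  have hle : ψ₁.ker ≤ ω.ker := by
    intro x hx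
    show ψ₂ x * ψ₂ (Θ x : EE (fQ Q)) = 1
    have h1 := hΘ ⟨x, hx⟩
    rw [hlam] at h1
    have h2 : Θ x = (ρ₂ ⟨x, hker₁ hx⟩)⁻¹ := h1
    rw [h2]
    have h3 : (((ρ₂ ⟨x, hker₁ hx⟩)⁻¹ : Mb (fQ Q)) : EE (fQ Q)) = ((ρ₂ ⟨x, hker₁ hx⟩ : Mb (fQ Q)) : EE (fQ Q))⁻¹ := rfl
    rw [h3, map_inv, hρ₂]
    group
  let e₀ : Γ₁ →* Γ₂ := (MonoidHom.liftOfSurjective ψ₁ hs₁) ⟨ω, hle⟩
  have he₀ : ∀ x, e₀ (ψ₁ x) = ω x := fun x => MonoidHom.liftOfRightInverse_comp_apply _ _ _ _ _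
  have he₀s : Function.Surjective e₀ := by
    intro y
    obtain ⟨x, rfl⟩ := hωs y
    exact ⟨ψ₁ x, he₀ x⟩
  -- cardinalities
  have hcard1 : Nat.card Γ₁ = Nat.card Q * Nat.card A := card_of_cover σ₁ h₁ k₁
  have hcard2 : Nat.card Γ₂ = Nat.card Q * Nat.card A := card_of_cover σ₂ h₂ k₂
  have hbij : Function.Bijective e₀ :=
    (Nat.bijective_iff_surjective_and_card e₀).2 ⟨he₀s, by rw [hcard1, hcard2]⟩
  refine ⟨MulEquiv.ofBijective e₀ hbij, ?_⟩
  apply MonoidHom.ext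
  intro g
  obtain ⟨x, rfl⟩ := hs₁ g
  show σ₂ (e₀ (ψ₁ x)) = σ₁ (ψ₁ x)
  rw [he₀, hσp₁]
  exact DFunLike.congr_fun hω x

section NonUnique

theorem abel_torsion_free (F : Type u) [Group F] [IsFreeGroup F] (w : Abelianization F) (n : ℕ) (hn : n ≠ 0)
    (h : w ^ n = 1) : w = 1 := by
  classical
  let e := MulEquiv.abelianizationCongr (IsFreeGroup.toFreeGroup F)
  let j : Additive (Abelianization F) →+ (IsFreeGroup.Generators F →₀ ℤ) :=
    (FreeAbelianGroup.equivFinsupp (IsFreeGroup.Generators F)).toAddMonoidHom.comp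
      (MonoidHom.toAdditive e.toMonoidHom)
  have hj : Function.Injective j := by
    intro a b hab
    have h1 := (FreeAbelianGroup.equivFinsupp (IsFreeGroup.Generators F)).injective hab
    have h2 : e (Additive.toMul a) = e (Additive.toMul b) := h1
    exact e.injective h2
  have h1 : n • j (Additive.ofMul w) = 0 := by
    rw [← map_nsmul, ← ofMul_pow, h]
    exact map_zero j
  have h2 : j (Additive.ofMul w) = 0 := by
    ext i
    have h3 := DFunLike.congr_fun h1 i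
    have h4 : n • (j (Additive.ofMul w) i) = 0 := h3
    rw [nsmul_eq_mul] at h4
    have h5 : (n : ℤ) ≠ 0 := by exact_mod_cast hn
    exact (mul_eq_zero.1 h4).resolve_left h5
  have h3 : Additive.ofMul w = 0 := hj (h2.trans (map_zero j).symm)
  exact h3

theorem exists_coord (F : Type u) [Group F] [IsFreeGroup F] [Group.FG F] (J : Subgroup (Abelianization F))
    (r : ℕ) (y : J) (hy : ∀ u : J, u ^ r ≠ y) :
    ∃ φ : J →* Multiplicative ℤ, ¬ (r : ℤ) ∣ Multiplicative.toAdd (φ y) := by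
  classical
  haveI hFG : Group.FG (Abelianization F) :=
    Group.fg_of_surjective (f := Abelianization.of) (QuotientGroup.mk_surjective)
  haveI hfin : Module.Finite ℤ (Additive (Abelianization F)) :=
    Module.Finite.iff_addGroup_fg.2 inferInstance
  let e := MulEquiv.abelianizationCongr (IsFreeGroup.toFreeGroup F)
  let j : Additive (Abelianization F) →+ (IsFreeGroup.Generators F →₀ ℤ) :=
    (FreeAbelianGroup.equivFinsupp (IsFreeGroup.Generators F)).toAddMonoidHom.comp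
      (MonoidHom.toAdditive e.toMonoidHom)
  have hj : Function.Injective j := by
    intro a b hab
    have h1 := (FreeAbelianGroup.equivFinsupp (IsFreeGroup.Generators F)).injective hab
    have h2 : e (Additive.toMul a) = e (Additive.toMul b) := h1
    exact e.injective h2
  let i : Additive J →+ Additive (Abelianization F) := MonoidHom.toAdditive J.subtype
  have hi : Function.Injective i := by
    intro a b hab
    have h1 : ((Additive.toMul a : J) : Abelianization F) = (Additive.toMul b : J) := hab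
    exact Additive.toMul.injective (Subtype.ext h1)
  haveI h2 : Module.Finite ℤ (Additive J) :=
    Module.Finite.of_injective i.toIntLinearMap hi
  haveI h3 : Module.IsTorsionFree ℤ (Additive J) :=
    (hj.comp hi).moduleIsTorsionFree _ (fun r m => by simp)
  haveI h4 : Module.Free ℤ (Additive J) := inferInstance
  let b := Module.finBasis ℤ (Additive J)
  by_contra hall
  push Not at hall
  have hdiv : ∀ i, (r : ℤ) ∣ b.repr (Additive.ofMul y) i := by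
    intro i
    exact hall (AddMonoidHom.toMultiplicativeRight (b.coord i).toAddMonoidHom)
  choose c hc using hdiv
  let u : Additive J := ∑ i, c i • b i
  have h5 : r • u = Additive.ofMul y := by
    rw [Finset.smul_sum]
    conv_rhs => rw [← b.sum_repr (Additive.ofMul y)]
    refine Finset.sum_congr rfl (fun i _ => ?_)
    rw [hc i, mul_smul, natCast_zsmul]
  apply hy (Additive.toMul u)
  have h6 := congrArg Additive.toMul h5
  exact h6

/-- Non-coprime orders give non-isomorphic covers. -/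
theorem covers_not_unique {Q : Type u} [Group Q] [Finite Q] {A : Type*} [CommGroup A]
    (hA : Cfsg.HasSchurMultiplier Q A)
    (huniq : ∀ (Γ₁ Γ₂ : Type u) [Group Γ₁] [Finite Γ₁] [Group Γ₂] [Finite Γ₂] (σ₁ : Γ₁ →* Q) (σ₂ : Γ₂ →* Q),
      Cfsg.IsStemExtension σ₁ → Cfsg.IsStemExtension σ₂ → Nonempty (σ₁.ker ≃* A) → Nonempty (σ₂.ker ≃* A) →
        ∃ e : Γ₁ ≃* Γ₂, σ₂.comp e.toMonoidHom = σ₁) :
    Nat.Coprime (Nat.card (Abelianization Q)) (Nat.card A) := by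
  classical
  by_contra hnc
  obtain ⟨r, hr, hr1, hr2⟩ := Nat.Prime.not_coprime_iff_dvd.1 hnc
  haveI : Fact r.Prime := ⟨hr⟩
  haveI hAbf : Finite (Abelianization Q) := inferInstanceAs (Finite (Q ⧸ commutator Q))
  obtain ⟨g, hgdef⟩ : ∃ g : FreeGroup Q →* Q, g = fQ Q := ⟨_, rfl⟩
  have hg : Function.Surjective g := hgdef ▸ fQ_surj Q
  haveI hMf : Finite (Mb g) := finite_Mb g hg
  haveI hMbn : (Mb g).Normal := ⟨fun n hn x => by
    rw [mem_center_iff.1 (ker_pE_central g (Mb_le_ker g hn)) x]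
    simpa using hn⟩
  obtain ⟨eA⟩ := mulEquiv_Mb g hg hA
  have hrM : r ∣ Nat.card (Mb g) := by
    rw [← Nat.card_congr eA.toEquiv]
    exact hr2
  obtain ⟨C, -, hinf, hsup⟩ := exists_complement g (pE g).ker le_rfl (sup_eq_left.2 (Mb_le_ker g))
  have hC : C ≤ (pE g).ker := by
    rw [← hsup]
    exact le_sup_left
  let j : C →* Abelianization (FreeGroup Q) := (abE g).comp C.subtype
  have hj : Function.Injective j := by
    rw [injective_iff_map_eq_one]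
    intro x hx
    have h1 : (x : EE g) ∈ commutator (EE g) := by
      rw [← ker_abE]
      exact hx
    have h2 : (x : EE g) ∈ C ⊓ Mb g := ⟨x.2, h1, hC x.2⟩
    rw [hinf] at h2
    exact Subtype.ext h2
  let qb : Abelianization (FreeGroup Q) →* Abelianization Q := Abelianization.map g
  have habE_surj : Function.Surjective (abE g) := fun w => by
    obtain ⟨u, rfl⟩ := of_surj _ w
    exact ⟨(u : EE g), rfl⟩
  have hqbE : ∀ x : EE g, qb (abE g x) = Abelianization.of (pE g x) := by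
    intro x
    obtain ⟨u, rfl⟩ := QuotientGroup.mk_surjective x
    rfl
  have hqb_surj : Function.Surjective qb := by
    intro q
    obtain ⟨a, rfl⟩ := of_surj _ q
    obtain ⟨x, hx⟩ := pE_surj g hg a
    exact ⟨abE g x, by rw [hqbE, hx]⟩
  have hkerJ : ∀ w, qb w = 1 → w ∈ j.range := by
    intro w hw
    obtain ⟨x, rfl⟩ := habE_surj w
    rw [hqbE] at hw
    have h1 : pE g x ∈ commutator Q := by
      rw [← Abelianization.ker_of]
      exact hw
    rw [← map_commutator_of_surj (pE g) (pE_surj g hg)] at h1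
    obtain ⟨c, hc, hcx⟩ := h1
    have h2 : x * c⁻¹ ∈ C ⊔ Mb g := by
      rw [hsup]
      show pE g _ = 1
      rw [map_mul, map_inv, hcx]
      group
    obtain ⟨l, hl, m, hm, hlm⟩ := Subgroup.mem_sup_of_normal_right.1 h2
    refine ⟨⟨l, hl⟩, ?_⟩
    show abE g l = abE g x
    have h3 : x = l * (m * c) := by
      calc x = x * c⁻¹ * c := by group
        _ = l * m * c := by rw [hlm]
        _ = _ := by group
    have h4 : abE g (m * c) = 1 := by
      have : m * c ∈ (abE g).ker := by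
        rw [ker_abE]
        exact Subgroup.mul_mem _ (Mb_le_commutator g hm) hc
      exact this
    rw [h3, map_mul, h4, mul_one]
  have hJker : ∀ l : C, qb (j l) = 1 := by
    intro l
    show qb (abE g l) = 1
    rw [hqbE, show pE g (l : EE g) = 1 from hC l.2, map_one]
  -- Cauchy
  obtain ⟨q₀, hq₀⟩ := exists_prime_orderOf_dvd_card' r hr1
  obtain ⟨w, hw⟩ := hqb_surj q₀
  have hy : w ^ r ∈ j.range := hkerJ _ (by rw [map_pow, hw, ← hq₀, pow_orderOf_eq_one])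
  obtain ⟨l₀, hl₀⟩ := hy
  have hnotJ : ∀ u : j.range, u ^ r ≠ ⟨w ^ r, ⟨l₀, hl₀⟩⟩ := by
    rintro ⟨_, l, rfl⟩ hu
    have h1 : (j l) ^ r = w ^ r := congrArg Subtype.val hu
    have h2 : (w * (j l)⁻¹) ^ r = 1 := by
      rw [mul_pow, inv_pow, h1, mul_inv_cancel]
    have h3 := abel_torsion_free (FreeGroup Q) _ r hr.ne_zero h2
    have h4 : w = j l := by
      rwa [mul_inv_eq_one] at h3
    have h5 : qb w = 1 := by rw [h4]; exact hJker l
    rw [hw] at h5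
    rw [h5, orderOf_one] at hq₀
    exact hr.one_lt.ne hq₀
  obtain ⟨φ, hφ⟩ := exists_coord (FreeGroup Q) j.range r ⟨w ^ r, ⟨l₀, hl₀⟩⟩ hnotJ
  -- the element of maximal order
  have hexp : Monoid.ExponentExists (Mb g) := Monoid.ExponentExists.of_finite
  obtain ⟨g₀, hg₀⟩ := Monoid.exists_orderOf_eq_exponent hexp
  obtain ⟨x, hx⟩ : ∃ x, x = Monoid.exponent (Mb g) := ⟨_, rfl⟩
  have hx0 : x ≠ 0 := by
    rw [hx]
    exact hexp.exponent_ne_zero
  have hrx : r ∣ x := by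
    obtain ⟨m₀, hm₀⟩ := exists_prime_orderOf_dvd_card' r hrM
    rw [← hm₀, hx]
    exact Monoid.order_dvd_exponent m₀
  obtain ⟨b, hb⟩ : ∃ b, b = x.factorization r := ⟨_, rfl⟩
  have hb1 : 1 ≤ b := by
    rw [hb]
    exact hr.factorization_pos_of_dvd hx0 hrx
  have hordz : orderOf (g₀ ^ (ordCompl[r] x)) = r ^ b := by
    have hdvd : ordCompl[r] x ∣ orderOf g₀ := by
      rw [hg₀, ← hx]
      exact Nat.ordCompl_dvd x r
    have hne : ordCompl[r] x ≠ 0 := (Nat.ordCompl_pos r hx0).ne'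
    rw [orderOf_pow_of_dvd hne hdvd, hg₀, ← hx, hb]
    exact Nat.div_eq_of_eq_mul_left (Nat.pos_of_ne_zero hne) (Nat.ordProj_mul_ordCompl_eq_self x r).symm
  obtain ⟨z, hz⟩ : ∃ z, z = g₀ ^ (ordCompl[r] x) := ⟨_, rfl⟩
  rw [← hz] at hordz
  have hnopow : ∀ v : Mb g, v ^ r ≠ z := by
    intro v hv
    have h1 : orderOf v ∣ x := by
      rw [hx]
      exact Monoid.order_dvd_exponent v
    have h2 : orderOf (v ^ r) = r ^ b := by rw [hv, hordz]
    rw [orderOf_pow] at h2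
    have h3 : orderOf v ≠ 0 := by
      intro h
      rw [h] at h1
      exact hx0 (Nat.eq_zero_of_zero_dvd h1)
    by_cases hrv : r ∣ orderOf v
    · have h4 : (orderOf v).gcd r = r := Nat.gcd_eq_right hrv
      rw [h4] at h2
      have h5 : orderOf v = r ^ (b + 1) := by
        rw [pow_succ, ← h2]
        exact (Nat.div_mul_cancel hrv).symm
      have h6 : r ^ (b + 1) ∣ x := h5 ▸ h1
      exact Nat.pow_succ_factorization_not_dvd hx0 hr (hb ▸ h6)
    · have h4 : (orderOf v).gcd r = 1 := by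
        have := (Nat.Prime.coprime_iff_not_dvd hr).2 hrv
        rw [Nat.gcd_comm]
        exact this
      rw [h4, Nat.div_one] at h2
      rw [h2] at hrv
      exact hrv (dvd_pow_self r (by omega))
  -- the twisting homomorphism
  obtain ⟨c₀, hc₀⟩ : ∃ c₀, c₀ = Multiplicative.toAdd (φ ⟨w ^ r, ⟨l₀, hl₀⟩⟩) := ⟨_, rfl⟩
  rw [← hc₀] at hφ
  have hcop : IsCoprime c₀ ((r : ℤ) ^ b) := by
    have h1 : IsCoprime (r : ℤ) c₀ :=
      (Irreducible.coprime_iff_not_dvd (Nat.prime_iff_prime_int.1 hr).irreducible).2 hφ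
    exact (h1.symm).pow_right
  obtain ⟨u, v, huv⟩ := hcop
  let θ' : C →* Mb g := MonoidHom.mk'
    (fun l => z ^ (u * Multiplicative.toAdd (φ (j.rangeRestrict l)))) (by
      intro a b
      rw [map_mul, map_mul, toAdd_mul, mul_add, zpow_add])
  have hθ'l₀ : θ' l₀ = z := by
    show z ^ (u * Multiplicative.toAdd (φ (j.rangeRestrict l₀))) = z
    have h1 : j.rangeRestrict l₀ = ⟨w ^ r, ⟨l₀, hl₀⟩⟩ := Subtype.ext hl₀
    rw [h1, ← hc₀]
    have h2 : z ^ ((r : ℤ) ^ b) = 1 := by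
      have h3 : z ^ (r ^ b) = 1 := by
        rw [← hordz]
        exact pow_orderOf_eq_one z
      exact_mod_cast h3
    have h3 : u * c₀ = 1 - v * (r : ℤ) ^ b := by linarith
    rw [h3, sub_eq_add_neg, zpow_add, zpow_one, ← neg_mul, mul_comm (-v), zpow_mul, h2, one_zpow, mul_one]
  have hθc : ∀ l : C, Commute ((l : EE g)) ((θ' l : EE g)) := fun l =>
    (mem_center_iff.1 (ker_pE_central g (Mb_le_ker g (θ' l).2)) (l : EE g))
  let tw : C →* EE g := MonoidHom.mk' (fun l => (l : EE g) * (θ' l : EE g)) (by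
    intro a b
    rw [map_mul]
    have h1 : ((a * b : C) : EE g) = (a : EE g) * (b : EE g) := rfl
    have h2 : ((θ' a * θ' b : Mb g) : EE g) = (θ' a : EE g) * (θ' b : EE g) := rfl
    rw [h1, h2]
    have h3 := mem_center_iff.1 (ker_pE_central g (Mb_le_ker g (θ' a).2)) (b : EE g)
    calc (a : EE g) * b * ((θ' a : EE g) * (θ' b : EE g))
        = a * (b * (θ' a : EE g)) * (θ' b : EE g) := by group
      _ = a * ((θ' a : EE g) * b) * (θ' b : EE g) := by rw [h3]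
      _ = _ := by group)
  have hC₂ : tw.range ≤ (pE g).ker := by
    rintro _ ⟨l, rfl⟩
    exact Subgroup.mul_mem _ (hC l.2) (Mb_le_ker g (θ' l).2)
  have hinf₂ : tw.range ⊓ Mb g = ⊥ := by
    rw [eq_bot_iff]
    rintro _ ⟨⟨l, rfl⟩, hx2⟩
    have h1 : (l : EE g) ∈ Mb g := by
      have h2 : (l : EE g) = ((l : EE g) * (θ' l : EE g)) * (θ' l : EE g)⁻¹ := by group
      rw [h2]
      exact Subgroup.mul_mem _ hx2 (Subgroup.inv_mem _ (θ' l).2)
    have h3 : (l : EE g) ∈ C ⊓ Mb g := ⟨l.2, h1⟩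
    rw [hinf] at h3
    have h4 : l = 1 := Subtype.ext h3
    rw [h4, map_one]
    exact Subgroup.one_mem _
  have hsup₂ : tw.range ⊔ Mb g = (pE g).ker := by
    apply le_antisymm
    · exact sup_le hC₂ (Mb_le_ker g)
    · intro y hy
      rw [← hsup] at hy
      obtain ⟨l, hl, m, hm, rfl⟩ := Subgroup.mem_sup_of_normal_right.1 hy
      have h1 : l * m = ((l : EE g) * (θ' ⟨l, hl⟩ : EE g)) * ((θ' ⟨l, hl⟩ : EE g)⁻¹ * m) := by group
      rw [h1]
      exact Subgroup.mul_mem_sup ⟨⟨l, hl⟩, rfl⟩ (Subgroup.mul_mem _ (Subgroup.inv_mem _ (θ' ⟨l, hl⟩).2) hm)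
  obtain ⟨Γ₁, i₁, i₂, σ₁, β₁, hσ₁, hβ₁, hkβ₁, hβ₁s, ⟨k₁⟩⟩ := exists_cover g hg C hC hinf hsup
  obtain ⟨Γ₂, i₃, i₄, σ₂, β₂, hσ₂, hβ₂, hkβ₂, hβ₂s, ⟨k₂⟩⟩ := exists_cover g hg tw.range hC₂ hinf₂ hsup₂
  obtain ⟨e, he⟩ := huniq Γ₁ Γ₂ σ₁ σ₂ hσ₁ hσ₂ ⟨k₁.trans eA.symm⟩ ⟨k₂.trans eA.symm⟩
  letI := centerCommGroup Γ₂
  have hσβ₁ : ∀ x, σ₁ (β₁ x) = pE g x := pE_eq g σ₁ β₁ hβ₁
  have hσβ₂ : ∀ x, σ₂ (β₂ x) = pE g x := pE_eq g σ₂ β₂ hβ₂
  have htk : ∀ x, (β₂ x)⁻¹ * e (β₁ x) ∈ σ₂.ker := by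
    intro x
    show σ₂ _ = 1
    have h1 : σ₂ (e (β₁ x)) = σ₁ (β₁ x) := DFunLike.congr_fun he (β₁ x)
    rw [map_mul, map_inv, h1, hσβ₁, hσβ₂]
    group
  let t : EE g →* center Γ₂ := MonoidHom.mk' (fun x => ⟨(β₂ x)⁻¹ * e (β₁ x), hσ₂.2.1 (htk x)⟩) (by
    intro a b
    apply Subtype.ext
    show (β₂ (a * b))⁻¹ * e (β₁ (a * b)) = ((β₂ a)⁻¹ * e (β₁ a)) * ((β₂ b)⁻¹ * e (β₁ b))
    rw [map_mul, map_mul, map_mul]
    have h3 := mem_center_iff.1 (hσ₂.2.1 (htk a)) (β₂ b)⁻¹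
    calc (β₂ a * β₂ b)⁻¹ * (e (β₁ a) * e (β₁ b))
        = (β₂ b)⁻¹ * ((β₂ a)⁻¹ * e (β₁ a)) * e (β₁ b) := by group
      _ = ((β₂ a)⁻¹ * e (β₁ a)) * (β₂ b)⁻¹ * e (β₁ b) := by rw [h3]
      _ = _ := by group)
  have hle : (abE g).ker ≤ t.ker := by
    rw [ker_abE]
    exact Abelianization.commutator_subset_ker t
  let tb : Abelianization (FreeGroup Q) →* center Γ₂ := (MonoidHom.liftOfSurjective (abE g) habE_surj) ⟨t, hle⟩
  have htb : ∀ x, tb (abE g x) = t x := fun x => MonoidHom.liftOfRightInverse_comp_apply _ _ _ _ _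
  have htC : ∀ l : C, ((t l : center Γ₂) : Γ₂) = β₂ (θ' l : EE g) := by
    intro l
    show (β₂ (l : EE g))⁻¹ * e (β₁ (l : EE g)) = _
    have h1 : β₁ (l : EE g) = 1 := by
      have : (l : EE g) ∈ β₁.ker := by rw [hkβ₁]; exact l.2
      exact this
    have h2 : β₂ ((l : EE g) * (θ' l : EE g)) = 1 := by
      have : (l : EE g) * (θ' l : EE g) ∈ β₂.ker := by
        rw [hkβ₂]
        exact ⟨l, rfl⟩
      exact this
    rw [h1, map_one, mul_one]
    rw [map_mul] at h2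
    exact inv_eq_of_mul_eq_one_right h2
  obtain ⟨x₀, hx₀⟩ := habE_surj w
  have hex : ∀ y ∈ σ₂.ker, ∃ m : Mb g, β₂ (m : EE g) = y := by
    intro y hy
    obtain ⟨x₁, rfl⟩ := hβ₂s y
    have h1 : x₁ ∈ tw.range ⊔ Mb g := by
      rw [hsup₂]
      show pE g x₁ = 1
      rw [← hσβ₂]
      exact hy
    obtain ⟨c, hc, m, hm, rfl⟩ := Subgroup.mem_sup_of_normal_right.1 h1
    refine ⟨⟨m, hm⟩, ?_⟩
    have h2 : β₂ c = 1 := by
      have : c ∈ β₂.ker := by rw [hkβ₂]; exact hc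
      exact this
    rw [map_mul, h2, one_mul]
  obtain ⟨v', hv'⟩ := hex _ (htk x₀)
  have hfin : ((t l₀ : center Γ₂)) = (t x₀) ^ r := by
    rw [← htb x₀, hx₀, ← map_pow, ← hl₀]
    exact (htb l₀).symm
  have h1 : β₂ (z : EE g) = (β₂ (v' : EE g)) ^ r := by
    have h2 := htC l₀
    rw [hθ'l₀] at h2
    rw [← h2, hfin, hv']
    rfl
  have h2 : (((v' ^ r * z⁻¹ : Mb g)) : EE g) ∈ tw.range ⊓ Mb g := by
    refine ⟨?_, (v' ^ r * z⁻¹).2⟩
    rw [← hkβ₂]
    show β₂ _ = 1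
    have h3 : (((v' ^ r * z⁻¹ : Mb g)) : EE g) = (v' : EE g) ^ r * (z : EE g)⁻¹ := rfl
    rw [h3, map_mul, map_pow, map_inv, ← h1]
    group
  rw [hinf₂] at h2
  have h3 : v' ^ r * z⁻¹ = 1 := Subtype.ext h2
  exact hnopow v' (mul_inv_eq_one.1 h3)

end NonUnique

end CfsgLib.FGS.Schur
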