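import Mathlib
import Cfsg.Agent.Lib.H9.Count
import Cfsg.Agent.Lib.H9.SimpleTools

/-!
# The number of subgroups of order `p ^ β` is `≡ 1 mod p` (Frobenius).
-/

set_option autoImplicit false
set_option linter.unusedSectionVars false
set_option linter.style.haveILetI false

namespace CfsgLib.FGS

open scoped Pointwise

/-- If all orbits outside an invariant subset have order divisible by `d`, the sizes agree mod `d`. -/
theorem card_modEq_of_orbits_dvd {G X : Type*} [Group G] [Finite X] [MulAction G X]
    (Y : Set X) (hY : ∀ g : G, ∀ x ∈ Y, g • x ∈ Y) (d : ℕ)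
    (h : ∀ x, x ∉ Y → d ∣ Nat.card (MulAction.orbit G x)) :
    Nat.card X ≡ Nat.card Y [MOD d] := by
  classical
  let W : SubMulAction G X :=
    { carrier := Yᶜ
      smul_mem' := by
        intro g x hx hgx
        apply hx
        have := hY g⁻¹ _ hgx
        simpa using this }
  have hsplit : Nat.card X = Nat.card Y + Nat.card W := by
    have h1 := Nat.card_congr (Equiv.Set.sumCompl Y)
    rw [Nat.card_sum] at h1
    exact h1.symm
  have hW : d ∣ Nat.card W := by
    rw [Nat.card_congr (MulAction.selfEquivSigmaOrbits G W)]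
    letI := Fintype.ofFinite (MulAction.orbitRel.Quotient G W)
    rw [Nat.card_sigma]
    apply Finset.dvd_sum
    intro ω _
    have hx : ((ω.out : W) : X) ∉ Y := (ω.out : W).2
    have h2 := h _ hx
    have h3 : Nat.card (MulAction.orbit G (ω.out : W)) = Nat.card (MulAction.orbit G ((ω.out : W) : X)) := by
      rw [← SubMulAction.val_image_orbit]
      exact (Nat.card_image_of_injective Subtype.val_injective _).symm
    rwa [h3]
  rw [hsplit]
  obtain ⟨c, hc⟩ := hW
  rw [hc]
  simp [Nat.ModEq]

section

variable {G : Type*} [Group G] [Finite G] [DecidableEq G]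

theorem mem_of_mem_stabilizer {q : ℕ} (s : Set.powersetCard G q) {h : G}
    (hh : h ∈ MulAction.stabilizer G s) {x : G} (hx : x ∈ (s : Finset G)) : h * x ∈ (s : Finset G) := by
  classical
  have h1 : h • s = s := hh
  have h2 : h • (s : Finset G) = s := by
    have := congrArg Subtype.val h1
    simpa using this
  rw [← h2]
  exact Finset.smul_mem_smul_finset hx

/-- The stabilizer of a set acts freely on it. -/
theorem card_stabilizer_dvd {q : ℕ} (s : Set.powersetCard G q) :
    Nat.card (MulAction.stabilizer G s) ∣ q := by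
  classical
  set H := MulAction.stabilizer G s with hH
  let P : SubMulAction H G :=
    { carrier := ((s : Finset G) : Set G)
      smul_mem' := by
        intro h x hx
        exact mem_of_mem_stabilizer s h.2 hx }
  have hfree : ∀ b : P, MulAction.stabilizer H b = ⊥ := by
    intro b
    rw [eq_bot_iff]
    intro h hh
    have h1 : h • b = b := hh
    have h2 : (h : G) * (b : G) = b := congrArg Subtype.val h1
    exact Subgroup.mem_bot.mpr (Subtype.ext (mul_eq_right.mp h2))
  have h1 := Nat.card_congr (MulAction.selfEquivOrbitsQuotientProd hfree)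
  rw [Nat.card_prod] at h1
  have h2 : Nat.card P = q := by
    have h3 : Nat.card P = Nat.card ((s : Finset G) : Set G) := rfl
    rw [h3, Nat.card_coe_set_eq, Set.ncard_coe_finset]
    exact s.2
  exact ⟨_, by rw [← h2, h1, mul_comm]⟩

/-- The right coset `H x` as a finite set. -/
noncomputable def rightCosetFinset (H : Subgroup G) (x : G) : Finset G :=
  letI := Fintype.ofFinite G
  open Classical in (Finset.univ.filter (· ∈ H)).image (fun h => h * x)

theorem mem_rightCosetFinset (H : Subgroup G) (x y : G) :
    y ∈ rightCosetFinset H x ↔ y * x⁻¹ ∈ H := by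
  classical
  letI := Fintype.ofFinite G
  unfold rightCosetFinset
  simp only [Finset.mem_image, Finset.mem_filter, Finset.mem_univ, true_and]
  constructor
  · rintro ⟨h, hh, rfl⟩
    simpa using hh
  · intro hy
    exact ⟨_, hy, by simp⟩

theorem card_rightCosetFinset (H : Subgroup G) (x : G) :
    (rightCosetFinset H x).card = Nat.card H := by
  classical
  letI := Fintype.ofFinite G
  unfold rightCosetFinset
  rw [Finset.card_image_of_injective _ (mul_left_injective x), Nat.card_eq_fintype_card,
    Fintype.card_subtype]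

/-- The fibre of the stabilizer map over a subgroup of order `q`. -/
theorem card_fibre_stabilizer (H : Subgroup G) {q : ℕ} (hH : Nat.card H = q) :
    Nat.card G = Nat.card {s : Set.powersetCard G q // MulAction.stabilizer G s = H} * q := by
  classical
  have hc : ∀ x, (rightCosetFinset H x).card = q := fun x => by rw [card_rightCosetFinset, hH]
  let T : G → Set.powersetCard G q := fun x => ⟨rightCosetFinset H x, hc x⟩
  have hTmem : ∀ x y, y ∈ (T x : Finset G) ↔ y * x⁻¹ ∈ H := fun x y => mem_rightCosetFinset H x y
  have hstab : ∀ x, MulAction.stabilizer G (T x) = H := by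
    intro x
    ext g
    constructor
    · intro hg
      have h1 : x ∈ (T x : Finset G) := by
        rw [hTmem]
        simp [H.one_mem]
      have h2 := mem_of_mem_stabilizer (T x) hg h1
      rw [hTmem] at h2
      simpa using h2
    · intro hg
      rw [MulAction.mem_stabilizer_iff]
      apply Subtype.ext
      rw [Set.powersetCard.coe_smul]
      apply Finset.eq_of_subset_of_card_le
      · intro y hy
        obtain ⟨z, hz, rfl⟩ := Finset.mem_smul_finset.mp hy
        rw [hTmem] at hz ⊢
        have : g • z * x⁻¹ = g * (z * x⁻¹) := by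
          rw [smul_eq_mul, mul_assoc]
        rw [this]
        exact H.mul_mem hg hz
      · rw [Finset.card_smul_finset]
  let f : G → {s : Set.powersetCard G q // MulAction.stabilizer G s = H} := fun x => ⟨T x, hstab x⟩
  apply CfsgLib.H9.natCard_eq_of_fibers f
  rintro ⟨s, hs⟩
  have h2 : Nat.card (s : Finset G) = q := by
    rw [Nat.card_eq_fintype_card, Fintype.card_coe]
    exact s.2
  refine Eq.trans ?_ h2
  apply Nat.card_congr
  refine ⟨fun a => ⟨a.1, ?_⟩, fun b => ⟨b.1, ?_⟩, fun a => rfl, fun b => rfl⟩
  · have h1 : T a.1 = s := congrArg Subtype.val a.2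
    have h4 : a.1 ∈ (T a.1 : Finset G) := by
      rw [hTmem]
      simp [H.one_mem]
    rw [h1] at h4
    exact h4
  · -- `T b = s`
    apply Subtype.ext
    show T b.1 = s
    apply Subtype.ext
    apply Finset.eq_of_subset_of_card_le
    · intro y hy
      rw [hTmem] at hy
      have h3 := mem_of_mem_stabilizer s (hs ▸ hy : y * (b.1)⁻¹ ∈ MulAction.stabilizer G s) b.2
      simpa using h3
    · rw [s.2, hc]

/-- The congruence counting subsets of size `p ^ β`. -/
theorem choose_modEq (p β α m : ℕ) [hp : Fact p.Prime] (hG : Nat.card G = p ^ α * m) (hβ : β ≤ α)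
    (hm : ¬ p ∣ m) :
    Nat.choose (p ^ α * m) (p ^ β) ≡
      Nat.card {H : Subgroup G // Nat.card H = p ^ β} * (p ^ (α - β) * m) [MOD p ^ (α - β + 1)] := by
  have hpp : p.Prime := hp.out
  set q := p ^ β with hq
  let X := Set.powersetCard G q
  let Y : Set X := {s | Nat.card (MulAction.stabilizer G s) = q}
  have hY : ∀ g : G, ∀ s ∈ Y, g • s ∈ Y := by
    intro g s hs
    show Nat.card (MulAction.stabilizer G (g • s)) = q
    rw [MulAction.stabilizer_smul_eq_stabilizer_map_conj,
      Subgroup.card_map_of_injective (MulAut.conj g).injective]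
    exact hs
  have hout : ∀ s : X, s ∉ Y → p ^ (α - β + 1) ∣ Nat.card (MulAction.orbit G s) := by
    intro s hs
    have h1 := card_stabilizer_dvd s
    obtain ⟨k, hk, hke⟩ := (Nat.dvd_prime_pow hpp).mp h1
    have hkβ : k < β := by
      refine lt_of_le_of_ne hk (fun h => hs ?_)
      show Nat.card (MulAction.stabilizer G s) = q
      rw [hke, h, hq]
    have h2 := CfsgLib.H9.card_orbit_mul_card_stabilizer' (H := G) s
    rw [hG, hke] at h2
    have h3 : p ^ α * m = p ^ (α - k) * m * p ^ k := by
      have e : p ^ α = p ^ (α - k) * p ^ k := by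
        rw [← pow_add]
        congr 1
        omega
      rw [e]
      ring
    rw [h3] at h2
    have h4 := Nat.eq_of_mul_eq_mul_right (pow_pos hpp.pos k) h2
    rw [h4]
    apply Dvd.dvd.mul_right
    exact pow_dvd_pow p (by omega)
  have h1 := card_modEq_of_orbits_dvd (G := G) (X := X) Y hY _ hout
  have hX : Nat.card X = Nat.choose (p ^ α * m) q := by
    rw [← hG]
    exact Set.powersetCard.card G q
  have hYc : Nat.card Y = Nat.card {H : Subgroup G // Nat.card H = q} * (p ^ (α - β) * m) := by
    let f : Y → {H : Subgroup G // Nat.card H = q} := fun s => ⟨MulAction.stabilizer G s.1, s.2⟩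
    apply CfsgLib.H9.natCard_eq_of_fibers f
    rintro ⟨H, hH⟩
    have h2 := card_fibre_stabilizer H hH
    have h3 : Nat.card G = p ^ (α - β) * m * q := by
      rw [hG, hq]
      have e : p ^ α = p ^ (α - β) * p ^ β := by
        rw [← pow_add]
        congr 1
        omega
      rw [e]
      ring
    rw [h3] at h2
    have h4 := Nat.eq_of_mul_eq_mul_right (pow_pos hpp.pos β) h2
    rw [h4]
    apply Nat.card_congr
    refine ⟨fun a => ⟨a.1.1, congrArg Subtype.val a.2⟩, fun b => ⟨⟨b.1, ?_⟩, ?_⟩, fun a => rfl, fun b => rfl⟩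
    · show Nat.card (MulAction.stabilizer G b.1) = q
      rw [b.2, hH]
    · apply Subtype.ext
      exact b.2
  rw [← hX, ← hYc]
  exact h1

end

/-- A finite cyclic group has exactly one subgroup of each order dividing its order. -/
theorem card_subgroups_cyclic {C : Type*} [Group C] [Finite C] [hC : IsCyclic C] (q : ℕ)
    (hq : q ∣ Nat.card C) : Nat.card {H : Subgroup C // Nat.card H = q} = 1 := by
  classical
  letI := Fintype.ofFinite C
  obtain ⟨g, hg⟩ := IsCyclic.exists_ofOrder_eq_natCard (α := C)
  rw [Nat.card_eq_one_iff_unique]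
  constructor
  · constructor
    rintro ⟨H, hH⟩ ⟨K, hK⟩
    apply Subtype.ext
    have hsub : ∀ L : Subgroup C, Nat.card L = q →
        (L : Set C) = ((Finset.univ.filter (fun a : C => a ^ q = 1) : Finset C) : Set C) := by
      intro L hL
      have hq0 : 0 < q := by
        rw [← hL]
        exact Nat.card_pos
      have h1 := IsCyclic.card_pow_eq_one_le (α := C) hq0
      apply Set.eq_of_subset_of_ncard_le
      · intro x hx
        simp only [Finset.coe_filter, Finset.mem_univ, true_and, Set.mem_ofPred_eq]
        have h2 : (⟨x, hx⟩ : L) ^ Nat.card L = 1 := pow_card_eq_one'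
        rw [hL] at h2
        simpa using congrArg Subtype.val h2
      · rw [Set.ncard_coe_finset]
        have h3 : (L : Set C).ncard = q := by
          rw [← hL]
          exact (Nat.card_coe_set_eq _).symm
        rw [h3]
        exact h1
      · exact Set.toFinite _
    exact SetLike.coe_injective ((hsub H hH).trans (hsub K hK).symm)
  · obtain ⟨c, hc⟩ := hq
    have hq0 : q ≠ 0 := by
      rintro rfl
      have : 0 < Nat.card C := Nat.card_pos
      omega
    have hc0 : c ≠ 0 := by
      rintro rfl
      have : 0 < Nat.card C := Nat.card_pos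
      omega
    refine ⟨⟨Subgroup.zpowers (g ^ c), ?_⟩⟩
    rw [Nat.card_zpowers, orderOf_pow' g hc0, hg, hc]
    have h4 : (q * c).gcd c = c := Nat.gcd_eq_right (Dvd.intro_left q rfl)
    rw [h4]
    exact Nat.mul_div_cancel _ (Nat.pos_of_ne_zero hc0)

theorem card_subgroups_modEq {G : Type*} [Group G] [Finite G] (p β : ℕ) (hp : p.Prime)
    (hdiv : p ^ β ∣ Nat.card G) :
    Nat.card {H : Subgroup G // Nat.card H = p ^ β} ≡ 1 [MOD p] := by
  classical
  haveI := Fact.mk hp
  have hN0 : Nat.card G ≠ 0 := Nat.card_pos.ne'
  obtain ⟨α, m, hm, hN⟩ := Nat.exists_eq_pow_mul_and_not_dvd hN0 p hp.ne_one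
  have hβ : β ≤ α := by
    rw [hN] at hdiv
    exact (Nat.Prime.pow_dvd_iff_le_factorization hp (by rw [← hN]; exact hN0)).mp hdiv |>.trans (by
      rw [Nat.factorization_mul (pow_pos hp.pos α).ne' (by
        rintro rfl
        exact hm (dvd_zero p))]
      simp [Nat.factorization_eq_zero_of_not_dvd hm, hp.factorization_self])
  have h1 := choose_modEq (G := G) p β α m hN hβ hm
  -- the cyclic comparison
  haveI hNZ : NeZero (p ^ α * m) := ⟨by rw [← hN]; exact hN0⟩
  let C := Multiplicative (ZMod (p ^ α * m))
  have hCc : Nat.card C = p ^ α * m := by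
    show Nat.card (Multiplicative (ZMod (p ^ α * m))) = _
    rw [Nat.card_congr Multiplicative.toAdd]
    exact Nat.card_zmod _
  have hCq : p ^ β ∣ Nat.card C := by
    rw [hCc, ← hN]
    exact hdiv
  have h2 := choose_modEq (G := C) p β α m hCc hβ hm
  rw [card_subgroups_cyclic _ hCq, one_mul] at h2
  have h3 := h1.symm.trans h2
  -- cancel
  have h4 : p ^ (α - β) * (Nat.card {H : Subgroup G // Nat.card H = p ^ β} * m) ≡ p ^ (α - β) * (1 * m) [MOD p ^ (α - β) * p] := by
    have e1 : p ^ (α - β) * (Nat.card {H : Subgroup G // Nat.card H = p ^ β} * m) = Nat.card {H : Subgroup G // Nat.card H = p ^ β} * (p ^ (α - β) * m) := by ring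
    have e2 : p ^ (α - β) * (1 * m) = p ^ (α - β) * m := by ring
    rw [e1, e2, ← pow_succ]
    exact h3
  have h5 := Nat.ModEq.mul_left_cancel' (pow_pos hp.pos _).ne' h4
  exact Nat.ModEq.cancel_right_of_coprime ((Nat.Prime.coprime_iff_not_dvd hp).mpr hm) h5

end CfsgLib.FGS
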